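import Cfsg.Agent.Lib.H50.OrthCountE

/-!
Field and graph-field automorphisms of `PΩ⁺`.
-/

set_option autoImplicit false
set_option linter.unusedSectionVars false

namespace H50.OrthPlusFam

open Matrix H48.OutO H50.PSLBasic H50.PSLField H50.H90 H50.ClassCount H50.PSLCount H48.QuadSplit H48.QuadStd
  H50.OrthPsi H50.OrthDesc H48.OmegaPlus H50.OrthSim H18.MaxSing H50.OrthPar H50.OrthProper H50.OrthMinusK H50.OrthField
  H50.OrthInn H50.OrthOddCount H50.OrthEven H50.OrthMinusFam H50.OrthCountE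

section par

variable {F : Type*} [Field F] [Fintype F] {k : ℕ}

lemma fix_qPlus (m : ℕ) (σ : F ≃+* F) : FixAt (qPlus m F) σ := by
  intro v
  rw [qPlus_apply, qPlus_apply]
  simp only [Function.comp_apply, map_sum, map_mul]

/-- descended elements of plus type have parity one -/
lemma par_desc_plus {y : ↥(Gam (qPlus k F))} {P} (hd : Desc (qPlus k F) (y : GA (Fin k ⊕ Fin k) F) (qPlus k F) P) :
    par k y = 1 := by
  obtain ⟨w, hw⟩ := hd.a
  rw [← par_std k (fix_qPlus k (y : GA (Fin k ⊕ Fin k) F).right)]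
  exact parG_transport (nd_qPlus k) (card_plus k) (ts_EP k) (finrank_EP k) (nd_qPlus k) (card_plus k) (ts_EP k)
    (finrank_EP k) hd.q y _ ⟨w, fun v => by rw [hw, std_ap]⟩

/-- descended elements of minus type have parity minus one -/
lemma par_desc_minus {F₀ : Type*} [Field F₀] {j : F₀ →+* F} {a₀ b₀ : F₀} (h₀ : An a₀ b₀)
    {y : ↥(Gam (qPlus (k + 1) F))}
    (hj : ∀ x, (∃ c, j c = x) ↔ (y : GA (Fin (k + 1) ⊕ Fin (k + 1)) F).right x = x) {P}
    (hd : Desc (qPlus (k + 1) F) (y : GA (Fin (k + 1) ⊕ Fin (k + 1)) F) (qMinus k F (j a₀) (j b₀)) P) :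
    par (k + 1) y = -1 := by
  set σ := (y : GA (Fin (k + 1) ⊕ Fin (k + 1)) F).right with hσ
  have : Finite F₀ := Finite.of_injective _ j.injective
  -- the root
  obtain ⟨l, hl⟩ : ∃ l : F, l ^ 2 + j a₀ * l + j b₀ = 0 := by
    by_contra hcon
    push Not at hcon
    have hAn : An (j a₀) (j b₀) := by
      intro z₁ z₂ h
      by_cases h2 : z₂ = 0
      · subst h2
        refine ⟨?_, rfl⟩
        have : z₁ ^ 2 = 0 := by linear_combination h
        exact pow_eq_zero_iff two_ne_zero |>.mp this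
      · exfalso
        apply hcon (z₁ / z₂)
        field_simp
        linear_combination h
    exact not_similar hAn (hq_symm hd.q)
  have hσj : ∀ c, σ (j c) = j c := fun c => (hj _).mp ⟨c, rfl⟩
  have hl' : (σ l) ^ 2 + j a₀ * (σ l) + j b₀ = 0 := by
    have := congrArg σ hl
    rwa [map_add, map_add, map_mul, map_pow, hσj, hσj, map_zero] at this
  have hne : l ≠ σ l := by
    intro h
    obtain ⟨c, rfl⟩ := (hj l).mpr h.symm
    apply An.no_root h₀ c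
    apply j.injective
    rw [map_add, map_add, map_mul, map_pow, map_zero]
    exact hl
  have hd' : 4 * j b₀ - j a₀ ^ 2 ≠ 0 := by
    have h1 := disc_ne_zero h₀
    intro h2
    apply h1
    apply j.injective
    rw [map_sub, map_mul, map_pow, map_zero, map_ofNat, h2]
  have hfix : FixAt (qMinus k F (j a₀) (j b₀)) σ := fix_qMinus k (hσj a₀) (hσj b₀)
  obtain ⟨w, hw⟩ := hd.a
  have h1 : par (k + 1) y = parG (nd_qMinus k hd') (card_minus' k) (EM k l) (ts_EM k hl) (finrank_EM k l) (std hfix) :=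
    parG_transport (nd_qPlus (k + 1)) (card_plus (k + 1)) (ts_EP (k + 1)) (finrank_EP (k + 1)) (nd_qMinus k hd')
      (card_minus' k) (ts_EM k hl) (finrank_EM k l) hd.q y _ ⟨w, fun v => by rw [hw, std_ap]⟩
  have h2 : imS ((std hfix : ↥(Gam (qMinus k F (j a₀) (j b₀)))) : GA ((Fin k ⊕ Fin k) ⊕ Fin 2) F) (EM k l) = EM k (σ l) := by
    ext v
    constructor
    · rintro ⟨u, hu, rfl⟩
      rw [std_ap]
      refine ⟨fun i => ?_, ?_⟩
      · change σ (u _) = 0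
        rw [hu.1, map_zero]
      · change σ (u _) = σ l * σ (u _)
        rw [hu.2, map_mul]
    · rintro ⟨h3, h4⟩
      refine ⟨σ.symm ∘ v, ⟨fun i => ?_, ?_⟩, ?_⟩
      · change σ.symm (v _) = 0
        rw [h3, map_zero]
      · change σ.symm (v _) = l * σ.symm (v _)
        rw [h4, map_mul, RingEquiv.symm_apply_apply]
      · rw [std_ap]
        funext i
        exact σ.apply_symm_apply _
  rw [h1, parG_apply, h2]
  unfold pm
  rw [finrank_EM_inf k hne]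
  simp

variable (hk : 3 ≤ k)
include hk

lemma card_ge' : 7 ≤ Fintype.card (Fin (k + 1) ⊕ Fin (k + 1)) := card_ge (by omega)

/-- descent with parity -/
theorem plus_desc {F₀ : Type*} [Field F₀] {j : F₀ →+* F}
    {y : ↥(Gam (qPlus (k + 1) F))} {r : ℕ} (hr : orderOf (y : GA (Fin (k + 1) ⊕ Fin (k + 1)) F).right = r) (hr0 : 0 < r)
    (hj : ∀ x, (∃ c, j c = x) ↔ (y : GA (Fin (k + 1) ⊕ Fin (k + 1)) F).right x = x)
    (hyr : (Psi (qPlus (k + 1) F) y) ^ r = 1) :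
    (par (k + 1) y = 1 → ∃ P, Desc (qPlus (k + 1) F) (y : GA (Fin (k + 1) ⊕ Fin (k + 1)) F) (qPlus (k + 1) F) P) ∧
    (par (k + 1) y = -1 → (∃ a₀ b₀ : F₀, An a₀ b₀) ∧
      ∀ a₀ b₀ : F₀, An a₀ b₀ →
        ∃ P, Desc (qPlus (k + 1) F) (y : GA (Fin (k + 1) ⊕ Fin (k + 1)) F) (qMinus k F (j a₀) (j b₀)) P) := by
  have : Finite F₀ := Finite.of_injective _ j.injective
  obtain ⟨Q₀, hQ₀, H⟩ := exists_desc (nd_iff.mp (nd_qPlus (k + 1))) (card_ge' hk) y hr hr0 hyr hj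
  have hfr : Module.finrank F₀ (Fin (k + 1) ⊕ Fin (k + 1) → F₀) = 2 * (k + 1) := by
    rw [Module.finrank_fintype_fun_eq_card, card_plus]
  rcases classify_even (k + 1) _ Q₀ hQ₀ hfr with h | ⟨-, z, hz, h⟩
  · obtain ⟨P, hP⟩ := H (qPlus (k + 1) F₀) (qPlus (k + 1) F) (ovr_qPlus j _) h.symm
    refine ⟨fun _ => ⟨P, hP⟩, fun h1 => ?_⟩
    rw [par_desc_plus hP] at h1
    exact absurd h1 (by decide)
  · have h' : Q₀.Equivalent (qMinus k F₀ 1 z) := h
    obtain ⟨P, hP⟩ := H (qMinus k F₀ 1 z) _ (ovr_qMinus j k 1 z) h'.symm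
    refine ⟨fun h1 => ?_, fun _ => ⟨⟨1, z, An.of_irr hz⟩, fun a₀ b₀ h₀ => ?_⟩⟩
    · rw [par_desc_minus (An.of_irr hz) hj hP] at h1
      exact absurd h1 (by decide)
    · exact H (qMinus k F₀ a₀ b₀) _ (ovr_qMinus j k a₀ b₀) ((minus_equiv k h₀ (An.of_irr hz)).trans h'.symm)

end par

/-! ### the classes -/

section classes

variable {F : Type*} [Field F] {k : ℕ}

/-- graph-field automorphisms, generic form of the underlying function -/
def GFC {m : ℕ} (Q : (Fin m ⊕ Fin m → F) → F) (β : MulAut (Cfsg.POmega F Q)) : Prop :=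
  ∃ (α γ φ : MulAut (Cfsg.POmega F Q)) (σ : F ≃+* F) (v : Fin m ⊕ Fin m → F)
      (r : GL (Fin m ⊕ Fin m) F),
    σ ≠ RingEquiv.refl F ∧ Q v ≠ 0 ∧ (∀ i, σ (v i) = v i) ∧
    (r : Matrix (Fin m ⊕ Fin m) (Fin m ⊕ Fin m) F) = Cfsg.reflectionMatrix Q v ∧
    Cfsg.IsInducedBySemilinearPOmega Q r (RingEquiv.refl F) γ ∧
    Cfsg.IsFieldAutPOmegaOf Q σ φ ∧ α * β * α⁻¹ = γ * φ

variable [Fintype F]

lemma aut_plus {m : ℕ} (hm : 5 ≤ m) (α : MulAut (Cfsg.POmega F (⇑(qPlus m F)))) :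
    ∃ y : ↥(Gam (qPlus m F)), α = Psi (qPlus m F) y := by
  have h1 := OrthFam.pair_plus (F := F) hm
  rw [← coe_qPlus] at h1
  obtain ⟨g, σ, h2, h3⟩ := h1 α
  exact ⟨⟨⟨g, σ⟩, mem_Gam_iff.mpr h2⟩, (induced_iff ⟨⟨g, σ⟩, mem_Gam_iff.mpr h2⟩ α).mp h3⟩

lemma right_conj {m : ℕ} (a y : ↥(Gam (qPlus m F))) (h : (y : GA (Fin m ⊕ Fin m) F).right ≠ 1) :
    ((a⁻¹ * y * a : ↥(Gam (qPlus m F))) : GA (Fin m ⊕ Fin m) F).right ≠ 1 := by
  rw [Subgroup.coe_mul, Subgroup.coe_mul, SemidirectProduct.mul_right, SemidirectProduct.mul_right, Subgroup.coe_inv,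
    SemidirectProduct.inv_right]
  intro h1
  apply h
  have : (y : GA (Fin m ⊕ Fin m) F).right = (a : GA (Fin m ⊕ Fin m) F).right *
      ((a : GA (Fin m ⊕ Fin m) F).right⁻¹ * (y : GA (Fin m ⊕ Fin m) F).right * (a : GA (Fin m ⊕ Fin m) F).right) *
      (a : GA (Fin m ⊕ Fin m) F).right⁻¹ := by group
  rw [this, h1, mul_one, mul_inv_cancel]

lemma par_conj {m : ℕ} (a y : ↥(Gam (qPlus m F))) : par m (a⁻¹ * y * a) = par m y := by
  rw [map_mul, map_mul, map_inv]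
  have : ∀ a b : ℤˣ, a⁻¹ * b * a = b := by decide
  exact this _ _

/-- field automorphisms come from elements of parity one -/
lemma field_rep {m : ℕ} (hm : 5 ≤ m) {x : MulAut (Cfsg.POmega F (⇑(qPlus m F)))}
    (hx : Cfsg.IsFieldAutClassPOmega (⇑(qPlus m F)) x) :
    ∃ y : ↥(Gam (qPlus m F)), x = Psi _ y ∧ par m y = 1 ∧ (y : GA (Fin m ⊕ Fin m) F).right ≠ 1 := by
  obtain ⟨α, φ, σ, h1, h2, h3⟩ := hx
  have h4 := (isField_iff (fix_qPlus m σ) φ).mp h2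
  obtain ⟨a, rfl⟩ := aut_plus hm α
  refine ⟨a⁻¹ * std (fix_qPlus m σ) * a, ?_, ?_, right_conj a _ h1⟩
  · rw [map_mul, map_mul, map_inv, ← h4, ← h3]
    group
  · rw [par_conj, par_std]

/-- graph-field automorphisms come from elements of parity minus one -/
lemma gf_rep {m : ℕ} (hm : 5 ≤ m) {x : MulAut (Cfsg.POmega F (⇑(qPlus m F)))} (hx : GFC (⇑(qPlus m F)) x) :
    ∃ y : ↥(Gam (qPlus m F)), x = Psi _ y ∧ par m y = -1 ∧ (y : GA (Fin m ⊕ Fin m) F).right ≠ 1 := by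
  obtain ⟨α, γ, φ, σ, v, g, h1, h2, h3, h4, h5, h6, h7⟩ := hx
  have h8 := (isField_iff (fix_qPlus m σ) φ).mp h6
  obtain ⟨a, rfl⟩ := aut_plus hm α
  have h9 : γ = Psi _ (Rf (qPlus m F) v h2) := by
    rw [← induced_iff]
    have h10 : ((Rf (qPlus m F) v h2 : ↥(Gam (qPlus m F))) : GA (Fin m ⊕ Fin m) F).left = g := by
      apply Units.ext
      rw [h4]
      rfl
    rw [h10]
    exact h5
  refine ⟨a⁻¹ * (Rf (qPlus m F) v h2 * std (fix_qPlus m σ)) * a, ?_, ?_, right_conj a _ ?_⟩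
  · rw [map_mul, map_mul, map_inv, map_mul, ← h8, ← h9, ← h7]
    group
  · rw [par_conj, map_mul, par_std, mul_one]
    exact parG_Rf (nd_qPlus m) (card_plus m) (ts_EP m) (finrank_EP m) v h2
  · rw [Subgroup.coe_mul, SemidirectProduct.mul_right, Rf_right, one_mul, std_right]
    exact h1

/-- orders -/
lemma order_right {m : ℕ} (hm : 4 ≤ m) {y : ↥(Gam (qPlus m F))} {r : ℕ} (hr : r.Prime)
    (hyr : (Psi (qPlus m F) y) ^ r = 1) (h : (y : GA (Fin m ⊕ Fin m) F).right ≠ 1) :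
    orderOf (y : GA (Fin m ⊕ Fin m) F).right = r ∧ (par m y) ^ r = 1 := by
  rw [← map_pow, Psi_eq_one_iff (nd_iff.mp (nd_qPlus m)) (card_ge hm)] at hyr
  obtain ⟨u, hu⟩ := hyr
  constructor
  · have h1 : (y : GA (Fin m ⊕ Fin m) F).right ^ r = 1 := by
      rw [← right_pow, hu]; rfl
    have h2 := orderOf_dvd_of_pow_eq_one h1
    rcases (Nat.dvd_prime hr).mp h2 with h3 | h3
    · exact absurd (orderOf_eq_one_iff.mp h3) h
    · exact h3
  · rw [← map_pow, hu]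
    exact parG_toGam_scG (nd_qPlus m) (card_plus m) (ts_EP m) (finrank_EP m) u

lemma two_of_par {r : ℕ} (hr : r.Prime) {e : ℤˣ} (he : e = -1) (h : e ^ r = 1) : r = 2 := by
  rcases hr.eq_two_or_odd' with h1 | h1
  · exact h1
  · rw [he, h1.neg_one_pow] at h
    exact absurd h (by decide)

lemma par_cases (e : ℤˣ) : e = 1 ∨ e = -1 := Int.units_eq_one_or e

/-- two elements with the same field part and the same parity -/
theorem conj_par {k : ℕ} (hk : 3 ≤ k) {y y₀ : ↥(Gam (qPlus (k + 1) F))} {r : ℕ} (hr : r.Prime)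
    (hright : (y : GA (Fin (k + 1) ⊕ Fin (k + 1)) F).right = (y₀ : GA (Fin (k + 1) ⊕ Fin (k + 1)) F).right)
    (hord : orderOf (y₀ : GA (Fin (k + 1) ⊕ Fin (k + 1)) F).right = r)
    (hyr : (Psi (qPlus (k + 1) F) y) ^ r = 1) (hyr₀ : (Psi (qPlus (k + 1) F) y₀) ^ r = 1)
    (hpar : par (k + 1) y = par (k + 1) y₀) :
    ∃ t ∈ DP (qPlus (k + 1) F) (k + 1), Psi (qPlus (k + 1) F) y = psi1 _ t * Psi _ y₀ * (psi1 _ t)⁻¹ := by
  let j : H49.FixedField.fixedField (y₀ : GA (Fin (k + 1) ⊕ Fin (k + 1)) F).right →+* F :=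
    (H49.FixedField.fixedField (y₀ : GA (Fin (k + 1) ⊕ Fin (k + 1)) F).right).subtype
  have hj : ∀ x, (∃ c, j c = x) ↔ (y₀ : GA (Fin (k + 1) ⊕ Fin (k + 1)) F).right x = x :=
    fun x => ⟨by rintro ⟨c, rfl⟩; exact c.2, fun h => ⟨⟨x, h⟩, rfl⟩⟩
  have hj' : ∀ c, (y₀ : GA (Fin (k + 1) ⊕ Fin (k + 1)) F).right (j c) = j c := fun c => (hj _).mp ⟨c, rfl⟩
  letI : Fintype (H49.FixedField.fixedField (y₀ : GA (Fin (k + 1) ⊕ Fin (k + 1)) F).right) := Fintype.ofFinite _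
  have d₀ := plus_desc hk (y := y₀) (j := j) hord hr.pos hj hyr₀
  have d := plus_desc hk (y := y) (j := j) (by rw [hright]; exact hord) hr.pos (by rw [hright]; exact hj) hyr
  rcases par_cases (par (k + 1) y₀) with h | h
  · obtain ⟨P₀, hP₀⟩ := d₀.1 h
    obtain ⟨P, hP⟩ := d.1 (hpar.trans h)
    exact conj_DP (nd_iff.mp (nd_qPlus (k + 1))) (card_plus (k + 1)) (card_ge' hk) hright hj' (ovr_qPlus j (k + 1))
      (hne_plus (F := H49.FixedField.fixedField (y₀ : GA (Fin (k + 1) ⊕ Fin (k + 1)) F).right) (by omega)) hP hP₀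
  · obtain ⟨⟨a₀, b₀, h₀⟩, H₀⟩ := d₀.2 h
    obtain ⟨P₀, hP₀⟩ := H₀ a₀ b₀ h₀
    obtain ⟨P, hP⟩ := (d.2 (hpar.trans h)).2 a₀ b₀ h₀
    exact conj_DP (nd_iff.mp (nd_qPlus (k + 1))) (card_plus (k + 1)) (card_ge' hk) hright hj' (ovr_qMinus j k a₀ b₀)
      (hne_minus k a₀ b₀) hP hP₀

theorem s2736 {k : ℕ} (hk : 4 ≤ k) :
    ∀ (x δ : MulAut (Cfsg.POmega F (⇑(qPlus (k + 1) F))))
      (_ : Cfsg.IsFieldAutClassPOmega (⇑(qPlus (k + 1) F)) x ∨ GFC (⇑(qPlus (k + 1) F)) x) {r : ℕ}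
      (_ : r.Prime) (_ : orderOf x = r)
      (_ : δ ∈ inndF (⇑(qPlus (k + 1) F)) (Cfsg.PreservesSingularClasses (⇑(qPlus (k + 1) F)))),
      orderOf (δ * x) = r ↔
        Cfsg.IsConjUnder (inndF (⇑(qPlus (k + 1) F)) (Cfsg.PreservesSingularClasses (⇑(qPlus (k + 1) F)))) x (δ * x) := by
  intro x δ hx r hr hxr hδ
  have hxr' : x ^ r = 1 := by rw [← hxr]; exact pow_orderOf_eq_one x
  obtain ⟨y₀, rfl, hy₀⟩ : ∃ y : ↥(Gam (qPlus (k + 1) F)), x = Psi _ y ∧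
      (y : GA (Fin (k + 1) ⊕ Fin (k + 1)) F).right ≠ 1 := by
    rcases hx with hx | hx
    · obtain ⟨y, h1, -, h3⟩ := field_rep (by omega) hx
      exact ⟨y, h1, h3⟩
    · obtain ⟨y, h1, -, h3⟩ := gf_rep (by omega) hx
      exact ⟨y, h1, h3⟩
  have hord := (order_right (by omega) hr hxr' hy₀).1
  rw [inndP_eq (by omega)] at hδ ⊢
  obtain ⟨g, hg, rfl⟩ := hδ
  constructor
  · intro h
    have h1 : (psi1 _ g * Psi _ y₀) ^ r = 1 := by rw [← h]; exact pow_orderOf_eq_one _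
    rw [psi1_apply, ← map_mul] at h1 ⊢
    obtain ⟨t, ht1, ht2⟩ := conj_par (by omega) (y := toGam _ g * y₀) (y₀ := y₀) hr (by
      rw [Subgroup.coe_mul, SemidirectProduct.mul_right, toGam_coe, SemidirectProduct.right_inl, one_mul])
      hord h1 hxr' (by rw [map_mul, (par_iff (by omega) g).mpr hg, one_mul])
    exact ⟨psi1 _ t, ⟨t, ht1, rfl⟩, ht2⟩
  · rintro ⟨h, -, h1⟩
    rw [h1, orderOf_conj, hxr]

end classes

end H50.OrthPlusFam
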