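import Cfsg.Agent.Lib.H48.QuadWitt
import Cfsg.Agent.Lib.H17.OrthAbs

/-!
Skew nilpotent maps of index at most three of a quadratic space: adapted families of vectors.
-/
set_option autoImplicit false
set_option linter.unusedSectionVars false
set_option linter.unusedVariables false
set_option maxHeartbeats 400000

namespace H50.O73

open QuadraticMap Module Matrix H48.QuadWitt H17.OrthAbs

variable {F V : Type*} [Field F] [AddCommGroup V] [Module F V]

/-- skew maps with `n³ = 0` -/
structure SK (Q : QuadraticForm F V) (n : V →ₗ[F] V) : Prop where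
  sk : ∀ u v, polar Q (n u) v = - polar Q u (n v)
  nil : ∀ u, n (n (n u)) = 0

variable {Q : QuadraticForm F V} {n : V →ₗ[F] V}

section ext

theorem SK.sk2 (h : SK Q n) (u v : V) : polar Q (n (n u)) v = polar Q u (n (n v)) := by
  rw [h.sk, h.sk, neg_neg]

theorem SK.sq (h2 : (2 : F) ≠ 0) (h : SK Q n) (u : V) : polar Q (n u) u = 0 := by
  have h1 := h.sk u u
  rw [polar_comm Q u] at h1
  have h3 : 2 * polar Q (n u) u = 0 := by linear_combination h1
  exact (mul_eq_zero.mp h3).resolve_left h2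

theorem exists_v (h2 : (2 : F) ≠ 0) (h : SK Q n) {W : Submodule F V} (hW : ∀ w ∈ W, n w ∈ W)
    (hnd : ∀ u ∈ W, (∀ w ∈ W, polar Q u w = 0) → u = 0) (hne : ∃ u ∈ W, n (n u) ≠ 0) :
    ∃ v ∈ W, polar Q (n (n v)) v ≠ 0 := by
  by_contra hcon
  push Not at hcon
  obtain ⟨u, hu, hu2⟩ := hne
  apply hu2
  apply hnd _ (hW _ (hW _ hu))
  intro w hw
  have h1 := hcon _ (W.add_mem hu hw)
  rw [map_add, map_add, polar_add_left, polar_add_right, polar_add_right, hcon u hu, hcon w hw, h.sk2 w u,
    polar_comm Q w] at h1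
  have h3 : 2 * polar Q (n (n u)) w = 0 := by linear_combination h1
  exact (mul_eq_zero.mp h3).resolve_left h2

theorem adjust_v (h2 : (2 : F) ≠ 0) (h : SK Q n) {W : Submodule F V} (hW : ∀ w ∈ W, n w ∈ W) {v : V} (hv : v ∈ W)
    {α : F} (hα : α ≠ 0) (hv1 : polar Q (n (n v)) v = α) :
    ∃ v' ∈ W, polar Q (n (n v')) v' = α ∧ polar Q v' v' = 0 := by
  have e0 : ∀ w, polar Q (n (n v)) (n (n w)) = 0 := by
    intro w
    rw [h.sk2, h.nil, polar_zero_right]
  refine ⟨v + (-(polar Q v v) / (2 * α)) • n (n v), W.add_mem hv (W.smul_mem _ (hW _ (hW _ hv))), ?_, ?_⟩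
  · rw [map_add, map_add, map_smul, map_smul, h.nil, smul_zero, add_zero, polar_add_right, polar_smul_right,
      e0, smul_zero, add_zero, hv1]
  · rw [polar_add_left, polar_add_right, polar_add_right, polar_smul_left, polar_smul_right, polar_smul_left,
      polar_smul_right, e0, polar_comm Q v (n (n v)), hv1]
    simp only [smul_eq_mul]
    field_simp
    ring

theorem exists_ab (h2 : (2 : F) ≠ 0) (h : SK Q n) {W : Submodule F V} (hW : ∀ w ∈ W, n w ∈ W)
    (hnd : ∀ u ∈ W, (∀ w ∈ W, polar Q u w = 0) → u = 0) (h0 : ∀ u ∈ W, n (n u) = 0) (hne : ∃ u ∈ W, n u ≠ 0) :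
    ∃ a ∈ W, ∃ b ∈ W, polar Q (n a) b = 1 ∧ polar Q a a = 0 ∧ polar Q b b = 0 ∧ polar Q a b = 0 := by
  obtain ⟨a, ha, ha0⟩ := hne
  obtain ⟨b, hb, hb0⟩ : ∃ b ∈ W, polar Q (n a) b ≠ 0 := by
    by_contra hcon
    push Not at hcon
    exact ha0 (hnd _ (hW _ ha) hcon)
  obtain ⟨b, hb, hab⟩ : ∃ b ∈ W, polar Q (n a) b = 1 :=
    ⟨(polar Q (n a) b)⁻¹ • b, W.smul_mem _ hb, by rw [polar_smul_right, smul_eq_mul, inv_mul_cancel₀ hb0]⟩
  have ez : ∀ x ∈ W, ∀ y ∈ W, polar Q (n x) (n y) = 0 := by
    intro x hx y hy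
    rw [h.sk, h0 y hy, polar_zero_right, neg_zero]
  -- first vector
  obtain ⟨a, ha, hab, haa⟩ : ∃ a' ∈ W, polar Q (n a') b = 1 ∧ polar Q a' a' = 0 := by
    refine ⟨a + (polar Q a a / 2) • n b, W.add_mem ha (W.smul_mem _ (hW _ hb)), ?_, ?_⟩
    · rw [map_add, map_smul, h0 b hb, smul_zero, add_zero, hab]
    · have e1 : polar Q a (n b) = -1 := by rw [← neg_eq_iff_eq_neg, ← h.sk, hab]
      rw [polar_add_left, polar_add_right, polar_add_right, polar_smul_left, polar_smul_right, polar_smul_left,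
        polar_smul_right, ez b hb b hb, polar_comm Q (n b) a, e1]
      simp only [smul_eq_mul]
      field_simp
      ring
  -- second vector
  obtain ⟨b, hb, hab, hbb⟩ : ∃ b' ∈ W, polar Q (n a) b' = 1 ∧ polar Q b' b' = 0 := by
    refine ⟨b + (-(polar Q b b) / 2) • n a, W.add_mem hb (W.smul_mem _ (hW _ ha)), ?_, ?_⟩
    · rw [polar_add_right, polar_smul_right, ez a ha a ha, smul_zero, add_zero, hab]
    · rw [polar_add_left, polar_add_right, polar_add_right, polar_smul_left, polar_smul_right, polar_smul_left,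
        polar_smul_right, ez a ha a ha, polar_comm Q b (n a), hab]
      simp only [smul_eq_mul]
      field_simp
      ring
  refine ⟨a + (-(polar Q a b)) • n a, W.add_mem ha (W.smul_mem _ (hW _ ha)), b, hb, ?_, ?_, hbb, ?_⟩
  · rw [map_add, map_smul, h0 a ha, smul_zero, add_zero, hab]
  · rw [polar_add_left, polar_add_right, polar_add_right, polar_smul_left, polar_smul_right, polar_smul_left,
      polar_smul_right, ez a ha a ha, polar_comm Q a (n a), h.sq h2, haa]
    simp
  · rw [polar_add_left, polar_smul_left, hab]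
    simp

end ext

section fam

variable {κ : Type} [Fintype κ] [DecidableEq κ]

/-- families with prescribed Gram matrix and action -/
def Fam (Q : QuadraticForm F V) (n : V →ₗ[F] V) (v : κ → V) (G A : Matrix κ κ F) : Prop :=
  (∀ i j, polar Q (v i) (v j) = G i j) ∧ ∀ j, n (v j) = ∑ i, A i j • v i

/-- the orthogonal space of a family -/
def pp (Q : QuadraticForm F V) (v : κ → V) : Submodule F V where
  carrier := {u | ∀ i, polar Q (v i) u = 0}
  add_mem' := fun {a b} ha hb i => by rw [polar_add_right, ha i, hb i, add_zero]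
  zero_mem' := fun i => polar_zero_right _ _
  smul_mem' := fun c x hx i => by rw [polar_smul_right, hx i, smul_zero]

theorem mem_pp {v : κ → V} {u : V} : u ∈ pp Q v ↔ ∀ i, polar Q (v i) u = 0 := Iff.rfl

theorem polar_sum {v : κ → V} (c : κ → F) (u : V) : polar Q u (∑ i, c i • v i) = ∑ i, c i * polar Q u (v i) := by
  have h : ∀ s : Finset κ, polar Q u (∑ i ∈ s, c i • v i) = ∑ i ∈ s, c i * polar Q u (v i) := by
    intro s
    induction s using Finset.induction_on with
    | empty => simp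
    | insert a s ha ih => rw [Finset.sum_insert ha, Finset.sum_insert ha, polar_add_right, polar_smul_right, ih, smul_eq_mul]
  exact h _

variable {v : κ → V} {G A : Matrix κ κ F}

theorem Fam.linInd (h : Fam Q n v G A) (hG : G.det ≠ 0) : LinearIndependent F v := by
  rw [Fintype.linearIndependent_iff]
  intro c hc
  have h1 : G *ᵥ c = 0 := by
    funext i
    have h2 := polar_sum (Q := Q) (v := v) c (v i)
    rw [hc, polar_zero_right] at h2
    rw [mulVec, dotProduct, Pi.zero_apply]
    rw [h2]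
    exact Finset.sum_congr rfl fun j _ => by rw [← h.1 i j, mul_comm]
  have h3 := Matrix.eq_zero_of_mulVec_eq_zero hG h1
  exact fun i => congrFun h3 i

theorem Fam.decomp (h : Fam Q n v G A) (hG : G.det ≠ 0) (u : V) : ∃ c : κ → F, u - ∑ i, c i • v i ∈ pp Q v := by
  refine ⟨G⁻¹ *ᵥ (fun i => polar Q (v i) u), ?_⟩
  intro i
  rw [polar_sub_right, polar_sum]
  have h1 : (G *ᵥ (G⁻¹ *ᵥ (fun i => polar Q (v i) u))) i = polar Q (v i) u := by
    rw [mulVec_mulVec, Matrix.mul_nonsing_inv _ (isUnit_iff_ne_zero.mpr hG), one_mulVec]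
  rw [sub_eq_zero, ← h1]
  rw [mulVec, dotProduct]
  exact Finset.sum_congr rfl fun j _ => by rw [← h.1 i j, mul_comm]

theorem Fam.inv (hn : SK Q n) (h : Fam Q n v G A) : ∀ w ∈ pp Q v, n w ∈ pp Q v := by
  intro w hw i
  have h1 := hn.sk (v i) w
  have h2 : polar Q (n (v i)) w = 0 := by
    rw [h.2, polar_comm, polar_sum]
    exact Finset.sum_eq_zero fun j _ => by rw [polar_comm, hw j, mul_zero]
  rw [h2] at h1
  linear_combination h1

theorem Fam.nd (hQ : (polarBilin Q).Nondegenerate) (h : Fam Q n v G A) (hG : G.det ≠ 0) :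
    ∀ u ∈ pp Q v, (∀ w ∈ pp Q v, polar Q u w = 0) → u = 0 := by
  intro u hu hw
  apply nondeg_left hQ
  intro y
  obtain ⟨c, hc⟩ := h.decomp hG y
  have h1 := hw _ hc
  rw [polar_sub_right, polar_sum] at h1
  rw [Finset.sum_eq_zero (fun i _ => by rw [polar_comm, hu i, mul_zero]), sub_zero] at h1
  exact h1

theorem Fam.card_le [FiniteDimensional F V] (h : Fam Q n v G A) (hG : G.det ≠ 0) : Fintype.card κ ≤ finrank F V :=
  (h.linInd hG).fintype_card_le_finrank

/-- combining families -/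
theorem Fam.comb {κ' : Type} [Fintype κ'] [DecidableEq κ'] {v' : κ' → V} {G' A' : Matrix κ' κ' F} (h : Fam Q n v G A)
    (h' : Fam Q n v' G' A') (hp : ∀ i, v' i ∈ pp Q v) :
    Fam Q n (Sum.elim v v') (fromBlocks G 0 0 G') (fromBlocks A 0 0 A') := by
  constructor
  · rintro (i | i) (j | j)
    · exact h.1 i j
    · exact hp j i
    · rw [polar_comm]; exact hp i j
    · exact h'.1 i j
  · rintro (j | j)
    · rw [Fintype.sum_sum_type]
      simp only [Sum.elim_inl, Sum.elim_inr, fromBlocks_apply₁₁, fromBlocks_apply₂₁, Matrix.zero_apply, zero_smul,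
        Finset.sum_const_zero, add_zero]
      exact h.2 j
    · rw [Fintype.sum_sum_type]
      simp only [Sum.elim_inl, Sum.elim_inr, fromBlocks_apply₁₂, fromBlocks_apply₂₂, Matrix.zero_apply, zero_smul,
        Finset.sum_const_zero, zero_add]
      exact h'.2 j

/-- the map has type `(G, A)` -/
def Tp (Q : QuadraticForm F V) (n : V →ₗ[F] V) (G A : Matrix κ κ F) : Prop :=
  ∃ v : κ → V, Fam Q n v G A ∧ ∀ u ∈ pp Q v, n u = 0

theorem polar_self_eq (u : V) : polar Q u u = 2 * Q u := by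
  rw [polar_self, nsmul_eq_mul]; norm_num

/-- maps of the same type are conjugate under the isometry group -/
theorem Tp.conj [FiniteDimensional F V] (h2 : (2 : F) ≠ 0) (hQ : (polarBilin Q).Nondegenerate) (hG : G.det ≠ 0)
    {n' : V →ₗ[F] V} (h : Tp Q n G A) (h' : Tp Q n' G A) : ∃ g ∈ O Q, ∀ u, g (n u) = n' (g u) := by
  obtain ⟨v, hv, hv0⟩ := h
  obtain ⟨v', hv', hv0'⟩ := h'
  let e := Fintype.equivFin κ
  obtain ⟨g, hg, hgv⟩ := witt_family hQ (fun i => v (e.symm i)) (fun i => v' (e.symm i))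
    ((hv.linInd hG).comp _ e.symm.injective) ((hv'.linInd hG).comp _ e.symm.injective)
    (fun i => by
      have h1 := hv.1 (e.symm i) (e.symm i)
      have h3 := hv'.1 (e.symm i) (e.symm i)
      rw [polar_self_eq] at h1 h3
      exact mul_left_cancel₀ h2 (h1.trans h3.symm))
    (fun i j => by rw [hv.1, hv'.1])
  have hgv' : ∀ i, g (v i) = v' i := by
    intro i
    have := hgv (e i)
    simpa using this
  have hpol : ∀ x y, polar Q (g x) (g y) = polar Q x y := polar_map (Q := Q) (g := g) hg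
  refine ⟨g, hg, fun u => ?_⟩
  obtain ⟨c, hc⟩ := hv.decomp hG u
  obtain ⟨w, hw⟩ : ∃ w, w = u - ∑ i, c i • v i := ⟨_, rfl⟩
  rw [← hw] at hc
  have hu : u = ∑ i, c i • v i + w := by rw [hw]; abel
  have h1 : n' (g w) = 0 := by
    apply hv0'
    intro i
    rw [← hgv', hpol]
    exact hc i
  have h3 : ∀ j, g (n (v j)) = n' (v' j) := by
    intro j
    rw [hv.2, hv'.2, map_sum]
    exact Finset.sum_congr rfl fun i _ => by rw [map_smul, hgv']
  rw [hu, map_add, hv0 w hc, add_zero, map_add, map_add, h1, add_zero, map_sum, map_sum, map_sum, map_sum]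
  refine Finset.sum_congr rfl fun i _ => ?_
  rw [map_smul, map_smul, map_smul, map_smul, h3, hgv']

end fam

end H50.O73
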