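import Cfsg.Agent.Lib.H50.O73a

/-!
Types of skew nilpotent maps of index at most three in dimension seven over the field with three elements.
-/
set_option autoImplicit false
set_option linter.unusedSectionVars false
set_option linter.unusedVariables false
set_option maxHeartbeats 400000

namespace H50.O73

open QuadraticMap Module Matrix H48.QuadWitt H17.OrthAbs

section gen

variable {F V : Type*} [Field F] [AddCommGroup V] [Module F V] {Q : QuadraticForm F V} {n : V →ₗ[F] V}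

def G3 (α : F) : Matrix (Fin 3) (Fin 3) F := !![0, 0, α; 0, -α, 0; α, 0, 0]
def A3 (F : Type*) [Field F] : Matrix (Fin 3) (Fin 3) F := !![0, 0, 0; 1, 0, 0; 0, 1, 0]
def G2 (F : Type*) [Field F] : Matrix (Fin 4) (Fin 4) F := !![0, 0, 0, -1; 0, 0, 1, 0; 0, 1, 0, 0; -1, 0, 0, 0]
def A2 (F : Type*) [Field F] : Matrix (Fin 4) (Fin 4) F := !![0, 0, 0, 0; 0, 0, 0, 0; 1, 0, 0, 0; 0, 1, 0, 0]

theorem det_G3 (α : F) : (G3 α).det = α ^ 3 := by
  rw [G3, det_fin_three]; simp; ring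

theorem det_G2 : (G2 F).det ≠ 0 := by
  have h : G2 F * G2 F = 1 := by
    ext i j
    fin_cases i <;> fin_cases j <;> simp [G2, Matrix.mul_apply, Fin.sum_univ_four]
  intro h0
  have h1 := congrArg Matrix.det h
  rw [det_mul, h0, zero_mul, det_one] at h1
  exact zero_ne_one h1

theorem fam3 (h2 : (2 : F) ≠ 0) (hn : SK Q n) {v : V} {α : F} (h1 : polar Q (n (n v)) v = α) (h0 : polar Q v v = 0) :
    Fam Q n ![v, n v, n (n v)] (G3 α) (A3 F) := by
  have e1 : polar Q v (n (n v)) = α := by rw [polar_comm, h1]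
  have e2 : polar Q (n v) v = 0 := hn.sq h2 v
  have e3 : polar Q v (n v) = 0 := by rw [polar_comm, e2]
  have e4 : polar Q (n v) (n v) = -α := by rw [hn.sk, e1]
  have e5 : polar Q (n v) (n (n v)) = 0 := by rw [hn.sk, hn.nil, polar_zero_right, neg_zero]
  have e6 : polar Q (n (n v)) (n v) = 0 := by rw [polar_comm, e5]
  have e7 : polar Q (n (n v)) (n (n v)) = 0 := by rw [hn.sk, hn.nil, polar_zero_right, neg_zero]
  constructor
  · intro i j
    fin_cases i <;> fin_cases j <;> simp [G3, e1, e2, e3, e4, e5, e6, e7, h0, h1]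
  · intro j
    fin_cases j <;> simp [A3, Fin.sum_univ_three, hn.nil]

theorem fam2 (h2 : (2 : F) ≠ 0) (hn : SK Q n) {a b : V} (h1 : polar Q (n a) b = 1) (ha : polar Q a a = 0)
    (hb : polar Q b b = 0) (hab : polar Q a b = 0) (na : n (n a) = 0) (nb : n (n b) = 0) :
    Fam Q n ![a, b, n a, n b] (G2 F) (A2 F) := by
  have e1 : polar Q b (n a) = 1 := by rw [polar_comm, h1]
  have e2 : polar Q (n b) a = -1 := by rw [hn.sk, e1]
  have e3 : polar Q a (n b) = -1 := by rw [polar_comm, e2]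
  have e4 : polar Q (n a) a = 0 := hn.sq h2 a
  have e5 : polar Q a (n a) = 0 := by rw [polar_comm, e4]
  have e6 : polar Q (n b) b = 0 := hn.sq h2 b
  have e7 : polar Q b (n b) = 0 := by rw [polar_comm, e6]
  have e8 : polar Q (n a) (n a) = 0 := by rw [hn.sk, na, polar_zero_right, neg_zero]
  have e9 : polar Q (n b) (n b) = 0 := by rw [hn.sk, nb, polar_zero_right, neg_zero]
  have e10 : polar Q (n a) (n b) = 0 := by rw [hn.sk, nb, polar_zero_right, neg_zero]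
  have e11 : polar Q (n b) (n a) = 0 := by rw [polar_comm, e10]
  have e12 : polar Q b a = 0 := by rw [polar_comm, hab]
  constructor
  · intro i j
    fin_cases i <;> fin_cases j <;> simp [G2, e1, e2, e3, e4, e5, e6, e7, e8, e9, e10, e11, e12, h1, ha, hb, hab]
  · intro j
    fin_cases j <;> simp [A2, Fin.sum_univ_four, na, nb]

variable {κ : Type} [Fintype κ] [DecidableEq κ] {v : κ → V} {G A : Matrix κ κ F}

theorem mem3 {W : Submodule F V} (hW : ∀ w ∈ W, n w ∈ W) {w : V} (hw : w ∈ W) : ∀ i, (![w, n w, n (n w)] : Fin 3 → V) i ∈ W := by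
  intro i
  fin_cases i
  · exact hw
  · exact hW _ hw
  · exact hW _ (hW _ hw)

theorem mem2 {W : Submodule F V} (hW : ∀ w ∈ W, n w ∈ W) {a b : V} (ha : a ∈ W) (hb : b ∈ W) : ∀ i, (![a, b, n a, n b] : Fin 4 → V) i ∈ W := by
  intro i
  fin_cases i
  · exact ha
  · exact hb
  · exact hW _ ha
  · exact hW _ hb

/-- extending a family by a block of size three -/
theorem ext3 (h2 : (2 : F) ≠ 0) (hQ : (polarBilin Q).Nondegenerate) (hn : SK Q n) (h : Fam Q n v G A) (hG : G.det ≠ 0)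
    (hne : ∃ u ∈ pp Q v, n (n u) ≠ 0) : ∃ α : F, α ≠ 0 ∧ ∃ w ∈ pp Q v, polar Q (n (n w)) w = α ∧
      Fam Q n (Sum.elim v ![w, n w, n (n w)]) (fromBlocks G 0 0 (G3 α)) (fromBlocks A 0 0 (A3 F)) := by
  obtain ⟨w, hw, hw0⟩ := exists_v h2 hn (h.inv hn) (h.nd hQ hG) hne
  obtain ⟨w', hw', h3, h4⟩ := adjust_v h2 hn (h.inv hn) hw hw0 rfl
  exact ⟨_, hw0, w', hw', h3, h.comb (fam3 h2 hn h3 h4) (mem3 (h.inv hn) hw')⟩

theorem ext2 (h2 : (2 : F) ≠ 0) (hQ : (polarBilin Q).Nondegenerate) (hn : SK Q n) (h : Fam Q n v G A) (hG : G.det ≠ 0)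
    (hz : ∀ u ∈ pp Q v, n (n u) = 0) (hne : ∃ u ∈ pp Q v, n u ≠ 0) : ∃ a b,
      Fam Q n (Sum.elim v ![a, b, n a, n b]) (fromBlocks G 0 0 (G2 F)) (fromBlocks A 0 0 (A2 F)) := by
  obtain ⟨a, ha, b, hb, h3, h4, h5, h6⟩ := exists_ab h2 hn (h.inv hn) (h.nd hQ hG) hz hne
  exact ⟨a, b, h.comb (fam2 h2 hn h3 h4 h5 h6 (hz _ ha) (hz _ hb)) (mem2 (h.inv hn) ha hb)⟩

theorem det_blk {κ' : Type} [Fintype κ'] [DecidableEq κ'] {G' : Matrix κ' κ' F} (hG : G.det ≠ 0) (hG' : G'.det ≠ 0) :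
    (fromBlocks G 0 0 G').det ≠ 0 := by
  rw [det_fromBlocks_zero₂₁]; exact mul_ne_zero hG hG'

theorem det_G3' {α : F} (h : α ≠ 0) : (G3 α).det ≠ 0 := by rw [det_G3]; exact pow_ne_zero _ h

/-- a large family has a trivial complement -/
theorem triv [FiniteDimensional F V] (h2 : (2 : F) ≠ 0) (hQ : (polarBilin Q).Nondegenerate) (hn : SK Q n)
    (h : Fam Q n v G A) (hG : G.det ≠ 0) (hc : finrank F V < Fintype.card κ + 3) : ∀ u ∈ pp Q v, n u = 0 := by
  by_contra hcon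
  push Not at hcon
  obtain ⟨u, hu, hu0⟩ := hcon
  by_cases hz : ∀ u ∈ pp Q v, n (n u) = 0
  · obtain ⟨a, b, h3⟩ := ext2 h2 hQ hn h hG hz ⟨u, hu, hu0⟩
    have := h3.card_le (det_blk hG det_G2)
    rw [Fintype.card_sum, Fintype.card_fin] at this
    omega
  · push Not at hz
    obtain ⟨α, hα, w, hw, -, h3⟩ := ext3 h2 hQ hn h hG hz
    have := h3.card_le (det_blk hG (det_G3' hα))
    rw [Fintype.card_sum, Fintype.card_fin] at this
    omega

/-- the seven types -/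
theorem cases0 [FiniteDimensional F V] (h2 : (2 : F) ≠ 0) (hQ : (polarBilin Q).Nondegenerate) (hd : finrank F V = 7)
    (hn : SK Q n) (hz : ∀ u, n (n u) = 0) (hne : ∃ u, n u ≠ 0) : Tp Q n (G2 F) (A2 F) := by
  have hnd : ∀ u ∈ (⊤ : Submodule F V), (∀ w ∈ (⊤ : Submodule F V), polar Q u w = 0) → u = 0 :=
    fun u _ h => nondeg_left hQ fun y => h y trivial
  obtain ⟨u, hu⟩ := hne
  obtain ⟨a, -, b, -, h3, h4, h5, h6⟩ := exists_ab h2 hn (W := ⊤) (fun _ _ => trivial) hnd (fun u _ => hz u) ⟨u, trivial, hu⟩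
  have hf := fam2 h2 hn h3 h4 h5 h6 (hz _) (hz _)
  refine ⟨_, hf, ?_⟩
  by_contra hcon
  push Not at hcon
  obtain ⟨a', b', h7⟩ := ext2 h2 hQ hn hf det_G2 (fun u _ => hz u) hcon
  have := h7.card_le (det_blk det_G2 det_G2)
  rw [Fintype.card_sum, Fintype.card_fin] at this
  omega

theorem cases1 [FiniteDimensional F V] (h2 : (2 : F) ≠ 0) (hQ : (polarBilin Q).Nondegenerate) (hd : finrank F V = 7)
    (hn : SK Q n) {α : F} (hα : α ≠ 0) (hne : ∃ u, polar Q (n (n u)) u = α) :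
    Tp Q n (G3 α) (A3 F) ∨ Tp Q n (fromBlocks (G3 α) 0 0 (G2 F)) (fromBlocks (A3 F) 0 0 (A2 F)) ∨
      ∃ β : F, β ≠ 0 ∧ Tp Q n (fromBlocks (G3 α) 0 0 (G3 β)) (fromBlocks (A3 F) 0 0 (A3 F)) ∧
        ∃ v w, polar Q (n (n v)) v = α ∧ polar Q (n (n w)) w = β ∧ polar Q (n (n v)) w = 0 := by
  obtain ⟨u, hu⟩ := hne
  obtain ⟨v, -, h3, h4⟩ := adjust_v h2 hn (W := ⊤) (fun _ _ => trivial) (v := u) trivial hα hu
  have hf := fam3 h2 hn h3 h4
  by_cases h5 : ∀ w ∈ pp Q ![v, n v, n (n v)], n w = 0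
  · exact Or.inl ⟨_, hf, h5⟩
  right
  push Not at h5
  by_cases h6 : ∀ w ∈ pp Q ![v, n v, n (n v)], n (n w) = 0
  · left
    obtain ⟨a, b, h7⟩ := ext2 h2 hQ hn hf (det_G3' hα) h6 h5
    refine ⟨_, h7, triv h2 hQ hn h7 (det_blk (det_G3' hα) det_G2) ?_⟩
    rw [Fintype.card_sum, Fintype.card_fin, Fintype.card_fin]; omega
  · right
    push Not at h6
    obtain ⟨β, hβ, w, hw, hw1, h7⟩ := ext3 h2 hQ hn hf (det_G3' hα) h6
    refine ⟨β, hβ, ⟨_, h7, triv h2 hQ hn h7 (det_blk (det_G3' hα) (det_G3' hβ)) ?_⟩, v, w, h3, hw1, ?_⟩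
    · simp only [Fintype.card_sum, Fintype.card_fin]; omega
    · exact hw 2

/-- two bases of the same space -/
theorem det_rel [FiniteDimensional F V] {n' : V →ₗ[F] V} {v' : κ → V} {G' A' : Matrix κ κ F} (hc : Fintype.card κ = finrank F V)
    (h : Fam Q n v G A) (hG : G.det ≠ 0) (h' : Fam Q n' v' G' A') : ∃ t : F, G'.det = t ^ 2 * G.det := by
  have hspan : ∀ u, ∃ c : κ → F, u = ∑ i, c i • v i := by
    intro u
    obtain ⟨c, hcu⟩ := h.decomp hG u
    have hbas := (h.linInd hG).span_eq_top_of_card_eq_finrank' hc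
    refine ⟨c, ?_⟩
    obtain ⟨d, hd⟩ := (Submodule.mem_span_range_iff_exists_fun F).1 (by rw [hbas]; trivial : u - ∑ i, c i • v i ∈ Submodule.span F (Set.range v))
    have h1 : G *ᵥ d = 0 := by
      funext i
      have h2 := hcu i
      rw [← hd, polar_sum] at h2
      rw [mulVec, dotProduct, Pi.zero_apply, ← h2]
      exact Finset.sum_congr rfl fun j _ => by rw [← h.1 i j, mul_comm]
    have h3 := Matrix.eq_zero_of_mulVec_eq_zero hG h1
    rw [h3] at hd
    simp only [Pi.zero_apply, zero_smul, Finset.sum_const_zero] at hd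
    exact (sub_eq_zero.mp hd.symm)
  choose T hT using fun j => hspan (v' j)
  have h1 : G' = (Matrix.of T) * G * (Matrix.of T)ᵀ := by
    ext i j
    rw [← h'.1 i j, hT i, hT j, polar_sum, Matrix.mul_apply]
    refine Finset.sum_congr rfl fun k _ => ?_
    rw [polar_comm, polar_sum, Matrix.mul_apply, transpose_apply, of_apply, mul_comm]
    congr 1
    exact Finset.sum_congr rfl fun l _ => by rw [polar_comm, h.1, of_apply]
  refine ⟨(Matrix.of T).det, ?_⟩
  rw [h1, det_mul, det_mul, det_transpose]; ring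

end gen

section three

variable {V : Type*} [AddCommGroup V] [Module (ZMod 3) V] {Q : QuadraticForm (ZMod 3) V} {n : V →ₗ[ZMod 3] V}

abbrev K := ZMod 3

theorem two_ne : (2 : K) ≠ 0 := by decide

theorem K_cases (α : K) (h : α ≠ 0) : α = 1 ∨ α = -1 := by revert α; decide

/-- classification up to isometry -/
theorem classify [FiniteDimensional K V] (hQ : (polarBilin Q).Nondegenerate) (hd : finrank K V = 7)
    (hn : SK Q n) (hne : ∃ u, n u ≠ 0)
    (hC : ∃ (n' : V →ₗ[K] V) (v' : Fin 3 ⊕ Fin 4 → V), Fam Q n' v' (fromBlocks (G3 (1 : K)) 0 0 (G2 K)) (fromBlocks (A3 K) 0 0 (A2 K))) :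
    Tp Q n (G2 K) (A2 K) ∨ Tp Q n (G3 (1 : K)) (A3 K) ∨ Tp Q n (G3 (-1 : K)) (A3 K) ∨
      Tp Q n (fromBlocks (G3 (1 : K)) 0 0 (G2 K)) (fromBlocks (A3 K) 0 0 (A2 K)) ∨
      Tp Q n (fromBlocks (G3 (1 : K)) 0 0 (G3 (1 : K))) (fromBlocks (A3 K) 0 0 (A3 K)) ∨
      Tp Q n (fromBlocks (G3 (1 : K)) 0 0 (G3 (-1 : K))) (fromBlocks (A3 K) 0 0 (A3 K)) := by
  by_cases hz : ∀ u, n (n u) = 0
  · exact Or.inl (cases0 two_ne hQ hd hn hz hne)
  right
  push Not at hz
  obtain ⟨u, hu⟩ := hz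
  have hnd : ∀ u ∈ (⊤ : Submodule K V), (∀ w ∈ (⊤ : Submodule K V), polar Q u w = 0) → u = 0 :=
    fun u _ h => nondeg_left hQ fun y => h y trivial
  by_cases h1 : ∃ u, polar Q (n (n u)) u = 1
  · rcases cases1 two_ne hQ hd hn one_ne_zero h1 with h | h | ⟨β, hβ, h, -⟩
    · exact Or.inl h
    · exact Or.inr (Or.inr (Or.inl h))
    · rcases K_cases β hβ with rfl | rfl
      · exact Or.inr (Or.inr (Or.inr (Or.inl h)))
      · exact Or.inr (Or.inr (Or.inr (Or.inr h)))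
  · obtain ⟨v, -, hv⟩ := exists_v two_ne hn (W := ⊤) (fun _ _ => trivial) hnd ⟨u, trivial, hu⟩
    have h3 : polar Q (n (n v)) v = -1 := by
      rcases K_cases _ hv with h | h
      · exact absurd ⟨v, h⟩ h1
      · exact h
    rcases cases1 two_ne hQ hd hn (neg_ne_zero.mpr one_ne_zero) ⟨v, h3⟩ with h | h | ⟨β, hβ, h, v, w, h4, h5, h6⟩
    · exact Or.inr (Or.inl h)
    · exfalso
      obtain ⟨n', v', hv'⟩ := hC
      obtain ⟨w, hw, -⟩ := h
      obtain ⟨t, ht⟩ := det_rel (by rw [hd]; rfl) hv' (det_blk (det_G3' one_ne_zero) det_G2) hw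
      rw [det_fromBlocks_zero₂₁, det_fromBlocks_zero₂₁, det_G3, det_G3] at ht
      have h7 : (G2 K).det ≠ 0 := det_G2
      have h8 : ∀ d t : K, d ≠ 0 → (-1) ^ 3 * d = t ^ 2 * (1 ^ 3 * d) → False := by decide
      exact h8 _ _ h7 ht
    · exfalso
      rcases K_cases β hβ with rfl | rfl
      · exact h1 ⟨w, h5⟩
      · apply h1
        refine ⟨v + w, ?_⟩
        rw [_root_.map_add, _root_.map_add, polar_add_left, polar_add_right, polar_add_right, h4, h5, h6, hn.sk2,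
          polar_comm Q w, h6]
        decide

end three

end H50.O73
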