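import Cfsg.Agent.Lib.H50.O73b
import Cfsg.Agent.Lib.H48.QuadStd

/-!
Elements of order three of orthogonal groups in characteristic three and skew nilpotent maps; representatives in dimension seven.
-/
set_option autoImplicit false
set_option linter.unusedSectionVars false
set_option linter.unusedVariables false
set_option maxHeartbeats 400000

namespace H50.O73

open QuadraticMap Module Matrix H48.QuadWitt H17.OrthAbs H48.QuadStd

section exp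

variable {F V : Type*} [Field F] [AddCommGroup V] [Module F V] {Q : QuadraticForm F V} {n : V →ₗ[F] V}

/-- the truncated exponential in characteristic three -/
def exL (n : V →ₗ[F] V) : V →ₗ[F] V := LinearMap.id + n - n ∘ₗ n

theorem exL_apply (n : V →ₗ[F] V) (u : V) : exL n u = u + n u - n (n u) := rfl

theorem SK.neg (h : SK Q n) : SK Q (-n) := by
  constructor
  · intro u v
    rw [LinearMap.neg_apply, LinearMap.neg_apply, polar_neg_left, polar_neg_right, h.sk]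
  · intro u
    simp only [LinearMap.neg_apply, _root_.map_neg, h.nil, neg_zero, neg_neg]

theorem exL_neg (h3 : (3 : F) = 0) (h : SK Q n) (u : V) : exL n (exL (-n) u) = u := by
  simp only [exL_apply, LinearMap.neg_apply, _root_.map_neg, _root_.map_add, _root_.map_sub, h.nil, _root_.map_zero]
  have h4 : (3 : F) • n (n u) = 0 := by rw [h3, zero_smul]
  linear_combination (norm := module) (-1 : F) • h4

theorem exL_iso (h2 : (2 : F) ≠ 0) (h3 : (3 : F) = 0) (h : SK Q n) (u : V) : Q (exL n u) = Q u := by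
  apply mul_left_cancel₀ h2
  rw [← polar_self_eq, ← polar_self_eq, exL_apply]
  have e1 := h.sq h2 u
  have e2 : polar Q u (n u) = 0 := by rw [polar_comm, e1]
  have e3 : polar Q (n u) (n u) = - polar Q u (n (n u)) := h.sk u (n u)
  have e4 : polar Q (n (n u)) u = polar Q u (n (n u)) := polar_comm _ _ _
  have e5 : polar Q (n u) (n (n u)) = 0 := by rw [h.sk, h.nil, polar_zero_right, neg_zero]
  have e6 : polar Q (n (n u)) (n u) = 0 := by rw [polar_comm, e5]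
  have e7 : polar Q (n (n u)) (n (n u)) = 0 := by rw [h.sk, h.nil, polar_zero_right, neg_zero]
  simp only [polar_sub_left, polar_sub_right, polar_add_left, polar_add_right, e1, e2, e3, e4, e5, e6, e7]
  linear_combination (- polar Q u (n (n u))) * h3

/-- the isometry attached to a skew nilpotent map -/
def exE (h2 : (2 : F) ≠ 0) (h3 : (3 : F) = 0) (h : SK Q n) : ↥(O Q) :=
  ⟨LinearEquiv.ofLinear (exL n) (exL (-n)) (LinearMap.ext fun u => exL_neg h3 h u)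
    (LinearMap.ext fun u => by
      have := exL_neg h3 h.neg u
      rwa [neg_neg] at this), fun u => exL_iso h2 h3 h u⟩

theorem exE_apply (h2 : (2 : F) ≠ 0) (h3 : (3 : F) = 0) (h : SK Q n) (u : V) :
    ((exE h2 h3 h : ↥(O Q)) : V ≃ₗ[F] V) u = u + n u - n (n u) := rfl

/-- the skew map of an isometry -/
def lg (x : ↥(O Q)) : V →ₗ[F] V := ((x * x : ↥(O Q)) : V ≃ₗ[F] V).toLinearMap - (x : V ≃ₗ[F] V).toLinearMap

theorem lg_apply (x : ↥(O Q)) (u : V) : lg x u = (x : V ≃ₗ[F] V) ((x : V ≃ₗ[F] V) u) - (x : V ≃ₗ[F] V) u := rfl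

theorem lg_sk (h3 : (3 : F) = 0) {x : ↥(O Q)} (hx : x ^ 3 = 1) : SK Q (lg x) := by
  have hc : ∀ u, (x : V ≃ₗ[F] V) ((x : V ≃ₗ[F] V) ((x : V ≃ₗ[F] V) u)) = u := by
    intro u
    have h1 := congrArg (fun y : ↥(O Q) => (y : V ≃ₗ[F] V) u) hx
    simp only [pow_succ, pow_zero, one_mul] at h1
    exact h1
  have hp : ∀ u v, polar Q ((x : V ≃ₗ[F] V) u) ((x : V ≃ₗ[F] V) v) = polar Q u v := polar_map x.2
  constructor
  · intro u v
    rw [lg_apply, lg_apply, polar_sub_left, polar_sub_right]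
    have e1 : polar Q ((x : V ≃ₗ[F] V) ((x : V ≃ₗ[F] V) u)) v = polar Q u ((x : V ≃ₗ[F] V) v) := by
      rw [← hp _ v, hc]
    have e2 : polar Q ((x : V ≃ₗ[F] V) u) v = polar Q u ((x : V ≃ₗ[F] V) ((x : V ≃ₗ[F] V) v)) := by
      rw [← hp _ v, ← hp, hc]
    rw [e1, e2]; ring
  · intro u
    simp only [lg_apply, _root_.map_sub, hc]
    have : (3 : F) • ((x : V ≃ₗ[F] V) u) = 0 := by rw [h3, zero_smul]
    have h4 : (3 : F) • ((x : V ≃ₗ[F] V) ((x : V ≃ₗ[F] V) u)) = 0 := by rw [h3, zero_smul]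
    have e : ∀ a b c : V, (3 : F) • a = 0 → (3 : F) • b = 0 → c - b - (b - a) - (b - a - (a - c)) = (0 : V) := by
      intro a b c ha hb
      have : c - b - (b - a) - (b - a - (a - c)) = (3 : F) • a - (3 : F) • b := by module
      rw [this, ha, hb, sub_zero]
    exact e _ _ _ this h4

theorem exE_lg (h2 : (2 : F) ≠ 0) (h3 : (3 : F) = 0) {x : ↥(O Q)} (hx : x ^ 3 = 1) : exE h2 h3 (lg_sk h3 hx) = x := by
  have hc : ∀ u, (x : V ≃ₗ[F] V) ((x : V ≃ₗ[F] V) ((x : V ≃ₗ[F] V) u)) = u := by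
    intro u
    have h1 := congrArg (fun y : ↥(O Q) => (y : V ≃ₗ[F] V) u) hx
    simp only [pow_succ, pow_zero, one_mul] at h1
    exact h1
  apply Subtype.ext
  apply LinearEquiv.ext
  intro u
  rw [exE_apply]
  simp only [lg_apply, _root_.map_sub, hc]
  have : (3 : F) • ((x : V ≃ₗ[F] V) u) = 0 := by rw [h3, zero_smul]
  have e : ∀ a b c : V, (3 : F) • a = 0 → c + (b - a) - (a - c - (c - b)) = a - (3 : F) • a + (3 : F) • c := by
    intro a b c ha; module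
  rw [e _ _ _ this, this, h3, zero_smul, sub_zero, add_zero]

theorem exE_sq (h2 : (2 : F) ≠ 0) (h3 : (3 : F) = 0) (h : SK Q n) (u : V) :
    ((exE h2 h3 h * exE h2 h3 h : ↥(O Q)) : V ≃ₗ[F] V) u = u - n u - n (n u) := by
  show ((exE h2 h3 h : ↥(O Q)) : V ≃ₗ[F] V) (((exE h2 h3 h : ↥(O Q)) : V ≃ₗ[F] V) u) = _
  rw [exE_apply, exE_apply]
  simp only [_root_.map_add, _root_.map_sub, h.nil]
  have e : ∀ a b c : V, (3 : F) • b = 0 → a + b - c + (b + c - 0) - (c + 0 - n 0) = a - b - c := by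
    intro a b c hb
    rw [_root_.map_zero]
    have : a + b - c + (b + c - 0) - (c + 0 - 0) = a - b - c + (3 : F) • b := by module
    rw [this, hb, add_zero]
  exact e _ _ _ (by rw [h3, zero_smul])

theorem exE_cube (h2 : (2 : F) ≠ 0) (h3 : (3 : F) = 0) (h : SK Q n) : (exE h2 h3 h) ^ 3 = 1 := by
  apply Subtype.ext
  apply LinearEquiv.ext
  intro u
  rw [pow_succ, pow_two]
  show ((exE h2 h3 h * exE h2 h3 h : ↥(O Q)) : V ≃ₗ[F] V) (((exE h2 h3 h : ↥(O Q)) : V ≃ₗ[F] V) u) = u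
  rw [exE_sq, exE_apply]
  simp only [_root_.map_add, _root_.map_sub, h.nil]
  have e : ∀ a b c : V, (3 : F) • c = 0 → a + b - c - (b + c - 0) - (c + 0 - n 0) = a := by
    intro a b c hb
    rw [_root_.map_zero]
    have : a + b - c - (b + c - 0) - (c + 0 - 0) = a - (3 : F) • c := by module
    rw [this, hb, sub_zero]
  exact e _ _ _ (by rw [h3, zero_smul])

theorem lg_exE (h2 : (2 : F) ≠ 0) (h3 : (3 : F) = 0) (h : SK Q n) : lg (exE h2 h3 h) = n := by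
  apply LinearMap.ext
  intro u
  rw [lg_apply]
  have h1 : ((exE h2 h3 h : ↥(O Q)) : V ≃ₗ[F] V) (((exE h2 h3 h : ↥(O Q)) : V ≃ₗ[F] V) u) = u - n u - n (n u) := exE_sq h2 h3 h u
  rw [h1, exE_apply]
  have e : ∀ a b c : V, (3 : F) • b = 0 → a - b - c - (a + b - c) = b := by
    intro a b c hb
    have : a - b - c - (a + b - c) = b - (3 : F) • b := by module
    rw [this, hb, sub_zero]
  exact e _ _ _ (by rw [h3, zero_smul])

/-- intertwining the skew maps is the same as conjugating the isometries -/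
theorem conj_of (g x y : ↥(O Q)) (h2 : (2 : F) ≠ 0) (h3 : (3 : F) = 0) (hx : x ^ 3 = 1) (hy : y ^ 3 = 1)
    (h : ∀ u, (g : V ≃ₗ[F] V) (lg x u) = lg y ((g : V ≃ₗ[F] V) u)) : g * x * g⁻¹ = y := by
  rw [mul_inv_eq_iff_eq_mul]
  rw [← exE_lg h2 h3 hx, ← exE_lg h2 h3 hy]
  apply Subtype.ext
  apply LinearEquiv.ext
  intro u
  show (g : V ≃ₗ[F] V) (((exE h2 h3 (lg_sk h3 hx) : ↥(O Q)) : V ≃ₗ[F] V) u) =
    ((exE h2 h3 (lg_sk h3 hy) : ↥(O Q)) : V ≃ₗ[F] V) ((g : V ≃ₗ[F] V) u)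
  rw [exE_apply, exE_apply, _root_.map_sub, _root_.map_add, h, h, h]

theorem lg_conj (g x y : ↥(O Q)) (h : g * x * g⁻¹ = y) (u : V) : (g : V ≃ₗ[F] V) (lg x u) = lg y ((g : V ≃ₗ[F] V) u) := by
  rw [mul_inv_eq_iff_eq_mul] at h
  have h1 : ∀ u, (g : V ≃ₗ[F] V) ((x : V ≃ₗ[F] V) u) = (y : V ≃ₗ[F] V) ((g : V ≃ₗ[F] V) u) := fun u =>
    congrArg (fun z : ↥(O Q) => (z : V ≃ₗ[F] V) u) h
  rw [lg_apply, lg_apply, _root_.map_sub, h1, h1]

theorem lg_inv (h3 : (3 : F) = 0) {x : ↥(O Q)} (hx : x ^ 3 = 1) : lg x⁻¹ = - lg x := by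
  have h1 : x⁻¹ = x * x := by
    rw [inv_eq_iff_mul_eq_one, ← hx, pow_succ, pow_two, mul_assoc]
  have hc : ∀ u, (x : V ≃ₗ[F] V) ((x : V ≃ₗ[F] V) ((x : V ≃ₗ[F] V) u)) = u := by
    intro u
    have h1 := congrArg (fun y : ↥(O Q) => (y : V ≃ₗ[F] V) u) hx
    simp only [pow_succ, pow_zero, one_mul] at h1
    exact h1
  apply LinearMap.ext
  intro u
  rw [h1, LinearMap.neg_apply, lg_apply, lg_apply]
  show (x : V ≃ₗ[F] V) ((x : V ≃ₗ[F] V) ((x : V ≃ₗ[F] V) ((x : V ≃ₗ[F] V) u))) - (x : V ≃ₗ[F] V) ((x : V ≃ₗ[F] V) u) = _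
  rw [hc]
  abel

end exp

/-! ### the seven-dimensional space -/

abbrev VV := Unit ⊕ (Fin 3 ⊕ Fin 3) → ZMod 3

noncomputable abbrev QQ : QuadraticForm (ZMod 3) VV := qOdd 3 (ZMod 3) 1

def bf (u v : VV) : ZMod 3 := 2 * 1 * u (.inl ()) * v (.inl ()) +
  ∑ i : Fin 3, (u (.inr (.inl i)) * v (.inr (.inr i)) + u (.inr (.inr i)) * v (.inr (.inl i)))

def qf (v : VV) : ZMod 3 := 1 * v (.inl ()) ^ 2 + ∑ i : Fin 3, v (.inr (.inl i)) * v (.inr (.inr i))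

theorem polar_eq (u v : VV) : polar QQ u v = bf u v := polar_qOdd 3 1 u v
theorem q_eq (v : VV) : QQ v = qf v := qOdd_apply 3 1 v

theorem ndQ : (polarBilin QQ).Nondegenerate := H48.QuadSplit.nd_iff.1 (nd_qOdd 3 (by decide) (by decide))

theorem finrankV : finrank (ZMod 3) VV = 7 := by
  rw [finrank_fintype_fun_eq_card]; rfl

def mk (e : ZMod 3) (x y : Fin 3 → ZMod 3) : VV := Sum.elim (fun _ => e) (Sum.elim x y)

def E : VV := mk 1 ![0, 0, 0] ![0, 0, 0]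
def X1 : VV := mk 0 ![1, 0, 0] ![0, 0, 0]
def X2 : VV := mk 0 ![0, 1, 0] ![0, 0, 0]
def X3 : VV := mk 0 ![0, 0, 1] ![0, 0, 0]
def Y1 : VV := mk 0 ![0, 0, 0] ![1, 0, 0]
def Y2 : VV := mk 0 ![0, 0, 0] ![0, 1, 0]
def Y3 : VV := mk 0 ![0, 0, 0] ![0, 0, 1]

/-- sum of two skew maps of rank two -/
noncomputable def nm (e₁ x₁ e₂ x₂ : VV) : VV →ₗ[ZMod 3] VV :=
  ((polarBilin QQ) x₁).smulRight e₁ - ((polarBilin QQ) e₁).smulRight x₁ +
    (((polarBilin QQ) x₂).smulRight e₂ - ((polarBilin QQ) e₂).smulRight x₂)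

theorem nm_apply (e₁ x₁ e₂ x₂ u : VV) : nm e₁ x₁ e₂ x₂ u = polar QQ x₁ u • e₁ - polar QQ e₁ u • x₁ +
    (polar QQ x₂ u • e₂ - polar QQ e₂ u • x₂) := rfl

def nf (e₁ x₁ e₂ x₂ u : VV) : VV := bf x₁ u • e₁ - bf e₁ u • x₁ + (bf x₂ u • e₂ - bf e₂ u • x₂)

theorem nm_eq (e₁ x₁ e₂ x₂ u : VV) : nm e₁ x₁ e₂ x₂ u = nf e₁ x₁ e₂ x₂ u := by
  rw [nm_apply, nf, polar_eq, polar_eq, polar_eq, polar_eq]

def DC (e₁ x₁ e₂ x₂ : VV) : Prop := bf x₁ x₁ = 0 ∧ bf x₁ x₂ = 0 ∧ bf x₂ x₂ = 0 ∧ bf x₁ e₁ = 0 ∧ bf x₁ e₂ = 0 ∧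
  bf x₂ e₁ = 0 ∧ bf x₂ e₂ = 0 ∧ bf e₁ e₂ = 0

instance (e₁ x₁ e₂ x₂ : VV) : Decidable (DC e₁ x₁ e₂ x₂) := by unfold DC; infer_instance

theorem bf_comm (u v : VV) : bf u v = bf v u := by rw [← polar_eq, polar_comm, polar_eq]

theorem nm_sq {e₁ x₁ e₂ x₂ : VV} (h : DC e₁ x₁ e₂ x₂) (u : VV) : nm e₁ x₁ e₂ x₂ (nm e₁ x₁ e₂ x₂ u) =
    (-(polar QQ e₁ e₁ * polar QQ x₁ u)) • x₁ + (-(polar QQ e₂ e₂ * polar QQ x₂ u)) • x₂ := by
  obtain ⟨h1, h2, h3, h4, h5, h6, h7, h8⟩ := h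
  have h2' := bf_comm x₁ x₂
  have h4' := bf_comm x₁ e₁
  have h5' := bf_comm x₁ e₂
  have h6' := bf_comm x₂ e₁
  have h7' := bf_comm x₂ e₂
  have h8' := bf_comm e₁ e₂
  rw [h2] at h2'; rw [h4] at h4'; rw [h5] at h5'; rw [h6] at h6'; rw [h7] at h7'; rw [h8] at h8'
  rw [nm_apply e₁ x₁ e₂ x₂ (nm _ _ _ _ _)]
  simp only [nm_apply, polar_add_right, polar_sub_right, polar_smul_right]
  simp only [polar_eq, h1, h2, h3, h4, h5, h6, h7, h8,
    ← h2', ← h4', ← h5', ← h6', ← h7', ← h8', smul_eq_mul, mul_zero]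
  module

theorem nm_sk {e₁ x₁ e₂ x₂ : VV} (h : DC e₁ x₁ e₂ x₂) : SK QQ (nm e₁ x₁ e₂ x₂) := by
  constructor
  · intro u v
    rw [nm_apply, nm_apply]
    simp only [polar_add_left, polar_sub_left, polar_smul_left, polar_add_right, polar_sub_right, polar_smul_right, smul_eq_mul]
    rw [polar_comm QQ u e₁, polar_comm QQ u e₂, polar_comm QQ u x₁, polar_comm QQ u x₂]
    ring
  · intro u
    rw [nm_sq h]
    obtain ⟨h1, h2, h3, h4, h5, h6, h7, h8⟩ := h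
    have h2' := bf_comm x₁ x₂
    have h4' := bf_comm x₁ e₁
    have h5' := bf_comm x₁ e₂
    have h6' := bf_comm x₂ e₁
    have h7' := bf_comm x₂ e₂
    rw [h2] at h2'; rw [h4] at h4'; rw [h5] at h5'; rw [h6] at h6'; rw [h7] at h7'
    simp only [nm_apply, polar_add_right, polar_sub_right, polar_smul_right]
    simp only [polar_eq, h1, h2, h3, h4, h5, h6, h7,
      ← h2', ← h4', ← h5', ← h6', ← h7', smul_eq_mul, mul_zero]
    module

theorem tp_of {κ : Type} [Fintype κ] [DecidableEq κ] {e₁ x₁ e₂ x₂ : VV} {v : κ → VV} {G A : Matrix κ κ (ZMod 3)}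
    (h1 : ∀ p : κ × κ, bf (v p.1) (v p.2) = G p.1 p.2) (h2 : ∀ j, nf e₁ x₁ e₂ x₂ (v j) = ∑ i, A i j • v i)
    (he1 : ∃ (c : ZMod 3) (i : κ), e₁ = c • v i) (hx1 : ∃ (c : ZMod 3) (i : κ), x₁ = c • v i)
    (he2 : ∃ (c : ZMod 3) (i : κ), e₂ = c • v i) (hx2 : ∃ (c : ZMod 3) (i : κ), x₂ = c • v i) :
    Tp QQ (nm e₁ x₁ e₂ x₂) G A := by
  refine ⟨v, ⟨fun i j => by rw [polar_eq, h1 (i, j)], fun j => by rw [nm_eq, h2]⟩, ?_⟩
  intro u hu
  have key : ∀ e : VV, (∃ (c : ZMod 3) (i : κ), e = c • v i) → polar QQ e u = 0 := by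
    rintro e ⟨c, i, rfl⟩
    rw [polar_smul_left, hu i, smul_zero]
  rw [nm_apply, key _ he1, key _ hx1, key _ he2, key _ hx2]
  simp

noncomputable abbrev nA := nm 0 0 X3 X2
noncomputable abbrev nB := nm E X1 0 0
noncomputable abbrev nB' := nm (X2 - Y2) X1 0 0
noncomputable abbrev nC := nm E X1 X3 X2
noncomputable abbrev nD := nm E X1 (X3 + Y3) X2
noncomputable abbrev nD' := nm E X1 (X3 - Y3) X2

theorem skA : SK QQ nA := nm_sk (by decide)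
theorem skB : SK QQ nB := nm_sk (by decide)
theorem skB' : SK QQ nB' := nm_sk (by decide)
theorem skC : SK QQ nC := nm_sk (by decide)
theorem skD : SK QQ nD := nm_sk (by decide)
theorem skD' : SK QQ nD' := nm_sk (by decide)

theorem tpA : Tp QQ nA (G2 K) (A2 K) := tp_of (v := ![Y2, Y3, X3, -X2]) (by decide) (by decide) ⟨0, 0, by decide⟩ ⟨0, 0, by decide⟩
  ⟨1, 2, by decide⟩ ⟨-1, 3, by decide⟩
theorem tpB : Tp QQ nB (G3 (1 : K)) (A3 K) := tp_of (v := ![Y1, E, X1]) (by decide) (by decide) ⟨1, 1, by decide⟩ ⟨1, 2, by decide⟩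
  ⟨0, 0, by decide⟩ ⟨0, 0, by decide⟩
theorem tpB' : Tp QQ nB' (G3 (-1 : K)) (A3 K) := tp_of (v := ![Y1, X2 - Y2, -X1]) (by decide) (by decide) ⟨1, 1, by decide⟩ ⟨-1, 2, by decide⟩
  ⟨0, 0, by decide⟩ ⟨0, 0, by decide⟩
theorem tpC : Tp QQ nC (fromBlocks (G3 (1 : K)) 0 0 (G2 K)) (fromBlocks (A3 K) 0 0 (A2 K)) :=
  tp_of (v := Sum.elim ![Y1, E, X1] ![Y2, Y3, X3, -X2]) (by decide) (by decide) ⟨1, Sum.inl 1, by decide⟩ ⟨1, Sum.inl 2, by decide⟩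
  ⟨1, Sum.inr 2, by decide⟩ ⟨-1, Sum.inr 3, by decide⟩
theorem tpD : Tp QQ nD (fromBlocks (G3 (1 : K)) 0 0 (G3 (1 : K))) (fromBlocks (A3 K) 0 0 (A3 K)) :=
  tp_of (v := Sum.elim ![Y1, E, X1] ![Y2, X3 + Y3, X2]) (by decide) (by decide) ⟨1, Sum.inl 1, by decide⟩ ⟨1, Sum.inl 2, by decide⟩
  ⟨1, Sum.inr 1, by decide⟩ ⟨1, Sum.inr 2, by decide⟩
theorem tpD' : Tp QQ nD' (fromBlocks (G3 (1 : K)) 0 0 (G3 (-1 : K))) (fromBlocks (A3 K) 0 0 (A3 K)) :=
  tp_of (v := Sum.elim ![Y1, E, X1] ![Y2, X3 - Y3, -X2]) (by decide) (by decide) ⟨1, Sum.inl 1, by decide⟩ ⟨1, Sum.inl 2, by decide⟩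
  ⟨1, Sum.inr 1, by decide⟩ ⟨-1, Sum.inr 2, by decide⟩

end H50.O73
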