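import Cfsg.Agent.Lib.H50.O73c
import Cfsg.Agent.Lib.H48.OmegaQ
import Cfsg.Agent.Lib.H17.OrthNegOne
import Cfsg.Agent.Lib.H46.OddFinal

/-!
Invariants of the representatives and commuting isometries with prescribed spinor norm.
-/
set_option autoImplicit false
set_option linter.unusedSectionVars false
set_option linter.unusedVariables false
set_option maxHeartbeats 400000

namespace H50.O73

open QuadraticMap Module Matrix H48.QuadWitt H17.OrthAbs H48.QuadStd H17.OrthTheta H17.OrthOmega H48.OmegaQ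

/-! ### invariants -/

section inv

def P1 (n : VV →ₗ[K] VV) : Prop := ∀ u, n (n u) = 0
def P2 (n : VV →ₗ[K] VV) : Prop := ∃ z : VV, ∀ u, ∃ c : K, n (n u) = c • z
def P3 (n : VV →ₗ[K] VV) : Prop := ∀ u, n (n u) = 0 → ∃ w, n u = n (n w)
def P4 (n : VV →ₗ[K] VV) : Prop := ∃ u, polar QQ (n (n u)) u = 1
def P5 (n : VV →ₗ[K] VV) : Prop := ∃ u, n (n u) ≠ 0 ∧ polar QQ (n (n u)) u = 0

/-- conjugate up to sign -/
def Rel (n n' : VV →ₗ[K] VV) : Prop := ∃ g : ↥(O QQ), ∃ ε : K, ε * ε = 1 ∧ ∀ u, (g : VV ≃ₗ[K] VV) (n u) = ε • n' ((g : VV ≃ₗ[K] VV) u)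

variable {n n' : VV →ₗ[K] VV}

theorem gi (g : ↥(O QQ)) (u : VV) : (g : VV ≃ₗ[K] VV) (((g⁻¹ : ↥(O QQ)) : VV ≃ₗ[K] VV) u) = u := by
  show ((g * g⁻¹ : ↥(O QQ)) : VV ≃ₗ[K] VV) u = u
  rw [mul_inv_cancel]; rfl

theorem ig (g : ↥(O QQ)) (u : VV) : ((g⁻¹ : ↥(O QQ)) : VV ≃ₗ[K] VV) ((g : VV ≃ₗ[K] VV) u) = u := by
  show ((g⁻¹ * g : ↥(O QQ)) : VV ≃ₗ[K] VV) u = u
  rw [inv_mul_cancel]; rfl

theorem Rel.symm (h : Rel n n') : Rel n' n := by
  obtain ⟨g, ε, he, hg⟩ := h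
  refine ⟨g⁻¹, ε, he, fun u => ?_⟩
  have h1 := hg (((g⁻¹ : ↥(O QQ)) : VV ≃ₗ[K] VV) u)
  rw [gi] at h1
  have h2 := congrArg (fun z => ε • ((g⁻¹ : ↥(O QQ)) : VV ≃ₗ[K] VV) z) h1
  simp only [ig, _root_.map_smul, smul_smul, he, one_smul] at h2
  exact h2.symm

theorem Rel.sq {g : ↥(O QQ)} {ε : K} (he : ε * ε = 1) (hg : ∀ u, (g : VV ≃ₗ[K] VV) (n u) = ε • n' ((g : VV ≃ₗ[K] VV) u)) (u : VV) :
    (g : VV ≃ₗ[K] VV) (n (n u)) = n' (n' ((g : VV ≃ₗ[K] VV) u)) := by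
  rw [hg, hg, _root_.map_smul, smul_smul, he, one_smul]

theorem Rel.p1 (h : Rel n n') (h1 : P1 n) : P1 n' := by
  obtain ⟨g, ε, he, hg⟩ := h
  intro u
  have h2 := Rel.sq he hg (((g⁻¹ : ↥(O QQ)) : VV ≃ₗ[K] VV) u)
  rw [gi, h1, _root_.map_zero] at h2
  exact h2.symm

theorem Rel.p2 (h : Rel n n') (h1 : P2 n) : P2 n' := by
  obtain ⟨g, ε, he, hg⟩ := h
  obtain ⟨z, hz⟩ := h1
  refine ⟨(g : VV ≃ₗ[K] VV) z, fun u => ?_⟩
  obtain ⟨c, hc⟩ := hz (((g⁻¹ : ↥(O QQ)) : VV ≃ₗ[K] VV) u)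
  have h2 := Rel.sq he hg (((g⁻¹ : ↥(O QQ)) : VV ≃ₗ[K] VV) u)
  rw [gi, hc, _root_.map_smul] at h2
  exact ⟨c, h2.symm⟩

theorem Rel.p3 (h : Rel n n') (h1 : P3 n) : P3 n' := by
  obtain ⟨g, ε, he, hg⟩ := h
  intro u hu
  have h2 := Rel.sq he hg (((g⁻¹ : ↥(O QQ)) : VV ≃ₗ[K] VV) u)
  rw [gi, hu] at h2
  have h3 : n (n (((g⁻¹ : ↥(O QQ)) : VV ≃ₗ[K] VV) u)) = 0 := (g : VV ≃ₗ[K] VV).injective (by rw [h2, _root_.map_zero])
  obtain ⟨w, hw⟩ := h1 _ h3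
  have h4 := hg (((g⁻¹ : ↥(O QQ)) : VV ≃ₗ[K] VV) u)
  rw [gi, hw, Rel.sq he hg] at h4
  refine ⟨ε • (g : VV ≃ₗ[K] VV) w, ?_⟩
  rw [_root_.map_smul, _root_.map_smul, h4, smul_smul, he, one_smul]

theorem Rel.p4 (h : Rel n n') (h1 : P4 n) : P4 n' := by
  obtain ⟨g, ε, he, hg⟩ := h
  obtain ⟨u, hu⟩ := h1
  refine ⟨(g : VV ≃ₗ[K] VV) u, ?_⟩
  rw [← Rel.sq he hg, polar_map g.2, hu]

theorem Rel.p5 (h : Rel n n') (h1 : P5 n) : P5 n' := by
  obtain ⟨g, ε, he, hg⟩ := h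
  obtain ⟨u, hu, hu'⟩ := h1
  refine ⟨(g : VV ≃ₗ[K] VV) u, ?_, ?_⟩
  · rw [← Rel.sq he hg]
    intro h2
    exact hu ((g : VV ≃ₗ[K] VV).injective (by rw [h2, _root_.map_zero]))
  · rw [← Rel.sq he hg, polar_map g.2, hu']

open Classical in
/-- the code of a skew map -/
noncomputable def cd (n : VV →ₗ[K] VV) : ℕ :=
  if P1 n then 0 else if P2 n then (if P3 n then (if P4 n then 1 else 2) else 3) else (if P5 n then 5 else 4)

theorem Rel.cd_eq (h : Rel n n') : cd n = cd n' := by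
  have e1 : P1 n ↔ P1 n' := ⟨h.p1, h.symm.p1⟩
  have e2 : P2 n ↔ P2 n' := ⟨h.p2, h.symm.p2⟩
  have e3 : P3 n ↔ P3 n' := ⟨h.p3, h.symm.p3⟩
  have e4 : P4 n ↔ P4 n' := ⟨h.p4, h.symm.p4⟩
  have e5 : P5 n ↔ P5 n' := ⟨h.p5, h.symm.p5⟩
  rw [cd, cd, propext e1, propext e2, propext e3, propext e4, propext e5]

theorem sqA (u : VV) : nA (nA u) = 0 := by
  have h : ∀ t : K, (-(0 * t)) = 0 := by decide
  rw [nm_sq (by decide), polar_eq 0 0, polar_eq X3 X3, show bf 0 0 = 0 by decide, show bf X3 X3 = 0 by decide, h, h]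
  simp

theorem sqB (u : VV) : nB (nB u) = polar QQ X1 u • X1 := by
  have h : ∀ t : K, (-(2 * t)) = t := by decide
  rw [nm_sq (by decide), polar_eq E E, show bf E E = 2 by decide, h]
  simp

theorem sqB' (u : VV) : nB' (nB' u) = (-polar QQ X1 u) • X1 := by
  rw [nm_sq (by decide), polar_eq (X2 - Y2) (X2 - Y2), show bf (X2 - Y2) (X2 - Y2) = 1 by decide, one_mul]
  simp

theorem sqC (u : VV) : nC (nC u) = polar QQ X1 u • X1 := by
  have h : ∀ t : K, (-(2 * t)) = t := by decide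
  have h' : ∀ t : K, (-(0 * t)) = 0 := by decide
  rw [nm_sq (by decide), polar_eq E E, show bf E E = 2 by decide, h, polar_eq X3 X3, show bf X3 X3 = 0 by decide, h', zero_smul, add_zero]

theorem sqD (u : VV) : nD (nD u) = polar QQ X1 u • X1 + polar QQ X2 u • X2 := by
  have h : ∀ t : K, (-(2 * t)) = t := by decide
  rw [nm_sq (by decide), polar_eq E E, show bf E E = 2 by decide, h, polar_eq (X3 + Y3) (X3 + Y3), show bf (X3 + Y3) (X3 + Y3) = 2 by decide, h]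

theorem sqD' (u : VV) : nD' (nD' u) = polar QQ X1 u • X1 + (-polar QQ X2 u) • X2 := by
  have h : ∀ t : K, (-(2 * t)) = t := by decide
  rw [nm_sq (by decide), polar_eq E E, show bf E E = 2 by decide, h, polar_eq (X3 - Y3) (X3 - Y3), show bf (X3 - Y3) (X3 - Y3) = 1 by decide, one_mul]

theorem cdA : cd nA = 0 := by
  rw [cd, if_pos (show P1 nA from sqA)]

theorem np1 {n : VV →ₗ[K] VV} (h : n (n Y1) = X1 ∨ n (n Y1) = -X1) : ¬ P1 n := by
  intro h1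
  rw [h1] at h
  revert h
  decide

theorem p2B : P2 nB := ⟨X1, fun u => ⟨_, sqB u⟩⟩
theorem p2B' : P2 nB' := ⟨X1, fun u => ⟨_, sqB' u⟩⟩
theorem p2C : P2 nC := ⟨X1, fun u => ⟨_, sqC u⟩⟩

theorem b11 : polar QQ X1 Y1 = 1 := by rw [polar_eq]; decide
theorem b12 : polar QQ X1 Y2 = 0 := by rw [polar_eq]; decide
theorem b21 : polar QQ X2 Y1 = 0 := by rw [polar_eq]; decide
theorem b22 : polar QQ X2 Y2 = 1 := by rw [polar_eq]; decide

theorem sqB1 : nB (nB Y1) = X1 := by rw [sqB, b11, one_smul]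
theorem sqB1' : nB' (nB' Y1) = -X1 := by rw [sqB', b11, neg_smul, one_smul]
theorem sqC1 : nC (nC Y1) = X1 := by rw [sqC, b11, one_smul]
theorem sqD1 : nD (nD Y1) = X1 := by rw [sqD, b11, b21, one_smul, zero_smul, add_zero]
theorem sqD1' : nD' (nD' Y1) = X1 := by rw [sqD', b11, b21, one_smul, neg_zero, zero_smul, add_zero]
theorem sqD2 : nD (nD Y2) = X2 := by rw [sqD, b12, b22, one_smul, zero_smul, zero_add]
theorem sqD2' : nD' (nD' Y2) = -X2 := by rw [sqD', b12, b22, neg_smul, one_smul, zero_smul, zero_add]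

theorem np2 {n : VV →ₗ[K] VV} (h1 : n (n Y1) = X1) (h2 : n (n Y2) = X2 ∨ n (n Y2) = -X2) : ¬ P2 n := by
  rintro ⟨z, hz⟩
  obtain ⟨c, hc⟩ := hz Y1
  obtain ⟨d, hd⟩ := hz Y2
  rw [h1] at hc
  have hc0 : c ≠ 0 := by
    rintro rfl
    rw [zero_smul] at hc
    revert hc; decide
  have hz' : z = c⁻¹ • X1 := by rw [hc, smul_smul, inv_mul_cancel₀ hc0, one_smul]
  rw [hz', smul_smul] at hd
  have h3 : ∀ t : K, ¬ (X2 = t • X1 ∨ -X2 = t • X1) := by decide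
  apply h3 (d * c⁻¹)
  rcases h2 with h2 | h2
  · left; rw [← hd, h2]
  · right; rw [← hd, h2]

theorem cdB : cd nB = 1 := by
  have h3 : P3 nB := by
    intro u hu
    rw [sqB] at hu
    have h4 : ∀ t : K, t • X1 = 0 → t = 0 := by decide
    have h5 := h4 _ hu
    refine ⟨(-polar QQ E u) • Y1, ?_⟩
    rw [sqB, nm_apply, h5, polar_smul_right, b11]
    simp
  have h4 : P4 nB := ⟨Y1, by rw [sqB1, b11]⟩
  rw [cd, if_neg (np1 (Or.inl sqB1)), if_pos p2B, if_pos h3, if_pos h4]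

theorem cdB' : cd nB' = 2 := by
  have h3 : P3 nB' := by
    intro u hu
    rw [sqB'] at hu
    have h4 : ∀ t : K, (-t) • X1 = 0 → t = 0 := by decide
    have h5 := h4 _ hu
    refine ⟨(polar QQ (X2 - Y2) u) • Y1, ?_⟩
    rw [sqB', nm_apply, h5, polar_smul_right, b11]
    simp
    module
  have h4 : ¬ P4 nB' := by
    rintro ⟨u, hu⟩
    rw [sqB', polar_smul_left] at hu
    revert hu
    generalize polar QQ X1 u = t
    revert t
    decide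
  rw [cd, if_neg (np1 (Or.inr sqB1')), if_pos p2B', if_pos h3, if_neg h4]

theorem cdC : cd nC = 3 := by
  have h3 : ¬ P3 nC := by
    intro h
    obtain ⟨w, hw⟩ := h Y2 (by rw [sqC, b12, zero_smul])
    rw [sqC, nm_eq] at hw
    have h4 : ∀ t : K, nf E X1 X3 X2 Y2 ≠ t • X1 := by decide
    exact h4 _ hw
  rw [cd, if_neg (np1 (Or.inl sqC1)), if_pos p2C, if_neg h3]

theorem cdD : cd nD = 4 := by
  have h5 : ¬ P5 nD := by
    rintro ⟨u, hu, hu'⟩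
    apply hu
    rw [sqD, polar_add_left, polar_smul_left, polar_smul_left] at hu'
    rw [sqD]
    revert hu'
    generalize polar QQ X1 u = s
    generalize polar QQ X2 u = t
    have : ∀ p : K × K, (p.1 • p.1 + p.2 • p.2 : K) = 0 → p.1 • X1 + p.2 • X2 = 0 := by decide
    exact this (s, t)
  rw [cd, if_neg (np1 (Or.inl sqD1)), if_neg (np2 sqD1 (Or.inl sqD2)), if_neg h5]

theorem cdD' : cd nD' = 5 := by
  have h5 : P5 nD' := by
    refine ⟨Y1 + Y2, ?_, ?_⟩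
    · rw [_root_.map_add, _root_.map_add, sqD1', sqD2']; decide
    · rw [_root_.map_add, _root_.map_add, sqD1', sqD2', polar_eq]; decide
  rw [cd, if_neg (np1 (Or.inl sqD1')), if_neg (np2 sqD1' (Or.inr sqD2')), if_pos h5]

end inv

end H50.O73
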