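import Cfsg.Agent.Lib.H50.O73d

/-!
Commuting isometries with prescribed spinor norm.
-/
set_option autoImplicit false
set_option linter.unusedSectionVars false
set_option linter.unusedVariables false
set_option maxHeartbeats 400000

namespace H50.O73

open QuadraticMap Module Matrix H48.QuadWitt H17.OrthAbs H48.QuadStd H17.OrthTheta H17.OrthOmega H48.OmegaQ

theorem exists_R : ∃ R : Reps K, R.c₁ = 1 := exists_reps two_ne 1 one_ne_zero

noncomputable def RR : Reps K := exists_R.choose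
theorem RR_one : RR.c₁ = 1 := exists_R.choose_spec

noncomputable def χ₁ : ↥(O QQ) →* ℤˣ := theta QQ RR.c₁
noncomputable def χ₂ : ↥(O QQ) →* ℤˣ := theta QQ RR.c₂

theorem mem_iff (g : ↥(O QQ)) : g ∈ commutator ↥(O QQ) ↔ χ₁ g = 1 ∧ χ₂ g = 1 :=
  mem_commutator_iff two_ne QQ RR ndQ (by rw [finrankV]; norm_num) g

open Classical in
noncomputable def rr (w : VV) : ↥(O QQ) := if h : QQ w ≠ 0 then rf QQ w h else 1

def rF (w u : VV) : VV := u - (qf w * bf w u) • w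

theorem rr_apply {w : VV} (hw : qf w ≠ 0) (u : VV) : ((rr w : ↥(O QQ)) : VV ≃ₗ[K] VV) u = rF w u := by
  have h : QQ w ≠ 0 := by rwa [q_eq]
  rw [rr, dif_pos h]
  show refl QQ w h u = _
  rw [refl_apply, rF, q_eq, polar_eq]
  have : ∀ t : K, t ≠ 0 → t * t = 1 := by decide
  rw [inv_eq_of_mul_eq_one_left (this _ hw)]

theorem sq1 : IsSquare (1 : K) := ⟨1, by decide⟩
theorem nsq : ¬ IsSquare (-1 : K) := by
  rintro ⟨t, ht⟩
  revert t; decide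

theorem chi_one {w : VV} (hw : qf w = 1) : χ₁ (rr w) = -1 ∧ χ₂ (rr w) = 1 := by
  have h : QQ w ≠ 0 := by rw [q_eq, hw]; decide
  have h1 : IsSquare (QQ w) := by rw [q_eq, hw]; exact sq1
  rw [rr, dif_pos h, χ₁, χ₂, theta_one two_ne QQ RR RR_one, theta_two two_ne QQ RR RR_one, if_pos h1, if_pos h1]
  exact ⟨rfl, rfl⟩

theorem chi_neg {w : VV} (hw : qf w = -1) : χ₁ (rr w) = 1 ∧ χ₂ (rr w) = -1 := by
  have h : QQ w ≠ 0 := by rw [q_eq, hw]; decide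
  have h1 : ¬ IsSquare (QQ w) := by rw [q_eq, hw]; exact nsq
  rw [rr, dif_pos h, χ₁, χ₂, theta_one two_ne QQ RR RR_one, theta_two two_ne QQ RR RR_one, if_neg h1, if_neg h1]
  exact ⟨rfl, rfl⟩

/-- commuting with a skew map -/
def Cm (n : VV →ₗ[K] VV) (g : ↥(O QQ)) : Prop := ∀ u, (g : VV ≃ₗ[K] VV) (n u) = n ((g : VV ≃ₗ[K] VV) u)

theorem cm_of_basis {n : VV →ₗ[K] VV} {g : ↥(O QQ)} (h : ∀ i, (g : VV ≃ₗ[K] VV) (n (Pi.single i 1)) = n ((g : VV ≃ₗ[K] VV) (Pi.single i 1))) :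
    Cm n g := by
  have h1 : (g : VV ≃ₗ[K] VV).toLinearMap ∘ₗ n = n ∘ₗ (g : VV ≃ₗ[K] VV).toLinearMap := by
    apply LinearMap.pi_ext'
    intro i
    apply LinearMap.ext_ring
    exact h i
  exact fun u => congrArg (fun f : VV →ₗ[K] VV => f u) h1

theorem cm1 {e₁ x₁ e₂ x₂ w : VV} (hw : qf w ≠ 0) (h : ∀ i, rF w (nf e₁ x₁ e₂ x₂ (Pi.single i 1)) = nf e₁ x₁ e₂ x₂ (rF w (Pi.single i 1))) :
    Cm (nm e₁ x₁ e₂ x₂) (rr w) := by
  apply cm_of_basis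
  intro i
  rw [rr_apply hw, rr_apply hw, nm_eq, nm_eq, h]

theorem cm3 {e₁ x₁ e₂ x₂ w w' w'' : VV} (hw : qf w ≠ 0) (hw' : qf w' ≠ 0) (hw'' : qf w'' ≠ 0)
    (h : ∀ i, rF w (rF w' (rF w'' (nf e₁ x₁ e₂ x₂ (Pi.single i 1)))) = nf e₁ x₁ e₂ x₂ (rF w (rF w' (rF w'' (Pi.single i 1))))) :
    Cm (nm e₁ x₁ e₂ x₂) (rr w * rr w' * rr w'') := by
  have ha : ∀ u, ((rr w * rr w' * rr w'' : ↥(O QQ)) : VV ≃ₗ[K] VV) u = rF w (rF w' (rF w'' u)) := by
    intro u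
    show ((rr w : ↥(O QQ)) : VV ≃ₗ[K] VV) (((rr w' : ↥(O QQ)) : VV ≃ₗ[K] VV) (((rr w'' : ↥(O QQ)) : VV ≃ₗ[K] VV) u)) = _
    rw [rr_apply hw, rr_apply hw', rr_apply hw'']
  apply cm_of_basis
  intro i
  rw [ha, ha, nm_eq, nm_eq, h]

theorem Cm.mul {n : VV →ₗ[K] VV} {g h : ↥(O QQ)} (hg : Cm n g) (hh : Cm n h) : Cm n (g * h) := by
  intro u
  show (g : VV ≃ₗ[K] VV) ((h : VV ≃ₗ[K] VV) (n u)) = n ((g : VV ≃ₗ[K] VV) ((h : VV ≃ₗ[K] VV) u))
  rw [hh, hg]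

theorem Cm.one {n : VV →ₗ[K] VV} : Cm n 1 := fun u => rfl

/-- full spinor norm on the centraliser -/
def Ful (n : VV →ₗ[K] VV) : Prop := ∀ g : ↥(O QQ), ∃ c, Cm n c ∧ c * g ∈ commutator ↥(O QQ)

theorem ful_of {n : VV →ₗ[K] VV} {c d : ↥(O QQ)} (hc : Cm n c) (hd : Cm n d) (h1 : χ₁ c = -1 ∧ χ₂ c = 1) (h2 : χ₁ d = 1 ∧ χ₂ d = -1) :
    Ful n := by
  intro g
  rcases Int.units_eq_one_or (χ₁ g) with e1 | e1 <;> rcases Int.units_eq_one_or (χ₂ g) with e2 | e2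
  · exact ⟨1, Cm.one, by rw [mem_iff, one_mul]; exact ⟨e1, e2⟩⟩
  · exact ⟨d, hd, by rw [mem_iff, map_mul, map_mul, h2.1, h2.2, e1, e2]; exact ⟨rfl, rfl⟩⟩
  · exact ⟨c, hc, by rw [mem_iff, map_mul, map_mul, h1.1, h1.2, e1, e2]; exact ⟨rfl, rfl⟩⟩
  · exact ⟨c * d, hc.mul hd, by rw [mem_iff, map_mul, map_mul, map_mul, map_mul, h1.1, h1.2, h2.1, h2.2, e1, e2]; exact ⟨rfl, rfl⟩⟩

theorem fulA : Ful nA := ful_of (cm1 (w := E) (by decide) (by decide)) (cm1 (w := X1 - Y1) (by decide) (by decide))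
  (chi_one (by decide)) (chi_neg (by decide))
theorem fulB : Ful nB := ful_of (cm1 (w := X2 + Y2) (by decide) (by decide)) (cm1 (w := X2 - Y2) (by decide) (by decide))
  (chi_one (by decide)) (chi_neg (by decide))
theorem fulB' : Ful nB' := ful_of (cm1 (w := E) (by decide) (by decide)) (cm1 (w := X3 - Y3) (by decide) (by decide))
  (chi_one (by decide)) (chi_neg (by decide))
theorem fulD : Ful nD := by
  refine ful_of (cm3 (w := E - (X3 + Y3)) (w' := (Y1 - Y2) + (X1 - X2)) (w'' := (Y1 - Y2) - (X1 - X2)) (by decide) (by decide) (by decide) (by decide))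
    (cm1 (w := X3 - Y3) (by decide) (by decide)) ?_ (chi_neg (by decide))
  have h1 := chi_neg (w := E - (X3 + Y3)) (by decide)
  have h2 := chi_neg (w := (Y1 - Y2) + (X1 - X2)) (by decide)
  have h3 := chi_one (w := (Y1 - Y2) - (X1 - X2)) (by decide)
  rw [map_mul, map_mul, map_mul, map_mul, h1.1, h1.2, h2.1, h2.2, h3.1, h3.2]
  exact ⟨rfl, rfl⟩
theorem fulD' : Ful nD' := by
  refine ful_of (cm1 (w := X3 + Y3) (by decide) (by decide))
    (cm3 (w := E) (w' := X1 + Y1) (w'' := X1 - Y1) (by decide) (by decide) (by decide) (by decide)) (chi_one (by decide)) ?_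
  have h1 := chi_one (w := E) (by decide)
  have h2 := chi_one (w := X1 + Y1) (by decide)
  have h3 := chi_neg (w := X1 - Y1) (by decide)
  rw [map_mul, map_mul, map_mul, map_mul, h1.1, h1.2, h2.1, h2.2, h3.1, h3.2]
  exact ⟨rfl, rfl⟩

end H50.O73
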