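import Cfsg.Agent.Lib.H50.O73e
import Cfsg.Agent.S0264

/-!
The normaliser of the elements of type (3,2,2).
-/
set_option autoImplicit false
set_option linter.unusedSectionVars false
set_option linter.unusedVariables false
set_option maxHeartbeats 400000

namespace H50.O73

open QuadraticMap Module Matrix H48.QuadWitt H17.OrthAbs H48.QuadStd H17.OrthTheta H17.OrthOmega H48.OmegaQ

def xp (u : VV) : Fin 3 → K := fun i => u (.inr (.inl i))
def yp (u : VV) : Fin 3 → K := fun i => u (.inr (.inr i))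

theorem ext_VV {u v : VV} (h1 : u (.inl ()) = v (.inl ())) (h2 : xp u = xp v) (h3 : yp u = yp v) : u = v := by
  funext i
  rcases i with i | i | i
  · exact h1
  · exact congrFun h2 i
  · exact congrFun h3 i

/-- block diagonal maps -/
def levL (A B : Matrix (Fin 3) (Fin 3) K) : VV →ₗ[K] VV where
  toFun u := mk (u (.inl ())) (A *ᵥ xp u) (B *ᵥ yp u)
  map_add' u v := by
    have e1 : xp (u + v) = xp u + xp v := rfl
    have e2 : yp (u + v) = yp u + yp v := rfl
    rw [e1, e2, mulVec_add, mulVec_add]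
    exact ext_VV rfl rfl rfl
  map_smul' c u := by
    have e1 : xp (c • u) = c • xp u := rfl
    have e2 : yp (c • u) = c • yp u := rfl
    rw [e1, e2, mulVec_smul, mulVec_smul]
    exact ext_VV rfl rfl rfl

theorem levL_apply (A B : Matrix (Fin 3) (Fin 3) K) (u : VV) : levL A B u = mk (u (.inl ())) (A *ᵥ xp u) (B *ᵥ yp u) := rfl

theorem levL_levL (A B A' B' : Matrix (Fin 3) (Fin 3) K) (u : VV) : levL A B (levL A' B' u) = levL (A * A') (B * B') u := by
  rw [levL_apply, levL_apply, levL_apply, ← mulVec_mulVec, ← mulVec_mulVec]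
  rfl

theorem levL_one (u : VV) : levL 1 1 u = u := by
  rw [levL_apply, one_mulVec, one_mulVec]
  exact ext_VV rfl rfl rfl

theorem qf_eq (u : VV) : qf u = u (.inl ()) ^ 2 + xp u ⬝ᵥ yp u := by
  rw [qf, one_mul]; rfl

theorem levL_iso {A B : Matrix (Fin 3) (Fin 3) K} (h : Aᵀ * B = 1) (u : VV) : QQ (levL A B u) = QQ u := by
  rw [q_eq, q_eq, qf_eq, qf_eq]
  have e1 : xp (levL A B u) = A *ᵥ xp u := rfl
  have e2 : yp (levL A B u) = B *ᵥ yp u := rfl
  have e3 : (levL A B u) (.inl ()) = u (.inl ()) := rfl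
  rw [e1, e2, e3]
  congr 1
  rw [dotProduct_comm, dotProduct_mulVec, ← mulVec_transpose, mulVec_mulVec, h, one_mulVec, dotProduct_comm]

/-- the Levi factor -/
noncomputable def lev : GL (Fin 3) K →* ↥(O QQ) where
  toFun A := ⟨LinearEquiv.ofLinear (levL (A : Matrix (Fin 3) (Fin 3) K) ((A⁻¹ : GL (Fin 3) K) : Matrix (Fin 3) (Fin 3) K)ᵀ)
      (levL ((A⁻¹ : GL (Fin 3) K) : Matrix (Fin 3) (Fin 3) K) (A : Matrix (Fin 3) (Fin 3) K)ᵀ)
      (LinearMap.ext fun u => by
        rw [LinearMap.comp_apply, levL_levL, ← transpose_mul, ← Units.val_mul, mul_inv_cancel, Units.val_one, transpose_one, levL_one]; rfl)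
      (LinearMap.ext fun u => by
        rw [LinearMap.comp_apply, levL_levL, ← transpose_mul, ← Units.val_mul, inv_mul_cancel, Units.val_one, transpose_one, levL_one]; rfl),
    fun u => levL_iso (by rw [← transpose_mul, ← Units.val_mul, inv_mul_cancel, Units.val_one, transpose_one]) u⟩
  map_one' := by
    apply Subtype.ext
    apply LinearEquiv.ext
    intro u
    show levL ((1 : GL (Fin 3) K) : Matrix (Fin 3) (Fin 3) K) (((1 : GL (Fin 3) K)⁻¹ : GL (Fin 3) K) : Matrix (Fin 3) (Fin 3) K)ᵀ u = u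
    rw [inv_one, Units.val_one, transpose_one, levL_one]
  map_mul' A B := by
    apply Subtype.ext
    apply LinearEquiv.ext
    intro u
    show levL ((A * B : GL (Fin 3) K) : Matrix (Fin 3) (Fin 3) K) (((A * B)⁻¹ : GL (Fin 3) K) : Matrix (Fin 3) (Fin 3) K)ᵀ u =
      levL (A : Matrix (Fin 3) (Fin 3) K) ((A⁻¹ : GL (Fin 3) K) : Matrix (Fin 3) (Fin 3) K)ᵀ
        (levL (B : Matrix (Fin 3) (Fin 3) K) ((B⁻¹ : GL (Fin 3) K) : Matrix (Fin 3) (Fin 3) K)ᵀ u)
    rw [levL_levL, ← transpose_mul, ← Units.val_mul, ← Units.val_mul, _root_.mul_inv_rev]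

theorem lev_apply (A : GL (Fin 3) K) (u : VV) : ((lev A : ↥(O QQ)) : VV ≃ₗ[K] VV) u =
    levL (A : Matrix (Fin 3) (Fin 3) K) ((A⁻¹ : GL (Fin 3) K) : Matrix (Fin 3) (Fin 3) K)ᵀ u := rfl

theorem lev_mem (A : GL (Fin 3) K) (hA : (A : Matrix (Fin 3) (Fin 3) K).det = 1) : lev A ∈ commutator ↥(O QQ) := by
  have h1 : A ∈ commutator (GL (Fin 3) K) := by
    rw [Cfsg.Agent.S0264.result 3 (by intro h; omega)]
    rw [MonoidHom.mem_ker]
    apply Units.ext
    exact hA
  have h2 : (commutator (GL (Fin 3) K)).map lev ≤ commutator ↥(O QQ) := by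
    rw [commutator_def, Subgroup.map_commutator, commutator_def]
    exact Subgroup.commutator_mono le_top le_top
  exact h2 ⟨A, h1, rfl⟩

theorem nC_eq (u : VV) : nC u = mk (yp u 0) ![-(2 * u (.inl ())), -(yp u 2), yp u 1] ![0, 0, 0] := by
  rw [nm_eq]
  funext i
  rcases i with i | i | i
  · simp [nf, bf, E, X1, X2, X3, mk, yp, Fin.sum_univ_three]
  · fin_cases i <;> simp [nf, bf, E, X1, X2, X3, mk, yp, Fin.sum_univ_three]
  · fin_cases i <;> simp [nf, bf, E, X1, X2, X3, mk, yp, Fin.sum_univ_three]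

theorem pX (u : VV) (v : VV) (h0 : u (.inl ()) = 0) (h : yp u = 0) : polar QQ u v = xp u ⬝ᵥ yp v := by
  rw [polar_eq, bf, h0]
  have : ∀ i, u (.inr (.inr i)) = 0 := fun i => congrFun h i
  simp only [this, mul_zero, zero_mul, add_zero, zero_add]
  rfl

theorem odd_mem {u : ↥(O QQ)} (h : u ^ 3 = 1) : u ∈ commutator ↥(O QQ) := by
  have key : ∀ t : ℤˣ, t ^ 3 = 1 → t = 1 := by decide
  rw [mem_iff]
  exact ⟨key _ (by rw [← map_pow, h, map_one]), key _ (by rw [← map_pow, h, map_one])⟩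

theorem norm_C {h : ↥(O QQ)} {ε : K} (he : ε * ε = 1) (hh : ∀ u, (h : VV ≃ₗ[K] VV) (nC u) = ε • nC ((h : VV ≃ₗ[K] VV) u))
    (ha : ((h : VV ≃ₗ[K] VV) E) (.inl ()) = 1) : h ∈ commutator ↥(O QQ) := by
  obtain ⟨g, hg⟩ : ∃ g : VV → VV, g = fun u => (h : VV ≃ₗ[K] VV) u := ⟨_, rfl⟩
  have hgu : ∀ u, (h : VV ≃ₗ[K] VV) u = g u := fun u => by rw [hg]
  have hp : ∀ u v, polar QQ (g u) (g v) = polar QQ u v := fun u v => by rw [hg]; exact polar_map h.2 u v
  simp only [hgu] at hh ha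
  have g0 : g 0 = 0 := by rw [hg]; exact _root_.map_zero _
  have gneg : ∀ u, g (-u) = - g u := by intro u; rw [hg]; exact _root_.map_neg _ _
  -- relations
  have r1 : g E = ε • nC (g Y1) := by rw [← hh]; congr 1; rw [nC_eq]; decide
  have r2 : g X1 = ε • nC (g E) := by rw [← hh]; congr 1; rw [nC_eq]; decide
  have r3 : g X3 = ε • nC (g Y2) := by rw [← hh]; congr 1; rw [nC_eq]; decide
  have r4 : g (-X2) = ε • nC (g Y3) := by rw [← hh]; congr 1; rw [nC_eq]; decide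
  rw [gneg] at r4
  have r5 : ∀ u, nC u = 0 → nC (g u) = 0 := by
    intro u hu
    have h1 := hh u
    rw [hu, g0] at h1
    have h2 := congrArg (fun z => ε • z) h1
    simp only [smul_zero, smul_smul, he, one_smul] at h2
    exact h2.symm
  have r6 : ∀ u, nC u = 0 → u (.inl ()) = 0 ∧ yp u = 0 := by
    intro u hu
    rw [nC_eq] at hu
    have a1 : yp u 0 = 0 := congrFun hu (.inl ())
    have a2 : -(2 * u (.inl ())) = 0 := congrFun hu (.inr (.inl 0))
    have a3 : -(yp u 2) = 0 := congrFun hu (.inr (.inl 1))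
    have a4 : yp u 1 = 0 := congrFun hu (.inr (.inl 2))
    have key : ∀ t : K, -(2 * t) = 0 → t = 0 := by decide
    refine ⟨key _ a2, ?_⟩
    funext i
    fin_cases i
    · exact a1
    · exact a4
    · exact neg_eq_zero.mp a3
  obtain ⟨x1a, x1b⟩ := r6 _ (r5 X1 (by rw [nC_eq]; decide))
  obtain ⟨x2a, x2b⟩ := r6 _ (r5 X2 (by rw [nC_eq]; decide))
  obtain ⟨x3a, x3b⟩ := r6 _ (r5 X3 (by rw [nC_eq]; decide))
  have eY : yp (g E) = 0 := by
    rw [r1, nC_eq]
    funext i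
    have : ∀ i, ε • (![0, 0, 0] : Fin 3 → K) i = 0 := by intro i; fin_cases i <;> simp
    exact this i
  -- coordinates
  rw [nC_eq] at r2 r3 r4
  have c1 : xp (g X1) = ![ε * -(2 * 1), 0, 0] := by
    rw [r2, ha, eY]
    funext i
    fin_cases i <;> simp [xp, mk]
  have c3 : xp (g X3) = ![ε * -(2 * (g Y2) (.inl ())), ε * -(yp (g Y2) 2), ε * yp (g Y2) 1] := by
    rw [r3]
    funext i
    fin_cases i <;> simp [xp, mk]
  have c2 : xp (g X2) = ![-(ε * -(2 * (g Y3) (.inl ()))), -(ε * -(yp (g Y3) 2)), -(ε * yp (g Y3) 1)] := by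
    have : g X2 = - (ε • mk (yp (g Y3) 0) ![-(2 * (g Y3) (.inl ())), -(yp (g Y3) 2), yp (g Y3) 1] ![0, 0, 0]) := by
      rw [← r4, neg_neg]
    rw [this]
    funext i
    fin_cases i <;> simp [xp, mk]
  have y30 : yp (g Y3) 0 = 0 := by
    have h1 := congrFun r4 (.inl ())
    have h2 : -(g X2) (.inl ()) = ε * yp (g Y3) 0 := h1
    rw [x2a, neg_zero] at h2
    have h3 := congrArg (fun z => ε * z) h2
    simp only [mul_zero, ← mul_assoc, he, one_mul] at h3
    exact h3.symm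
  have d3 : ε * (yp (g Y2) 1 * yp (g Y3) 2 - yp (g Y2) 2 * yp (g Y3) 1) = 1 := by
    have h1 := hp X3 Y3
    rw [pX _ _ x3a x3b, c3, polar_eq, show bf X3 Y3 = 1 by decide] at h1
    simp only [dotProduct, Fin.sum_univ_three, Matrix.cons_val_zero, Matrix.cons_val_one, Matrix.cons_val, y30] at h1
    rw [← h1]; ring
  -- the Levi element
  obtain ⟨A, hA⟩ : ∃ A : Matrix (Fin 3) (Fin 3) K, A = Matrix.of fun i j => (![xp (g X1), xp (g X2), xp (g X3)] : Fin 3 → Fin 3 → K) j i := ⟨_, rfl⟩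
  have hdet : A.det = 1 := by
    rw [← d3, hA, det_fin_three]
    simp only [of_apply, c1, c2, c3, Matrix.cons_val_zero, Matrix.cons_val_one, Matrix.cons_val]
    have h3 : (3 : K) = 0 := by decide
    have hε : ε * ε * ε = ε := by rw [he, one_mul]
    linear_combination (-(2 * (yp (g Y2) 1 * yp (g Y3) 2 - yp (g Y2) 2 * yp (g Y3) 1))) * hε -
      (yp (g Y2) 1 * yp (g Y3) 2 - yp (g Y2) 2 * yp (g Y3) 1) * ε * h3
  let AG : GL (Fin 3) K := Matrix.GeneralLinearGroup.mkOfDetNeZero A (by rw [hdet]; decide)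
  have hAG : (AG : Matrix (Fin 3) (Fin 3) K) = A := rfl
  have hlm := lev_mem AG hdet
  have hv : ∀ (j : Fin 3) (X : VV), X (.inl ()) = 0 → yp X = 0 → xp X = Pi.single j 1 → (g X) (.inl ()) = 0 → yp (g X) = 0 →
      (![xp (g X1), xp (g X2), xp (g X3)] : Fin 3 → Fin 3 → K) j = xp (g X) →
      ((lev AG : ↥(O QQ)) : VV ≃ₗ[K] VV) X = g X := by
    intro j X h1 h2 h3 h4 h5 h6
    rw [lev_apply, levL_apply, hAG]
    apply ext_VV
    · show X (.inl ()) = _
      rw [h1, h4]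
    · show A *ᵥ xp X = _
      rw [h3, mulVec_single_one, ← h6, hA]
      rfl
    · show _ *ᵥ yp X = _
      rw [h2, mulVec_zero, h5]
  have e1 := hv 0 X1 (by decide) (by decide) (by decide) x1a x1b rfl
  have e2 := hv 1 X2 (by decide) (by decide) (by decide) x2a x2b rfl
  have e3 := hv 2 X3 (by decide) (by decide) (by decide) x3a x3b rfl
  obtain ⟨u, hu⟩ : ∃ u : ↥(O QQ), u = (lev AG)⁻¹ * h := ⟨_, rfl⟩
  have hua : ∀ v, (u : VV ≃ₗ[K] VV) v = (((lev AG)⁻¹ : ↥(O QQ)) : VV ≃ₗ[K] VV) (g v) := by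
    intro v; rw [hu, ← hgu]; rfl
  have ux1 : (u : VV ≃ₗ[K] VV) X1 = X1 := by rw [hua, ← e1, ig]
  have ux2 : (u : VV ≃ₗ[K] VV) X2 = X2 := by rw [hua, ← e2, ig]
  have ux3 : (u : VV ≃ₗ[K] VV) X3 = X3 := by rw [hua, ← e3, ig]
  have uE : ((u : VV ≃ₗ[K] VV) E) (.inl ()) = 1 := by
    rw [hua, ← map_inv, lev_apply, levL_apply]
    exact ha
  have huy : ∀ v, yp ((u : VV ≃ₗ[K] VV) v) = yp v := by
    intro v
    have hp' : ∀ a b, polar QQ ((u : VV ≃ₗ[K] VV) a) ((u : VV ≃ₗ[K] VV) b) = polar QQ a b := fun a b => polar_map u.2 a b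
    have k : ∀ (j : Fin 3) (X : VV), X (.inl ()) = 0 → yp X = 0 → xp X = Pi.single j 1 → (u : VV ≃ₗ[K] VV) X = X →
        yp ((u : VV ≃ₗ[K] VV) v) j = yp v j := by
      intro j X h1 h2 h3 h4
      have h5 := hp' X v
      rw [h4, pX _ _ h1 h2, pX _ _ h1 h2, h3, single_one_dotProduct, single_one_dotProduct] at h5
      exact h5
    funext j
    fin_cases j
    · exact k 0 X1 (by decide) (by decide) (by decide) ux1
    · exact k 1 X2 (by decide) (by decide) (by decide) ux2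
    · exact k 2 X3 (by decide) (by decide) (by decide) ux3
  have hdec : ∀ v : VV, yp v = 0 → v = v (.inl ()) • E + (xp v 0 • X1 + xp v 1 • X2 + xp v 2 • X3) := by
    intro v hv
    funext i
    rcases i with i | i | i
    · simp [E, X1, X2, X3, mk]
    · fin_cases i <;> simp [E, X1, X2, X3, mk, xp]
    · have : v (.inr (.inr i)) = 0 := congrFun hv i
      rw [this]
      fin_cases i <;> simp [E, X1, X2, X3, mk, xp]
  have huv : ∀ v : VV, yp v = 0 → (u : VV ≃ₗ[K] VV) v - v = v (.inl ()) • ((u : VV ≃ₗ[K] VV) E - E) := by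
    intro v hv
    conv_lhs => rw [hdec v hv]
    simp only [_root_.map_add, _root_.map_smul, ux1, ux2, ux3]
    module
  have t1 : ∀ v, yp ((u : VV ≃ₗ[K] VV) v - v) = 0 := by
    intro v
    have : yp ((u : VV ≃ₗ[K] VV) v - v) = yp ((u : VV ≃ₗ[K] VV) v) - yp v := rfl
    rw [this, huy, sub_self]
  have t2 : ∀ v, yp v = 0 → ((u : VV ≃ₗ[K] VV) v - v) (.inl ()) = 0 := by
    intro v hv
    rw [huv v hv]
    show v (.inl ()) * (((u : VV ≃ₗ[K] VV) E) (.inl ()) - E (.inl ())) = 0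
    rw [uE, show E (.inl ()) = 1 by decide, sub_self, mul_zero]
  have hcube : u ^ 3 = 1 := by
    apply Subtype.ext
    apply LinearEquiv.ext
    intro v
    show (u : VV ≃ₗ[K] VV) ((u : VV ≃ₗ[K] VV) ((u : VV ≃ₗ[K] VV) v)) = v
    obtain ⟨w, hw⟩ : ∃ w, w = (u : VV ≃ₗ[K] VV) v - v := ⟨_, rfl⟩
    have hw1 : yp w = 0 := by rw [hw]; exact t1 v
    obtain ⟨z, hz⟩ : ∃ z, z = (u : VV ≃ₗ[K] VV) w - w := ⟨_, rfl⟩
    have hz1 : yp z = 0 := by rw [hz]; exact t1 w
    have hz2 : z (.inl ()) = 0 := by rw [hz]; exact t2 w hw1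
    have hz3 : (u : VV ≃ₗ[K] VV) z - z = 0 := by rw [huv z hz1, hz2, zero_smul]
    have f1 : (u : VV ≃ₗ[K] VV) v = v + w := by rw [hw]; abel
    have f2 : (u : VV ≃ₗ[K] VV) w = w + z := by rw [hz]; abel
    have f3 : (u : VV ≃ₗ[K] VV) z = z := sub_eq_zero.mp hz3
    rw [f1, _root_.map_add, f1, f2, _root_.map_add, _root_.map_add, _root_.map_add, f1, f2, f3]
    have h3 : ∀ a : VV, (3 : K) • a = 0 := by intro a; rw [show (3 : K) = 0 by decide, zero_smul]
    have : v + w + (w + z) + (w + z + z) = v + (3 : K) • w + (3 : K) • z := by module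
    rw [this, h3, h3, add_zero, add_zero]
  have : h = lev AG * u := by rw [hu, mul_inv_cancel_left]
  rw [this]
  exact (commutator ↥(O QQ)).mul_mem hlm (odd_mem hcube)

end H50.O73
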