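import Cfsg.Agent.Lib.H50.O73f
import Cfsg.Agent.Lib.H92.Orth7b
import Cfsg.Agent.Lib.H17.SpecPO

/-!
The seven classes of subgroups of order three.
-/
set_option autoImplicit false
set_option linter.unusedSectionVars false
set_option linter.unusedVariables false
set_option maxHeartbeats 400000

namespace H50.O73

open QuadraticMap Module Matrix H48.QuadWitt H17.OrthAbs H48.QuadStd H17.OrthTheta H17.OrthOmega H48.OmegaQ H17.OrthNegOne

/-! ### abstract part -/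

section abs

variable {G : Type*} [Group G]

/-- `k` classes of subgroups of order three, by elements -/
def El (G : Type*) [Group G] (k : ℕ) : Prop :=
  ∃ y : Fin k → G, (∀ i, y i ^ 3 = 1 ∧ y i ≠ 1) ∧
    (∀ i j g, (g * y i * g⁻¹ = y j ∨ g * y i * g⁻¹ = (y j)⁻¹) → i = j) ∧
    (∀ x : G, x ^ 3 = 1 → x ≠ 1 → ∃ i g, g * x * g⁻¹ = y i)

theorem El.trans {G' : Type*} [Group G'] {k : ℕ} (e : G ≃* G') (h : El G k) : El G' k := by
  obtain ⟨y, h1, h2, h3⟩ := h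
  refine ⟨fun i => e (y i), fun i => ⟨?_, ?_⟩, fun i j g hg => ?_, fun x hx hx1 => ?_⟩
  · show e (y i) ^ 3 = 1
    rw [← map_pow, (h1 i).1, map_one]
  · intro h
    change e (y i) = 1 at h
    exact (h1 i).2 (e.injective (by rw [h, map_one]))
  · change g * e (y i) * g⁻¹ = e (y j) ∨ g * e (y i) * g⁻¹ = (e (y j))⁻¹ at hg
    apply h2 i j (e.symm g)
    rcases hg with hg | hg
    · left
      apply e.injective
      rw [map_mul, map_mul, map_inv, e.apply_symm_apply, hg]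
    · right
      apply e.injective
      rw [map_mul, map_mul, map_inv, e.apply_symm_apply, hg, map_inv]
  · obtain ⟨i, g, hg⟩ := h3 (e.symm x) (by rw [← map_pow, hx, map_one]) (fun h => hx1 (e.symm.injective (by rw [h, map_one])))
    refine ⟨i, e g, ?_⟩
    show e g * x * (e g)⁻¹ = e (y i)
    rw [← hg, map_mul, map_mul, map_inv, e.apply_symm_apply]

theorem ord3 {x : G} (h : x ^ 3 = 1) (h1 : x ≠ 1) : orderOf x = 3 := by
  haveI : Fact (Nat.Prime 3) := ⟨Nat.prime_three⟩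
  exact orderOf_eq_prime h h1

theorem mem_zp {x z : G} (h : x ^ 3 = 1) (hz : z ∈ Subgroup.zpowers x) (hz1 : z ≠ 1) : z = x ∨ z = x⁻¹ := by
  obtain ⟨k, rfl⟩ := hz
  have h2 : x ^ (3 : ℤ) = 1 := by exact_mod_cast h
  have h3 : ∀ m : ℤ, x ^ (3 * m) = 1 := fun m => by rw [_root_.zpow_mul, h2, _root_.one_zpow]
  have h4 : x ^ k = x ^ (k % 3) := by
    conv_lhs => rw [← Int.mul_ediv_add_emod k 3, _root_.zpow_add, h3, one_mul]
  show x ^ k = x ∨ x ^ k = x⁻¹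
  have hz2 : x ^ k ≠ 1 := hz1
  rw [h4] at hz2 ⊢
  have h5 := Int.emod_nonneg k (show (3 : ℤ) ≠ 0 by norm_num)
  have h6 := Int.emod_lt_of_pos k (show (0 : ℤ) < 3 by norm_num)
  have h7 : k % 3 = 0 ∨ k % 3 = 1 ∨ k % 3 = 2 := by omega
  rcases h7 with h7 | h7 | h7
  · rw [h7] at hz2; exact absurd (zpow_zero x) hz2
  · rw [h7]; left; exact zpow_one x
  · rw [h7]; right
    rw [eq_inv_iff_mul_eq_one, ← _root_.zpow_add_one]
    exact h2

theorem El.subgroups {k : ℕ} (h : El G k) : ∃ Y : Fin k → Subgroup G, (∀ i, Nat.card (Y i) = 3) ∧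
    (∀ i j, (∃ g : G, (Y i).map (MulAut.conj g).toMonoidHom = Y j) → i = j) ∧
    (∀ X : Subgroup G, Nat.card X = 3 → ∃ i, ∃ g : G, X.map (MulAut.conj g).toMonoidHom = Y i) := by
  obtain ⟨y, h1, h2, h3⟩ := h
  refine ⟨fun i => Subgroup.zpowers (y i), fun i => ?_, fun i j hg => ?_, fun X hX => ?_⟩
  · rw [Nat.card_zpowers]
    exact ord3 (h1 i).1 (h1 i).2
  · obtain ⟨g, hg⟩ := hg
    have h4 : g * y i * g⁻¹ ∈ Subgroup.zpowers (y j) := by
      change (Subgroup.zpowers (y i)).map (MulAut.conj g).toMonoidHom = Subgroup.zpowers (y j) at hg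
      rw [← hg]
      exact ⟨y i, Subgroup.mem_zpowers _, rfl⟩
    have h5 : g * y i * g⁻¹ ≠ 1 := by
      intro h
      exact (h1 i).2 (by rwa [conj_eq_one_iff] at h)
    exact h2 i j g (mem_zp (h1 j).1 h4 h5)
  · haveI : Fact (Nat.Prime 3) := ⟨Nat.prime_three⟩
    haveI : Finite X := Nat.finite_of_card_ne_zero (by rw [hX]; norm_num)
    obtain ⟨x, hx⟩ := exists_prime_orderOf_dvd_card' (G := X) 3 (by rw [hX])
    have hx0 : orderOf (x : G) = 3 := by rw [Subgroup.orderOf_coe, hx]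
    have hXx : X = Subgroup.zpowers (x : G) := by
      symm
      apply Subgroup.eq_of_le_of_card_ge
      · rw [Subgroup.zpowers_le]; exact x.2
      · rw [hX, Nat.card_zpowers, hx0]
    have hx3 : (x : G) ^ 3 = 1 := by rw [← hx0, pow_orderOf_eq_one]
    have hx1 : (x : G) ≠ 1 := by
      intro h
      rw [h, orderOf_one] at hx0
      norm_num at hx0
    obtain ⟨i, g, hg⟩ := h3 x hx3 hx1
    refine ⟨i, g, ?_⟩
    rw [hXx, MonoidHom.map_zpowers]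
    show Subgroup.zpowers (g * x * g⁻¹) = Subgroup.zpowers (y i)
    rw [hg]

end abs

/-! ### type C -/

theorem QQ_E : ∀ u : VV, yp u = 0 → QQ u = u (.inl ()) ^ 2 := by
  intro u hu
  rw [q_eq, qf_eq, hu, dotProduct_zero, add_zero]

theorem negO_apply (u : VV) : ((negO QQ : ↥(O QQ)) : VV ≃ₗ[K] VV) u = -u := rfl

theorem chi_negO : χ₁ (negO QQ) * χ₂ (negO QQ) = -1 :=
  H46.OddFinal.theta_negO two_ne QQ RR RR_one ndQ (by decide)

theorem norm_C' {h : ↥(O QQ)} {ε : K} (he : ε * ε = 1) (hh : ∀ u, (h : VV ≃ₗ[K] VV) (nC u) = ε • nC ((h : VV ≃ₗ[K] VV) u)) :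
    h ∈ commutator ↥(O QQ) ∨ negO QQ * h ∈ commutator ↥(O QQ) := by
  have r1 : (h : VV ≃ₗ[K] VV) E = ε • nC ((h : VV ≃ₗ[K] VV) Y1) := by rw [← hh]; congr 1; rw [nC_eq]; decide
  have eY : yp ((h : VV ≃ₗ[K] VV) E) = 0 := by
    rw [r1, nC_eq]
    funext i
    have : ∀ i, ε • (![0, 0, 0] : Fin 3 → K) i = 0 := by intro i; fin_cases i <;> simp
    exact this i
  have h1 : QQ ((h : VV ≃ₗ[K] VV) E) = QQ E := h.2 E
  rw [QQ_E _ eY, QQ_E E (by decide)] at h1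
  have key : ∀ t : K, t ^ 2 = E (.inl ()) ^ 2 → t = 1 ∨ -t = 1 := by decide
  rcases key _ h1 with h2 | h2
  · left; exact norm_C he hh h2
  · right
    apply norm_C he
    · intro u
      show -((h : VV ≃ₗ[K] VV) (nC u)) = ε • nC (-((h : VV ≃ₗ[K] VV) u))
      rw [hh, _root_.map_neg, smul_neg]
    · exact h2

/-- an isometry not preserving the class of type C -/
noncomputable def r₀ : ↥(O QQ) := rr E * rr (X1 - Y1)

theorem chi_r : χ₁ r₀ = -1 ∧ χ₂ r₀ = -1 := by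
  have h1 := chi_one (w := E) (by decide)
  have h2 := chi_neg (w := X1 - Y1) (by decide)
  rw [r₀, map_mul, map_mul, h1.1, h1.2, h2.1, h2.2]
  exact ⟨rfl, rfl⟩

theorem r_not : ¬ (r₀ ∈ commutator ↥(O QQ) ∨ negO QQ * r₀ ∈ commutator ↥(O QQ)) := by
  rintro (h | h)
  · rw [mem_iff, chi_r.1] at h
    exact absurd h.1 (by decide)
  · rw [mem_iff, map_mul, map_mul, chi_r.1, chi_r.2] at h
    obtain ⟨h1, h2⟩ := h
    have h3 := chi_negO
    have key : ∀ a b : ℤˣ, a * -1 = 1 → b * -1 = 1 → a * b = -1 → False := by decide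
    exact key _ _ h1 h2 h3

theorem negO_comm (x : ↥(O QQ)) : negO QQ * x * (negO QQ)⁻¹ = x := by
  rw [mul_inv_eq_iff_eq_mul]
  apply Subtype.ext
  apply LinearEquiv.ext
  intro u
  show -((x : VV ≃ₗ[K] VV) u) = (x : VV ≃ₗ[K] VV) (-u)
  rw [_root_.map_neg]

theorem decompC (g : ↥(O QQ)) : ∃ h ∈ commutator ↥(O QQ), g = h ∨ g = h * negO QQ ∨ g = h * r₀ ∨ g = h * r₀ * negO QQ := by
  have key : ∀ a b : ℤˣ, a = b → (a = 1 ∧ b = 1) ∨ (a = -1 ∧ b = -1) := by decide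
  have key2 : ∀ a b : ℤˣ, a = b ∨ a * b = -1 := by decide
  have key3 : ∀ a b c d : ℤˣ, a * b = -1 → c * d = -1 → a * c⁻¹ = b * d⁻¹ := by decide
  have main : ∀ g : ↥(O QQ), χ₁ g = χ₂ g → ∃ h ∈ commutator ↥(O QQ), g = h ∨ g = h * r₀ := by
    intro g hg
    rcases key _ _ hg with h | h
    · exact ⟨g, (mem_iff g).2 h, Or.inl rfl⟩
    · refine ⟨g * r₀⁻¹, (mem_iff _).2 ?_, Or.inr (by rw [inv_mul_cancel_right])⟩
      rw [map_mul, map_mul, map_inv, map_inv, chi_r.1, chi_r.2, h.1, h.2]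
      exact ⟨rfl, rfl⟩
  rcases key2 (χ₁ g) (χ₂ g) with h | h
  · obtain ⟨k, hk, h1 | h1⟩ := main g h
    · exact ⟨k, hk, Or.inl h1⟩
    · exact ⟨k, hk, Or.inr (Or.inr (Or.inl h1))⟩
  · obtain ⟨k, hk, h1 | h1⟩ := main (g * (negO QQ)⁻¹) (by rw [map_mul, map_mul, map_inv, map_inv]; exact key3 _ _ _ _ h chi_negO)
    · refine ⟨k, hk, Or.inr (Or.inl ?_)⟩
      rw [← h1, inv_mul_cancel_right]
    · refine ⟨k, hk, Or.inr (Or.inr (Or.inr ?_))⟩
      rw [← h1, inv_mul_cancel_right]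

theorem three_zero : (3 : K) = 0 := by decide

noncomputable abbrev ex {n : VV →ₗ[K] VV} (h : SK QQ n) : ↥(O QQ) := exE two_ne three_zero h

theorem ex_cube {n : VV →ₗ[K] VV} (h : SK QQ n) : ex h ^ 3 = 1 := exE_cube _ _ h
theorem ex_mem {n : VV →ₗ[K] VV} (h : SK QQ n) : ex h ∈ commutator ↥(O QQ) := odd_mem (ex_cube h)
theorem lg_ex {n : VV →ₗ[K] VV} (h : SK QQ n) : lg (ex h) = n := lg_exE _ _ h

/-- the representatives in `O` -/
noncomputable def yy : Fin 7 → ↥(O QQ) :=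
  ![ex skA, ex skB, ex skB', ex skC, ex skD, ex skD', r₀ * ex skC * r₀⁻¹]

theorem yy_cube : ∀ i, yy i ^ 3 = 1 := by
  intro i
  fin_cases i
  · exact ex_cube skA
  · exact ex_cube skB
  · exact ex_cube skB'
  · exact ex_cube skC
  · exact ex_cube skD
  · exact ex_cube skD'
  · show (r₀ * ex skC * r₀⁻¹) ^ 3 = 1
    rw [conj_pow, ex_cube, mul_one, mul_inv_cancel]

theorem yy_mem (i : Fin 7) : yy i ∈ commutator ↥(O QQ) := odd_mem (yy_cube i)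

noncomputable def ee (x : ↥(O QQ)) : ℕ := cd (lg x)

theorem ee_conj {x y g : ↥(O QQ)} (hy : y ^ 3 = 1) (h : g * x * g⁻¹ = y ∨ g * x * g⁻¹ = y⁻¹) : ee x = ee y := by
  apply Rel.cd_eq
  rcases h with h | h
  · exact ⟨g, 1, by decide, fun u => by rw [one_smul]; exact lg_conj g x y h u⟩
  · refine ⟨g, -1, by decide, fun u => ?_⟩
    have h1 := lg_conj g x y⁻¹ h u
    rw [lg_inv three_zero hy] at h1
    rw [h1, neg_one_smul, LinearMap.neg_apply]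

theorem ee_yy : ∀ i, ee (yy i) = (![0, 1, 2, 3, 4, 5, 3] : Fin 7 → ℕ) i := by
  intro i
  fin_cases i
  · show cd (lg (ex skA)) = 0; rw [lg_ex, cdA]
  · show cd (lg (ex skB)) = 1; rw [lg_ex, cdB]
  · show cd (lg (ex skB')) = 2; rw [lg_ex, cdB']
  · show cd (lg (ex skC)) = 3; rw [lg_ex, cdC]
  · show cd (lg (ex skD)) = 4; rw [lg_ex, cdD]
  · show cd (lg (ex skD')) = 5; rw [lg_ex, cdD']
  · show ee (r₀ * ex skC * r₀⁻¹) = 3
    rw [← ee_conj (x := ex skC) (g := r₀) (y := r₀ * ex skC * r₀⁻¹) (yy_cube 6) (Or.inl rfl)]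
    show cd (lg (ex skC)) = 3; rw [lg_ex, cdC]

theorem C_ne {g : ↥(O QQ)} (hg : g ∈ commutator ↥(O QQ)) (h : g * ex skC * g⁻¹ = r₀ * ex skC * r₀⁻¹ ∨
    g * ex skC * g⁻¹ = (r₀ * ex skC * r₀⁻¹)⁻¹) : False := by
  apply r_not
  obtain ⟨k, hk⟩ : ∃ k, k = g⁻¹ * r₀ := ⟨_, rfl⟩
  have h1 : r₀ = g * k := by rw [hk, mul_inv_cancel_left]
  have h2 : k * ex skC * k⁻¹ = ex skC ∨ k * ex skC * k⁻¹ = (ex skC)⁻¹ := by
    rcases h with h | h
    · left
      rw [hk]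
      calc g⁻¹ * r₀ * ex skC * (g⁻¹ * r₀)⁻¹ = g⁻¹ * (r₀ * ex skC * r₀⁻¹) * g := by group
        _ = ex skC := by rw [← h]; group
    · right
      have h3 : r₀ * ex skC * r₀⁻¹ = (g * ex skC * g⁻¹)⁻¹ := by rw [h, inv_inv]
      rw [hk]
      calc g⁻¹ * r₀ * ex skC * (g⁻¹ * r₀)⁻¹ = g⁻¹ * (r₀ * ex skC * r₀⁻¹) * g := by group
        _ = (ex skC)⁻¹ := by rw [h3]; group
  have h3 : k ∈ commutator ↥(O QQ) ∨ negO QQ * k ∈ commutator ↥(O QQ) := by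
    rcases h2 with h2 | h2
    · apply norm_C' (ε := 1) (by decide)
      intro u
      have := lg_conj k _ _ h2 u
      rw [lg_ex] at this
      rw [this, one_smul]
    · apply norm_C' (ε := -1) (by decide)
      intro u
      have := lg_conj k _ _ h2 u
      rw [lg_inv three_zero (ex_cube skC), lg_ex, LinearMap.neg_apply] at this
      rw [this, neg_one_smul]
  rcases h3 with h3 | h3
  · left; rw [h1]; exact (commutator ↥(O QQ)).mul_mem hg h3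
  · right
    have h4 : negO QQ * r₀ = g * (negO QQ * k) := by
      rw [h1]
      have := negO_comm g
      rw [mul_inv_eq_iff_eq_mul] at this
      rw [← mul_assoc, this, mul_assoc]
    rw [h4]; exact (commutator ↥(O QQ)).mul_mem hg h3

theorem all_C (x g : ↥(O QQ)) (h : g * ex skC * g⁻¹ = x) : ∃ i : Fin 7, ∃ k ∈ commutator ↥(O QQ), k * x * k⁻¹ = yy i := by
  obtain ⟨k, hk, h1⟩ := decompC g
  have hn : ∀ y : ↥(O QQ), y * negO QQ * ex skC * (y * negO QQ)⁻¹ = y * ex skC * y⁻¹ := by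
    intro y
    calc y * negO QQ * ex skC * (y * negO QQ)⁻¹ = y * (negO QQ * ex skC * (negO QQ)⁻¹) * y⁻¹ := by group
      _ = y * ex skC * y⁻¹ := by rw [negO_comm]
  rcases h1 with h1 | h1 | h1 | h1
  · refine ⟨3, k⁻¹, (commutator ↥(O QQ)).inv_mem hk, ?_⟩
    show k⁻¹ * x * k⁻¹⁻¹ = ex skC
    rw [← h, h1]; group
  · refine ⟨3, k⁻¹, (commutator ↥(O QQ)).inv_mem hk, ?_⟩
    show k⁻¹ * x * k⁻¹⁻¹ = ex skC
    rw [← h, h1, hn]; group
  · refine ⟨6, k⁻¹, (commutator ↥(O QQ)).inv_mem hk, ?_⟩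
    show k⁻¹ * x * k⁻¹⁻¹ = r₀ * ex skC * r₀⁻¹
    rw [← h, h1]; group
  · refine ⟨6, k⁻¹, (commutator ↥(O QQ)).inv_mem hk, ?_⟩
    show k⁻¹ * x * k⁻¹⁻¹ = r₀ * ex skC * r₀⁻¹
    rw [← h, h1, hn]; group

theorem conj_ful {n : VV →ₗ[K] VV} (hn : SK QQ n) (hf : Ful n) {x g : ↥(O QQ)} (hx : x ^ 3 = 1)
    (h : ∀ u, (g : VV ≃ₗ[K] VV) (lg x u) = n ((g : VV ≃ₗ[K] VV) u)) : ∃ k ∈ commutator ↥(O QQ), k * x * k⁻¹ = ex hn := by
  obtain ⟨c, hc, hcg⟩ := hf g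
  refine ⟨c * g, hcg, ?_⟩
  apply conj_of _ _ _ two_ne three_zero hx (ex_cube hn)
  intro u
  rw [lg_ex]
  show (c : VV ≃ₗ[K] VV) ((g : VV ≃ₗ[K] VV) (lg x u)) = n ((c : VV ≃ₗ[K] VV) ((g : VV ≃ₗ[K] VV) u))
  rw [h, hc]

theorem all_x {x : ↥(O QQ)} (hx : x ^ 3 = 1) (hx1 : x ≠ 1) : ∃ i : Fin 7, ∃ k ∈ commutator ↥(O QQ), k * x * k⁻¹ = yy i := by
  have hne : ∃ u, lg x u ≠ 0 := by
    by_contra hcon
    push Not at hcon
    apply hx1
    rw [← exE_lg two_ne three_zero hx]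
    apply Subtype.ext
    apply LinearEquiv.ext
    intro u
    rw [exE_apply, hcon, hcon, sub_zero, add_zero]
    rfl
  obtain ⟨vC, hvC, -⟩ := tpC
  have hd3 : (G3 (1 : K)).det ≠ 0 := det_G3' (by decide)
  have hd3' : (G3 (-1 : K)).det ≠ 0 := det_G3' (by decide)
  have hd2 : (G2 K).det ≠ 0 := det_G2
  rcases classify ndQ finrankV (lg_sk three_zero hx) hne ⟨nC, vC, hvC⟩ with h | h | h | h | h | h
  · obtain ⟨g, hg, hgu⟩ := h.conj two_ne ndQ hd2 tpA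
    obtain ⟨k, hk, hk'⟩ := conj_ful skA fulA (g := ⟨g, hg⟩) hx hgu
    exact ⟨0, k, hk, hk'⟩
  · obtain ⟨g, hg, hgu⟩ := h.conj two_ne ndQ hd3 tpB
    obtain ⟨k, hk, hk'⟩ := conj_ful skB fulB (g := ⟨g, hg⟩) hx hgu
    exact ⟨1, k, hk, hk'⟩
  · obtain ⟨g, hg, hgu⟩ := h.conj two_ne ndQ hd3' tpB'
    obtain ⟨k, hk, hk'⟩ := conj_ful skB' fulB' (g := ⟨g, hg⟩) hx hgu
    exact ⟨2, k, hk, hk'⟩
  · obtain ⟨g, hg, hgu⟩ := h.conj two_ne ndQ (det_blk hd3 hd2) tpC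
    have h1 : (⟨g, hg⟩ : ↥(O QQ)) * x * (⟨g, hg⟩ : ↥(O QQ))⁻¹ = ex skC := by
      apply conj_of _ _ _ two_ne three_zero hx (ex_cube skC)
      intro u
      rw [lg_ex]
      exact hgu u
    apply all_C x (⟨g, hg⟩ : ↥(O QQ))⁻¹
    rw [← h1]; group
  · obtain ⟨g, hg, hgu⟩ := h.conj two_ne ndQ (det_blk hd3 hd3) tpD
    obtain ⟨k, hk, hk'⟩ := conj_ful skD fulD (g := ⟨g, hg⟩) hx hgu
    exact ⟨4, k, hk, hk'⟩
  · obtain ⟨g, hg, hgu⟩ := h.conj two_ne ndQ (det_blk hd3 hd3') tpD'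
    obtain ⟨k, hk, hk'⟩ := conj_ful skD' fulD' (g := ⟨g, hg⟩) hx hgu
    exact ⟨5, k, hk, hk'⟩

theorem yy_inj {i j : Fin 7} {g : ↥(O QQ)} (hg : g ∈ commutator ↥(O QQ)) (h : g * yy i * g⁻¹ = yy j ∨ g * yy i * g⁻¹ = (yy j)⁻¹) : i = j := by
  have h1 := ee_conj (yy_cube j) h
  rw [ee_yy, ee_yy] at h1
  have key : ∀ i j : Fin 7, (![0, 1, 2, 3, 4, 5, 3] : Fin 7 → ℕ) i = (![0, 1, 2, 3, 4, 5, 3] : Fin 7 → ℕ) j →
      i = j ∨ (i = 3 ∧ j = 6) ∨ (i = 6 ∧ j = 3) := by decide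
  rcases key i j h1 with h2 | ⟨rfl, rfl⟩ | ⟨rfl, rfl⟩
  · exact h2
  · exact (C_ne hg h).elim
  · exfalso
    apply C_ne ((commutator ↥(O QQ)).inv_mem hg)
    change g * (r₀ * ex skC * r₀⁻¹) * g⁻¹ = ex skC ∨ g * (r₀ * ex skC * r₀⁻¹) * g⁻¹ = (ex skC)⁻¹ at h
    rcases h with h | h
    · left; conv_lhs => rw [← h]
      group
    · right
      have h3 : ex skC = (g * (r₀ * ex skC * r₀⁻¹) * g⁻¹)⁻¹ := by rw [h, inv_inv]
      rw [inv_inv]
      calc g⁻¹ * ex skC * g = g⁻¹ * (g * (r₀ * ex skC * r₀⁻¹) * g⁻¹)⁻¹ * g := by rw [← h3]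
        _ = _ := by group

theorem yy_ne (i : Fin 7) : yy i ≠ 1 := by
  intro h
  have h0 : (yy 0 : ↥(O QQ)) = ex skA := rfl
  have h1 : yy i ^ 3 = 1 := yy_cube i
  have hlg : lg (yy i) = 0 := by
    rw [h]
    apply LinearMap.ext
    intro u
    show (((1 : ↥(O QQ)) : VV ≃ₗ[K] VV) (((1 : ↥(O QQ)) : VV ≃ₗ[K] VV) u)) - ((1 : ↥(O QQ)) : VV ≃ₗ[K] VV) u = 0
    exact sub_self _
  have h2 : ee (yy i) = 0 := by
    rw [ee, hlg, cd, if_pos (show P1 (0 : VV →ₗ[K] VV) from fun u => rfl)]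
  rw [ee_yy] at h2
  have key : ∀ i : Fin 7, (![0, 1, 2, 3, 4, 5, 3] : Fin 7 → ℕ) i = 0 → i = 0 := by decide
  obtain rfl := key i h2
  rw [h0, lg_ex] at hlg
  have h3 := congrArg (fun f : VV →ₗ[K] VV => f Y2) hlg
  have h4 : nA Y2 = 0 := h3
  rw [nm_eq] at h4
  revert h4
  decide

theorem el_comm : El ↥(commutator ↥(O QQ)) 7 := by
  refine ⟨fun i => ⟨yy i, yy_mem i⟩, fun i => ⟨?_, ?_⟩, fun i j g hg => ?_, fun x hx hx1 => ?_⟩
  · exact Subtype.ext (yy_cube i)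
  · intro h
    exact yy_ne i (congrArg Subtype.val h)
  · apply yy_inj g.2
    rcases hg with hg | hg
    · left; exact congrArg Subtype.val hg
    · right; exact congrArg Subtype.val hg
  · obtain ⟨i, k, hk, h⟩ := all_x (x := (x : ↥(O QQ))) (by exact_mod_cast congrArg Subtype.val hx) (fun h => hx1 (Subtype.ext h))
    exact ⟨i, ⟨k, hk⟩, Subtype.ext h⟩

theorem el_pomega : El (Cfsg.POmega (ZMod 3) (Cfsg.quadFormOdd 3 (ZMod 3))) 7 := by
  have h : ⇑QQ = Cfsg.quadFormOdd 3 (ZMod 3) := coe_qOdd 3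
  have hc := H17.SpecPO.center_eq_bot (F := ZMod 3) two_ne 3 (by norm_num)
  have e3 : Cfsg.Omega (ZMod 3) (Cfsg.quadFormOdd 3 (ZMod 3)) ≃* Cfsg.POmega (ZMod 3) (Cfsg.quadFormOdd 3 (ZMod 3)) := by
    have e : Cfsg.POmega (ZMod 3) (Cfsg.quadFormOdd 3 (ZMod 3)) ≃* Cfsg.Omega (ZMod 3) (Cfsg.quadFormOdd 3 (ZMod 3)) :=
      (QuotientGroup.quotientMulEquivOfEq hc).trans QuotientGroup.quotientBot
    exact e.symm
  have e4 : Nonempty (↥(commutator ↥(O QQ)) ≃* Cfsg.Omega (ZMod 3) (Cfsg.quadFormOdd 3 (ZMod 3))) := by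
    rw [← h]
    have e := H17.OrthTrans.equiv QQ
    have h1 : (commutator ↥(Cfsg.isometryGroup (ZMod 3) (⇑QQ))).map e.toMonoidHom = commutator ↥(O QQ) := by
      rw [commutator_def, commutator_def, Subgroup.map_commutator, ← MonoidHom.range_eq_map]
      have : e.toMonoidHom.range = ⊤ := MonoidHom.range_eq_top.2 e.surjective
      rw [this]
    have e1 : ↥(commutator ↥(Cfsg.isometryGroup (ZMod 3) (⇑QQ))) ≃* ↥(commutator ↥(O QQ)) :=
      (Subgroup.equivMapOfInjective _ e.toMonoidHom e.injective).trans (MulEquiv.subgroupCongr h1)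
    exact ⟨e1.symm⟩
  obtain ⟨e4⟩ := e4
  exact (el_comm.trans e4).trans e3

end H50.O73
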