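import Mathlib

set_option autoImplicit false
set_option linter.unusedVariables false
set_option linter.unusedSectionVars false
set_option maxHeartbeats 400000

/-! Ostrom-Wagner, theorem X, part 1: perspectivities of a finite projective plane
(self-dual formulation). -/

namespace H50.OW

/-- a projective plane of order `k` with a faithful group of collineations -/
structure PA (G P L : Type*) [Group G] [MulAction G P] [MulAction G L] where
  I : P → L → Prop
  inc : ∀ (g : G) (p : P) (l : L), I (g • p) (g • l) ↔ I p l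
  join : ∀ p q : P, p ≠ q → ∃ l, I p l ∧ I q l
  meet : ∀ l m : L, l ≠ m → ∃ p, I p l ∧ I p m
  uniq : ∀ {p q : P} {l m : L}, I p l → I q l → I p m → I q m → p = q ∨ l = m
  k : ℕ
  k2 : 2 ≤ k
  cp : ∀ l : L, Nat.card {p // I p l} = k + 1
  cl : ∀ p : P, Nat.card {l // I p l} = k + 1
  cP : Nat.card P = k ^ 2 + k + 1
  cL : Nat.card L = k ^ 2 + k + 1
  faithP : ∀ g : G, (∀ p : P, g • p = p) → g = 1
  faithL : ∀ g : G, (∀ l : L, g • l = l) → g = 1

namespace PA

variable {G P L : Type*} [Group G] [MulAction G P] [MulAction G L]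

/-- the dual plane -/
def dual (D : PA G P L) : PA G L P where
  I := fun l p => D.I p l
  inc := fun g l p => D.inc g p l
  join := D.meet
  meet := D.join
  uniq := fun {l m p q} h1 h2 h3 h4 => (D.uniq h1 h3 h2 h4).symm
  k := D.k
  k2 := D.k2
  cp := D.cl
  cl := D.cp
  cP := D.cL
  cL := D.cP
  faithP := D.faithL
  faithL := D.faithP

variable (D : PA G P L)

include D in
theorem finP : Finite P := (Nat.card_pos_iff.1 (by rw [D.cP]; positivity)).2

include D in
theorem finL : Finite L := D.dual.finP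

theorem third (l : L) (p q : P) : ∃ r, D.I r l ∧ r ≠ p ∧ r ≠ q := by
  classical
  by_contra hc
  push Not at hc
  have := D.finP
  have h1 : Nat.card {p // D.I p l} ≤ Nat.card ({p, q} : Set P) := by
    refine Nat.card_le_card_of_injective (fun r => ⟨r.1, ?_⟩) ?_
    · by_cases h : r.1 = p
      · simp [h]
      · simp [hc r.1 r.2 h]
    · intro r s hrs
      simpa [Subtype.ext_iff] using hrs
  rw [D.cp] at h1
  have h2 : Nat.card ({p, q} : Set P) ≤ 2 := by
    rw [Nat.card_coe_set_eq]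
    exact (Set.ncard_insert_le p {q}).trans (by simp)
  have := D.k2
  omega

theorem third' (p : P) (l m : L) : ∃ r, D.I p r ∧ r ≠ l ∧ r ≠ m := D.dual.third p l m

/-- a point on neither of two lines -/
theorem off2 (l m : L) : ∃ r, ¬ D.I r l ∧ ¬ D.I r m := by
  by_cases hlm : l = m
  · subst hlm
    obtain ⟨p, hp, -, -⟩ := D.third l (Classical.choice (Nat.card_pos_iff.1 (by rw [D.cP]; positivity)).1)
      (Classical.choice (Nat.card_pos_iff.1 (by rw [D.cP]; positivity)).1)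
    obtain ⟨m, hm, hml, -⟩ := D.third' p l l
    obtain ⟨r, hr, hrp, -⟩ := D.third m p p
    have : ¬ D.I r l := fun h => by
      rcases D.uniq hr hm h hp with h1 | h1
      · exact hrp h1
      · exact hml h1
    exact ⟨r, this, this⟩
  · obtain ⟨x, hxl, hxm⟩ := D.meet l m hlm
    obtain ⟨p, hp, hpx, -⟩ := D.third l x x
    obtain ⟨q, hq, hqx, -⟩ := D.third m x x
    have hpm : ¬ D.I p m := fun h => (D.uniq hp hxl h hxm).elim hpx hlm
    have hql : ¬ D.I q l := fun h => (D.uniq h hxl hq hxm).elim hqx hlm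
    have hpq : p ≠ q := fun h => hpm (h ▸ hq)
    obtain ⟨n, hpn, hqn⟩ := D.join p q hpq
    obtain ⟨r, hr, hrp, hrq⟩ := D.third n p q
    refine ⟨r, fun h => ?_, fun h => ?_⟩
    · rcases D.uniq hr hpn h hp with h1 | h1
      · exact hrp h1
      · exact hql (h1 ▸ hqn)
    · rcases D.uniq hr hqn h hq with h1 | h1
      · exact hrq h1
      · exact hpm (h1 ▸ hpn)

theorem fixl {g : G} {p q : P} {l : L} (hpq : p ≠ q) (hp : D.I p l) (hq : D.I q l)
    (h1 : g • p = p) (h2 : g • q = q) : g • l = l := by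
  have h3 : D.I p (g • l) := by rw [← h1, D.inc]; exact hp
  have h4 : D.I q (g • l) := by rw [← h2, D.inc]; exact hq
  exact (D.uniq h3 h4 hp hq).resolve_left hpq

theorem fixp {g : G} {p : P} {l m : L} (hlm : l ≠ m) (hp : D.I p l) (hq : D.I p m)
    (h1 : g • l = l) (h2 : g • m = m) : g • p = p := D.dual.fixl hlm hp hq h1 h2

/-- `g` fixes all points of `a` -/
def Ax (g : G) (a : L) : Prop := ∀ p, D.I p a → g • p = p

/-- `g` fixes all lines through `c` -/
def Ce (g : G) (c : P) : Prop := ∀ l, D.I c l → g • l = l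

theorem dual_Ax {g : G} {c : P} : D.dual.Ax g c ↔ D.Ce g c := Iff.rfl

theorem dual_Ce {g : G} {a : L} : D.dual.Ce g a ↔ D.Ax g a := Iff.rfl

variable {D}

theorem Ax.line {g : G} {a : L} (h : D.Ax g a) : g • a = a := by
  obtain ⟨p, hp, -, -⟩ := D.third a (Classical.choice (Nat.card_pos_iff.1 (by rw [D.cP]; positivity)).1)
      (Classical.choice (Nat.card_pos_iff.1 (by rw [D.cP]; positivity)).1)
  obtain ⟨q, hq, hqp, -⟩ := D.third a p p
  exact D.fixl hqp hq hp (h q hq) (h p hp)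

theorem Ce.pt {g : G} {c : P} (h : D.Ce g c) : g • c = c := Ax.line (D := D.dual) h

theorem Ax.ce {g : G} {a : L} (h : D.Ax g a) {p : P} (hp : ¬ D.I p a) (hf : g • p = p) :
    D.Ce g p := by
  intro l hl
  have hla : l ≠ a := fun h => hp (h ▸ hl)
  obtain ⟨b, hb, hba⟩ := D.meet l a hla
  have : p ≠ b := fun h => hp (h ▸ hba)
  exact D.fixl this hl hb hf (h b hba)

theorem Ce.ax {g : G} {c : P} (h : D.Ce g c) {l : L} (hl : ¬ D.I c l) (hf : g • l = l) :
    D.Ax g l := Ax.ce (D := D.dual) h hl hf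

theorem ce_ce {g : G} {c d : P} (hcd : c ≠ d) (hc : D.Ce g c) (hd : D.Ce g d) : g = 1 := by
  obtain ⟨m, hcm, hdm⟩ := D.join c d hcd
  have key : ∀ r, ¬ D.I r m → g • r = r := by
    intro r hr
    have h1 : c ≠ r := fun h => hr (h ▸ hcm)
    have h2 : d ≠ r := fun h => hr (h ▸ hdm)
    obtain ⟨l1, hc1, hr1⟩ := D.join c r h1
    obtain ⟨l2, hd2, hr2⟩ := D.join d r h2
    have : l1 ≠ l2 := fun h => by
      subst h
      rcases D.uniq hc1 hd2 hcm hdm with h | h
      · exact hcd h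
      · exact hr (h ▸ hr1)
    exact D.fixp this hr1 hr2 (hc _ hc1) (hd _ hd2)
  refine D.faithP g fun r => ?_
  by_cases hr : D.I r m
  · obtain ⟨s, hs, -⟩ := D.off2 m m
    have hrs : r ≠ s := fun h => hs (h ▸ hr)
    obtain ⟨l, hrl, hsl⟩ := D.join r s hrs
    have hlm : l ≠ m := fun h => hs (h ▸ hsl)
    obtain ⟨t, ht, hts, htr⟩ := D.third l s r
    have htm : ¬ D.I t m := fun h => (D.uniq ht hrl h hr).elim htr hlm
    have hl : g • l = l := D.fixl hts ht hsl (key t htm) (key s hs)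
    exact D.fixp hlm hrl hr hl (hc m hcm)
  · exact key r hr

theorem ax_ax {g : G} {a b : L} (hab : a ≠ b) (ha : D.Ax g a) (hb : D.Ax g b) : g = 1 :=
  ce_ce (D := D.dual) hab ha hb

theorem Ax.exists_ce {g : G} {a : L} (h : D.Ax g a) : ∃ c, D.Ce g c := by
  by_cases hf : ∃ q, ¬ D.I q a ∧ g • q = q
  · obtain ⟨q, hq, hq2⟩ := hf
    exact ⟨q, h.ce hq hq2⟩
  · push Not at hf
    obtain ⟨q0, hq0, -⟩ := D.off2 a a
    have hmv : ∀ q, ¬ D.I q a → ¬ D.I (g • q) a := by
      intro q hq h1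
      rw [← h.line, D.inc] at h1
      exact hq h1
    have hln : ∀ q m, ¬ D.I q a → D.I q m → D.I (g • q) m → g • m = m := by
      intro q m hq h1 h2
      have hma : m ≠ a := fun h => hq (h ▸ h1)
      obtain ⟨b, hb, hba⟩ := D.meet m a hma
      have h3 : D.I b (g • m) := by rw [← h b hba, D.inc]; exact hb
      have h4 : D.I (g • q) (g • m) := by rw [D.inc]; exact h1
      have h5 : g • q ≠ b := fun h' => hmv q hq (h' ▸ hba)
      exact (D.uniq h4 h3 h2 hb).resolve_left h5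
    have h0 : q0 ≠ g • q0 := fun h' => hf q0 hq0 h'.symm
    obtain ⟨l0, hl0, hl0'⟩ := D.join _ _ h0
    have hl0a : l0 ≠ a := fun h => hq0 (h ▸ hl0)
    obtain ⟨c, hc, hca⟩ := D.meet l0 a hl0a
    refine ⟨c, fun l hl => ?_⟩
    by_cases hla : l = a
    · rw [hla]; exact h.line
    obtain ⟨q, hq, hqc, -⟩ := D.third l c c
    have hqa : ¬ D.I q a := fun h' => (D.uniq hq hl h' hca).elim hqc hla
    have hqq : q ≠ g • q := fun h' => hf q hqa h'.symm
    obtain ⟨m, hm, hm'⟩ := D.join _ _ hqq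
    have hmf := hln q m hqa hm hm'
    have hl0f := hln q0 l0 hq0 hl0 hl0'
    have hml : m = l := by
      by_cases hml0 : m = l0
      · subst hml0
        exact (D.uniq hm hc hq hl).resolve_left hqc
      · obtain ⟨x, hx, hx'⟩ := D.meet m l0 hml0
        have hxf := D.fixp hml0 hx hx' hmf hl0f
        have hxa : D.I x a := by
          by_contra hxa
          exact hf x hxa hxf
        have hxc : x = c := (D.uniq hx' hc hxa hca).resolve_right hl0a
        subst hxc
        exact (D.uniq hm hx hq hl).resolve_left hqc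
    rw [← hml]
    exact hmf

theorem Ce.exists_ax {g : G} {c : P} (h : D.Ce g c) : ∃ a, D.Ax g a :=
  Ax.exists_ce (D := D.dual) h

/-- fixed points of a perspectivity -/
theorem fix_pt {g : G} {c : P} {a : L} (hg : g ≠ 1) (hc : D.Ce g c) (ha : D.Ax g a) {p : P}
    (hp : g • p = p) : p = c ∨ D.I p a := by
  by_contra hcon
  push Not at hcon
  exact hg (ce_ce hcon.1 (ha.ce hcon.2 hp) hc)

theorem fix_ln {g : G} {c : P} {a : L} (hg : g ≠ 1) (hc : D.Ce g c) (ha : D.Ax g a) {l : L}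
    (hl : g • l = l) : l = a ∨ D.I c l := fix_pt (D := D.dual) hg ha hc hl

theorem ce_uniq {g : G} {c d : P} (hg : g ≠ 1) (hc : D.Ce g c) (hd : D.Ce g d) : c = d := by
  by_contra h
  exact hg (ce_ce h hc hd)

theorem ax_uniq {g : G} {a b : L} (hg : g ≠ 1) (ha : D.Ax g a) (hb : D.Ax g b) : a = b := by
  by_contra h
  exact hg (ax_ax h ha hb)

theorem Ax.mul {g h : G} {a : L} (hg : D.Ax g a) (hh : D.Ax h a) : D.Ax (g * h) a :=
  fun p hp => by rw [mul_smul, hh p hp, hg p hp]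

theorem Ax.inv {g : G} {a : L} (hg : D.Ax g a) : D.Ax g⁻¹ a :=
  fun p hp => by rw [inv_smul_eq_iff, hg p hp]

theorem Ce.mul {g h : G} {c : P} (hg : D.Ce g c) (hh : D.Ce h c) : D.Ce (g * h) c :=
  Ax.mul (D := D.dual) hg hh

theorem Ce.inv {g : G} {c : P} (hg : D.Ce g c) : D.Ce g⁻¹ c := Ax.inv (D := D.dual) hg

theorem Ax.conj {g : G} {a : L} (hg : D.Ax g a) (h : G) : D.Ax (h * g * h⁻¹) (h • a) := by
  intro p hp
  have h1 : D.I (h⁻¹ • p) a := by
    rw [← D.inc h, smul_inv_smul]; exact hp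
  rw [mul_smul, mul_smul, hg _ h1, smul_inv_smul]

theorem Ce.conj {g : G} {c : P} (hg : D.Ce g c) (h : G) : D.Ce (h * g * h⁻¹) (h • c) :=
  Ax.conj (D := D.dual) hg h

variable (D)

/-- perspectivities with axis `a` -/
def PG (a : L) : Subgroup G where
  carrier := {g | D.Ax g a}
  mul_mem' := fun h1 h2 => h1.mul h2
  one_mem' := fun p _ => one_smul _ _
  inv_mem' := fun h => h.inv

/-- perspectivities with axis `a` and centre `c` -/
def Pe (c : P) (a : L) : Subgroup G := D.PG a ⊓ D.dual.PG c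

variable {D}

theorem mem_Pe {c : P} {a : L} {g : G} : g ∈ D.Pe c a ↔ D.Ax g a ∧ D.Ce g c := Iff.rfl

theorem dual_Pe {c : P} {a : L} : D.dual.Pe a c = D.Pe c a := inf_comm _ _

/-- the elations with centre `c` (all axes through `c`) -/
def Ec (D : PA G P L) (c : P) : Subgroup G where
  carrier := {g | D.Ce g c ∧ (g = 1 ∨ ∃ b, D.Ax g b ∧ D.I c b)}
  one_mem' := ⟨fun l _ => one_smul _ _, Or.inl rfl⟩
  inv_mem' := fun {g} h => ⟨h.1.inv, h.2.elim (fun h => Or.inl (by rw [h, inv_one]))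
    (fun ⟨b, hb, hcb⟩ => Or.inr ⟨b, hb.inv, hcb⟩)⟩
  mul_mem' := fun {g h} hg hh => by
    obtain ⟨hg1, hg2⟩ := hg
    obtain ⟨hh1, hh2⟩ := hh
    refine ⟨hg1.mul hh1, ?_⟩
    rcases hg2 with rfl | ⟨b1, hb1, hcb1⟩
    · rw [one_mul]; exact hh2
    rcases hh2 with rfl | ⟨b2, hb2, hcb2⟩
    · rw [mul_one]; exact Or.inr ⟨b1, hb1, hcb1⟩
    by_cases h1 : h = 1
    · subst h1
      rw [mul_one]; exact Or.inr ⟨b1, hb1, hcb1⟩
    by_cases hgh : g * h = 1
    · exact Or.inl hgh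
    obtain ⟨a, ha⟩ := (hg1.mul hh1).exists_ax
    right
    refine ⟨a, ha, ?_⟩
    by_contra hca
    have hab1 : a ≠ b1 := fun h => hca (h ▸ hcb1)
    obtain ⟨p, hpa, hpb⟩ := D.meet a b1 hab1
    have hpc : p ≠ c := fun h => hca (h ▸ hpa)
    have h2 : h • p = p := by
      have e1 : g • h • p = p := by rw [← mul_smul]; exact ha p hpa
      have e2 : g • p = p := hb1 p hpb
      exact MulAction.injective g (e1.trans e2.symm)
    have h3 : D.I p b2 := (fix_pt h1 hh1 hb2 h2).resolve_left hpc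
    have h4 : b1 = b2 := (D.uniq hpb hcb1 h3 hcb2).resolve_left hpc
    subst h4
    exact hgh (ax_ax hab1 ha (hb1.mul hb2))

theorem mem_Ec {c : P} {g : G} :
    g ∈ D.Ec c ↔ D.Ce g c ∧ (g = 1 ∨ ∃ b, D.Ax g b ∧ D.I c b) := Iff.rfl

theorem Ec_ax {c : P} {g : G} (hg : g ∈ D.Ec c) {b : L} (hb : D.Ax g b) (h1 : g ≠ 1) :
    D.I c b := by
  rcases hg.2 with h | ⟨b', hb', hc⟩
  · exact absurd h h1
  · exact ax_uniq h1 hb' hb ▸ hc

theorem Pe_le_Ec {c : P} {b : L} (h : D.I c b) : D.Pe c b ≤ D.Ec c :=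
  fun g hg => ⟨hg.2, Or.inr ⟨b, hg.1, h⟩⟩

theorem Ec_free {c : P} {g : G} (hg : g ∈ D.Ec c) {l : L} (hl : ¬ D.I c l) (hf : g • l = l) :
    g = 1 := by
  by_contra h1
  exact hl (Ec_ax hg (Ce.ax hg.1 hl hf) h1)

theorem Ec_conj {c : P} {g : G} (hg : g ∈ D.Ec c) (h : G) : h * g * h⁻¹ ∈ D.Ec (h • c) := by
  refine ⟨hg.1.conj h, ?_⟩
  rcases hg.2 with h1 | ⟨b, hb, hc⟩
  · left; rw [h1]; simp
  · exact Or.inr ⟨h • b, hb.conj h, (D.inc _ _ _).2 hc⟩

theorem Pe_conj {c : P} {a : L} {g : G} (hg : g ∈ D.Pe c a) (h : G) :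
    h * g * h⁻¹ ∈ D.Pe (h • c) (h • a) := ⟨Ax.conj hg.1 h, Ce.conj (mem_Pe.1 hg).2 h⟩

end PA

end H50.OW
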