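import Cfsg.Agent.Lib.H50.OW1

set_option autoImplicit false
set_option linter.unusedVariables false
set_option linter.unusedSectionVars false
set_option maxHeartbeats 400000

/-! Ostrom-Wagner, theorem X, part 2: counting, involutory homologies. -/

namespace H50.OW

/-- free actions: divisibility -/
theorem free_dvd {H X : Type*} [Group H] [MulAction H X] [Finite X] (K : Subgroup H) (S : Set X)
    (hS : ∀ h ∈ K, ∀ x ∈ S, h • x ∈ S) (hf : ∀ h ∈ K, ∀ x ∈ S, h • x = x → h = 1) :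
    Nat.card K ∣ Nat.card S := by
  classical
  letI : MulAction K S :=
    { smul := fun h x => ⟨(h : H) • (x : X), hS h h.2 x x.2⟩
      one_smul := fun x => Subtype.ext (one_smul H (x : X))
      mul_smul := fun g h x => Subtype.ext (mul_smul (g : H) (h : H) (x : X)) }
  have hco : ∀ (h : K) (x : S), ((h • x : S) : X) = (h : H) • (x : X) := fun _ _ => rfl
  let Q := MulAction.orbitRel.Quotient K S
  have e : Q × K ≃ S := by
    refine Equiv.ofBijective (fun p => p.2 • p.1.out) ⟨?_, ?_⟩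
    · rintro ⟨q1, h1⟩ ⟨q2, h2⟩ h
      simp only at h
      have hq : q1 = q2 := by
        rw [← Quotient.out_eq q1, ← Quotient.out_eq q2]
        apply Quotient.sound
        change MulAction.orbitRel K S _ _
        rw [MulAction.orbitRel_apply]
        exact ⟨h1⁻¹ * h2, by simp only [mul_smul]; rw [← h, inv_smul_smul]⟩
      subst hq
      have h3 : (h2⁻¹ * h1) • q1.out = q1.out := by
        rw [mul_smul, h, inv_smul_smul]
      have h4 := hf _ (h2⁻¹ * h1).2 _ q1.out.2 (by rw [← hco, h3])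
      have h5 : h2⁻¹ * h1 = 1 := Subtype.ext h4
      rw [inv_mul_eq_one.1 h5]
    · intro x
      have : x ∈ MulAction.orbit K (Quotient.mk (MulAction.orbitRel K S) x).out := by
        have h := Quotient.out_eq (Quotient.mk (MulAction.orbitRel K S) x)
        have h2 := Quotient.exact h
        have h3 : MulAction.orbitRel K S (Quotient.mk (MulAction.orbitRel K S) x).out x := h2
        exact MulAction.mem_orbit_symm.1 (MulAction.orbitRel_apply.1 h3)
      obtain ⟨h, hh⟩ := this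
      exact ⟨(Quotient.mk (MulAction.orbitRel K S) x, h), hh⟩
  exact ⟨Nat.card Q, by rw [← Nat.card_congr e, Nat.card_prod, mul_comm]⟩

/-- a regular action -/
theorem reg_card {H X : Type*} [Group H] [MulAction H X] [Finite X] (K : Subgroup H) (S : Set X)
    (hS : ∀ h ∈ K, ∀ x ∈ S, h • x ∈ S) (hf : ∀ h ∈ K, ∀ x ∈ S, h • x = x → h = 1)
    (hne : S.Nonempty) (ht : ∀ x ∈ S, ∀ y ∈ S, ∃ h ∈ K, h • x = y) :
    Nat.card S = Nat.card K := by
  obtain ⟨x0, hx0⟩ := hne
  refine (Nat.card_congr (Equiv.ofBijective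
    (fun h : K => (⟨(h : H) • x0, hS h h.2 x0 hx0⟩ : S)) ⟨?_, ?_⟩)).symm
  · intro h1 h2 h
    have h' : (h1 : H) • x0 = (h2 : H) • x0 := congrArg Subtype.val h
    have h3 : ((h2 : H)⁻¹ * h1) • x0 = x0 := by rw [mul_smul, h', inv_smul_smul]
    have h4 := hf _ (K.mul_mem (K.inv_mem h2.2) h1.2) x0 hx0 h3
    exact Subtype.ext (inv_mul_eq_one.1 h4).symm
  · rintro ⟨y, hy⟩
    obtain ⟨h, hh, hxy⟩ := ht x0 hx0 y hy
    exact ⟨⟨h, hh⟩, Subtype.ext hxy⟩

/-- an involution normalizing a subgroup of even order centralizes an involution of it -/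
theorem exists_comm_inv {G : Type*} [Group G] [Finite G] (K : Subgroup G)
    (hK : Even (Nat.card K)) (γ : G) (hγ : γ * γ = 1) (hn : ∀ g ∈ K, γ * g * γ⁻¹ ∈ K) :
    ∃ β ∈ K, β * β = 1 ∧ β ≠ 1 ∧ γ * β * γ⁻¹ = β := by
  classical
  have := Fintype.ofFinite K
  let f : Function.End K := fun g => g⁻¹
  have hf : f ^ 2 ^ 1 = 1 := by
    funext g
    change f (f g) = g
    simp [f]
  have h1 := Equiv.Perm.card_fixedPoints_modEq hf
  let S := f.fixedPoints
  have hS : ∀ g : K, g ∈ f.fixedPoints ↔ (g : G) * g = 1 := by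
    intro g
    rw [Function.mem_fixedPoints]
    change g⁻¹ = g ↔ _
    constructor
    · intro h
      have h2 : g * g = 1 := by nth_rw 1 [← h]; exact inv_mul_cancel g
      exact congrArg Subtype.val h2
    · intro h
      have h2 : g * g = 1 := Subtype.ext h
      exact inv_eq_of_mul_eq_one_left h2
  have hcl : ∀ g : K, g ∈ f.fixedPoints → (⟨γ * g * γ⁻¹, hn g g.2⟩ : K) ∈ f.fixedPoints := by
    intro g hg
    rw [hS] at hg ⊢
    change γ * g * γ⁻¹ * (γ * g * γ⁻¹) = 1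
    calc γ * (g : G) * γ⁻¹ * (γ * g * γ⁻¹) = γ * ((g : G) * g) * γ⁻¹ := by group
      _ = 1 := by rw [hg]; group
  let F : Function.End f.fixedPoints := fun g => ⟨⟨γ * g.1 * γ⁻¹, hn g.1 g.1.2⟩, hcl g.1 g.2⟩
  have hγi : γ⁻¹ = γ := inv_eq_of_mul_eq_one_left hγ
  have hF : F ^ 2 ^ 1 = 1 := by
    funext g
    change F (F g) = g
    apply Subtype.ext
    apply Subtype.ext
    change γ * (γ * (g.1 : G) * γ⁻¹) * γ⁻¹ = (g.1 : G)
    calc γ * (γ * (g.1 : G) * γ⁻¹) * γ⁻¹ = (γ * γ) * g.1 * (γ * γ)⁻¹ := by group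
      _ = g.1 := by rw [hγ]; group
  have h2 := Equiv.Perm.card_fixedPoints_modEq hF
  have h3 : Fintype.card F.fixedPoints ≡ 0 [MOD 2] := by
    refine (h2.symm.trans h1.symm).trans ?_
    rw [← Nat.card_eq_fintype_card]
    exact (Nat.modEq_zero_iff_dvd.2 hK.two_dvd)
  have h1mem : (1 : K) ∈ f.fixedPoints := (hS 1).2 (by simp)
  have h1F : (⟨1, h1mem⟩ : f.fixedPoints) ∈ F.fixedPoints := by
    rw [Function.mem_fixedPoints]
    apply Subtype.ext
    apply Subtype.ext
    change γ * ((1 : K) : G) * γ⁻¹ = ((1 : K) : G)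
    simp
  have h4 : 1 < Fintype.card F.fixedPoints := by
    have hpos : 0 < Fintype.card F.fixedPoints := Fintype.card_pos_iff.2 ⟨⟨_, h1F⟩⟩
    have := Nat.modEq_zero_iff_dvd.1 h3
    omega
  obtain ⟨b, hb⟩ := Fintype.exists_ne_of_one_lt_card h4 ⟨_, h1F⟩
  refine ⟨b.1.1, b.1.1.2, (hS _).1 b.1.2, ?_, ?_⟩
  · intro h
    apply hb
    apply Subtype.ext
    apply Subtype.ext
    apply Subtype.ext
    exact h
  · have h5 : F b.1 = b.1 := b.2
    have h6 := congrArg (fun t => ((t.1 : K) : G)) h5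
    exact h6

namespace PA

variable {G P L : Type*} [Group G] [MulAction G P] [MulAction G L] {D : PA G P L}

theorem card_off (D : PA G P L) (a : L) : Nat.card {p // ¬ D.I p a} = D.k ^ 2 := by
  classical
  have := D.finP
  have := Fintype.ofFinite P
  have h1 := D.cp a
  have h2 := D.cP
  have h3 := Fintype.card_subtype_compl (fun p => D.I p a)
  rw [Nat.card_eq_fintype_card] at h1 h2
  rw [Nat.card_eq_fintype_card, h3, h1, h2]
  omega

theorem card_line_sub (D : PA G P L) {l : L} {c : P} (hc : D.I c l) :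
    Nat.card {p // D.I p l ∧ p ≠ c} = D.k := by
  classical
  have := D.finP
  have := Fintype.ofFinite P
  have h1 := D.cp l
  rw [Nat.card_eq_fintype_card, Fintype.card_subtype] at h1
  rw [Nat.card_eq_fintype_card, Fintype.card_subtype]
  have h2 : (Finset.univ.filter fun p => D.I p l ∧ p ≠ c)
      = (Finset.univ.filter fun p => D.I p l).erase c := by
    ext p
    simp [and_comm]
  rw [h2, Finset.card_erase_of_mem (by simp [hc]), h1]
  rfl

theorem Ec_dvd (D : PA G P L) (c : P) : Nat.card (D.Ec c) ∣ D.k ^ 2 := by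
  have := D.finL
  have h := free_dvd (D.Ec c) {l : L | ¬ D.I c l}
    (fun h hh l hl => by
      intro h2
      apply hl
      rw [← (hh.1.pt)] at h2
      exact (D.inc _ _ _).1 h2)
    (fun h hh l hl hf => Ec_free hh hl hf)
  rwa [show Nat.card {l : L | ¬ D.I c l} = D.k ^ 2 from D.dual.card_off c] at h

theorem Pe_dvd (D : PA G P L) {c : P} {b : L} (hcb : D.I c b) : Nat.card (D.Pe c b) ∣ D.k := by
  have := D.finP
  obtain ⟨l, hcl, hlb, -⟩ := D.third' c b b
  have h := free_dvd (D.Pe c b) {p : P | D.I p l ∧ p ≠ c}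
    (fun h hh p hp => by
      have h1 : h • l = l := (mem_Pe.1 hh).2 l hcl
      have h2 : h • c = c := (mem_Pe.1 hh).2.pt
      refine ⟨?_, ?_⟩
      · rw [← h1, D.inc]; exact hp.1
      · intro h3
        rw [← h2] at h3
        exact hp.2 (MulAction.injective h h3))
    (fun h hh p hp hf => by
      by_contra h1
      rcases fix_pt h1 (mem_Pe.1 hh).2 hh.1 hf with h2 | h2
      · exact hp.2 h2
      · exact (D.uniq hp.1 hcl h2 hcb).elim hp.2 hlb)
  rwa [show Nat.card {p : P | D.I p l ∧ p ≠ c} = D.k from D.card_line_sub hcl] at h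

variable (D)

/-- involutory homology data -/
def Hom (τ : G) (c : P) (a : L) : Prop :=
  τ * τ = 1 ∧ τ ≠ 1 ∧ D.Ce τ c ∧ D.Ax τ a ∧ ¬ D.I c a

/-- there is an involutory homology with centre `c` and axis `a` -/
def HH (c : P) (a : L) : Prop := ∃ τ, D.Hom τ c a

/-- hypothesis (H1) -/
def H1 : Prop := ∀ τ : G, τ * τ = 1 → τ ≠ 1 → ∃ a, D.Ax τ a

variable {D}

theorem dual_Hom {τ : G} {c : P} {a : L} : D.dual.Hom τ a c ↔ D.Hom τ c a := by
  unfold Hom
  constructor <;> exact fun ⟨h1, h2, h3, h4, h5⟩ => ⟨h1, h2, h4, h3, h5⟩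

theorem dual_HH {c : P} {a : L} : D.dual.HH a c ↔ D.HH c a := by
  unfold HH
  simp [dual_Hom]

theorem dual_H1 (h : D.H1) : D.dual.H1 := by
  intro τ h1 h2
  obtain ⟨a, ha⟩ := h τ h1 h2
  exact ha.exists_ce

theorem H1.hom [Finite G] (h : D.H1) (hodd : Odd D.k) {τ : G} (h1 : τ * τ = 1) (h2 : τ ≠ 1) :
    ∃ c a, D.Hom τ c a := by
  obtain ⟨a, ha⟩ := h τ h1 h2
  obtain ⟨c, hc⟩ := ha.exists_ce
  refine ⟨c, a, h1, h2, hc, ha, fun hca => ?_⟩
  have hm : τ ∈ D.Pe c a := ⟨ha, hc⟩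
  have h3 : orderOf (⟨τ, hm⟩ : D.Pe c a) = 2 := by
    refine orderOf_eq_prime ?_ ?_
    · apply Subtype.ext
      rw [sq]
      exact h1
    · intro h
      exact h2 (congrArg Subtype.val h)
  have h4 : 2 ∣ D.k := by
    rw [← h3]
    exact (orderOf_dvd_natCard _).trans (D.Pe_dvd hca)
  exact (Nat.not_even_iff_odd.2 hodd) (even_iff_two_dvd.2 h4)

/-- (F1): the elations with centre `c` are transitive on the axes of the involutory homologies
with centre `c` -/
theorem Ec_trans [Finite G] (hodd : Odd D.k) {c : P} {a a' : L} (h : D.HH c a)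
    (h' : D.HH c a') : ∃ ε ∈ D.Ec c, ε • a = a' := by
  by_cases haa : a = a'
  · exact ⟨1, one_mem _, by rw [one_smul, haa]⟩
  obtain ⟨τ, t1, t2, t3, t4, t5⟩ := h
  obtain ⟨τ', s1, s2, s3, s4, s5⟩ := h'
  have ti : τ⁻¹ = τ := inv_eq_of_mul_eq_one_left t1
  have si : τ'⁻¹ = τ' := inv_eq_of_mul_eq_one_left s1
  have hne : τ ≠ τ' := by
    rintro rfl
    exact haa (ax_uniq t2 t4 s4)
  have hδ1 : τ' * τ ≠ 1 := by
    intro h
    apply hne
    rw [← ti]
    exact (eq_inv_of_mul_eq_one_left h).symm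
  have hδc : D.Ce (τ' * τ) c := s3.mul t3
  obtain ⟨a'', ha''⟩ := hδc.exists_ax
  have hconj : τ * (τ' * τ) * τ⁻¹ = (τ' * τ)⁻¹ := by
    rw [mul_inv_rev, ti, si]
    calc τ * (τ' * τ) * τ = τ * τ' * (τ * τ) := by group
      _ = τ * τ' := by rw [t1, mul_one]
  have hconj' : τ' * (τ' * τ) * τ'⁻¹ = (τ' * τ)⁻¹ := by
    rw [mul_inv_rev, ti, si]
    calc τ' * (τ' * τ) * τ' = (τ' * τ') * τ * τ' := by group
      _ = τ * τ' := by rw [s1, one_mul]
  have hI : D.I c a'' := by
    by_contra hI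
    have e1 : τ • a'' = a'' := by
      have h1 := ha''.conj τ
      rw [hconj] at h1
      exact (ax_uniq (inv_ne_one.2 hδ1) h1 ha''.inv)
    have e2 : τ' • a'' = a'' := by
      have h1 := ha''.conj τ'
      rw [hconj'] at h1
      exact (ax_uniq (inv_ne_one.2 hδ1) h1 ha''.inv)
    have e3 := (fix_ln t2 t3 t4 e1).resolve_right hI
    have e4 := (fix_ln s2 s3 s4 e2).resolve_right hI
    exact haa (e3.symm.trans e4)
  have hδ : τ' * τ ∈ D.Ec c := ⟨hδc, Or.inr ⟨a'', ha'', hI⟩⟩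
  have hN : Odd (Nat.card (D.Ec c)) := Odd.of_dvd_nat (hodd.pow) (D.Ec_dvd c)
  obtain ⟨j, hj⟩ := hN
  have hpow : (τ' * τ) ^ (2 * j + 1) = 1 := by
    have h1 : (⟨τ' * τ, hδ⟩ : D.Ec c) ^ Nat.card (D.Ec c) = 1 := pow_card_eq_one'
    rw [hj] at h1
    simpa using congrArg Subtype.val h1
  set δ := τ' * τ with hδdef
  refine ⟨δ ^ (j + 1), pow_mem hδ _, ?_⟩
  have hsq : δ ^ (j + 1) * δ ^ (j + 1) = δ := by
    rw [← pow_add, show j + 1 + (j + 1) = (2 * j + 1) + 1 by ring, pow_succ, hpow, one_mul]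
  have hc1 : τ * δ ^ (j + 1) * τ⁻¹ = (δ ^ (j + 1))⁻¹ := by
    rw [← conj_pow, hconj, inv_pow]
  have hc2 : τ * (δ ^ (j + 1))⁻¹ * τ⁻¹ = δ ^ (j + 1) := by
    calc τ * (δ ^ (j + 1))⁻¹ * τ⁻¹ = (τ * δ ^ (j + 1) * τ⁻¹)⁻¹ := by
          simp only [mul_inv_rev, inv_inv, mul_assoc]
      _ = δ ^ (j + 1) := by rw [hc1, inv_inv]
  have hfin : δ ^ (j + 1) * τ * (δ ^ (j + 1))⁻¹ = τ' := by
    calc δ ^ (j + 1) * τ * (δ ^ (j + 1))⁻¹
        = δ ^ (j + 1) * (τ * (δ ^ (j + 1))⁻¹ * τ⁻¹) * τ := by group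
      _ = δ * τ := by rw [hc2, hsq]
      _ = τ' := by rw [hδdef, mul_assoc, t1, mul_one]
  have h1 := t4.conj (δ ^ (j + 1))
  rw [hfin] at h1
  exact ax_uniq s2 h1 s4

/-- (L4) -/
theorem tri [Finite G] (hH1 : D.H1) (hodd : Odd D.k) {β γ : G} {d c x : P} {m l : L}
    (hβ : D.Hom β d m) (hγ : D.Hom γ c l) (hcm : D.I c m) (hdl : D.I d l)
    (hcomm : γ * β * γ⁻¹ = β) (hxm : D.I x m) (hxl : D.I x l) :
    ∃ a, D.HH x a ∧ D.I c a ∧ D.I d a := by
  obtain ⟨b1, b2, b3, b4, b5⟩ := hβ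
  obtain ⟨g1, g2, g3, g4, g5⟩ := hγ
  have hgi : γ⁻¹ = γ := inv_eq_of_mul_eq_one_left g1
  have hcm' : γ * β = β * γ := by
    have := congrArg (· * γ) hcomm
    simpa using this
  have hlm : l ≠ m := fun h => b5 (h ▸ hdl)
  have hsq : (β * γ) * (β * γ) = 1 := by
    calc (β * γ) * (β * γ) = β * (γ * β) * γ := by group
      _ = (β * β) * (γ * γ) := by rw [hcm']; group
      _ = 1 := by rw [b1, g1, one_mul]
  have hne : β * γ ≠ 1 := by
    intro h
    have h1 : β = γ := by rw [eq_inv_of_mul_eq_one_left h, hgi]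
    subst h1
    exact hlm (ax_uniq b2 g4 b4)
  obtain ⟨e, g, hom⟩ := hH1.hom hodd hsq hne
  have hdc : d ≠ c := fun h => b5 (h ▸ hcm)
  have hxc : x ≠ c := fun h => g5 (h ▸ hxl)
  have hxd : x ≠ d := fun h => b5 (h ▸ hxm)
  have fc : (β * γ) • c = c := by rw [mul_smul, g3.pt, b4 c hcm]
  have fd : (β * γ) • d = d := by rw [mul_smul, g4 d hdl, b3.pt]
  have fx : (β * γ) • x = x := by rw [mul_smul, g4 x hxl, b4 x hxm]
  have hom' := hom
  obtain ⟨o1, o2, o3, o4, o5⟩ := hom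
  have hc := fix_pt o2 o3 o4 fc
  have hd := fix_pt o2 o3 o4 fd
  have hx := fix_pt o2 o3 o4 fx
  -- c = e impossible
  have nc : c ≠ e := by
    rintro rfl
    have hd' := hd.resolve_left hdc
    have hx' := hx.resolve_left hxc
    have hgl : g = l := (D.uniq hd' hx' hdl hxl).resolve_left (fun h => hxd h.symm)
    subst hgl
    have : D.Ax β g := fun p hp => by
      have h1 := o4 p hp
      rw [mul_smul, g4 p hp] at h1
      exact h1
    exact hlm (ax_uniq b2 this b4)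
  have nd : d ≠ e := by
    rintro rfl
    have hc' := hc.resolve_left hdc.symm
    have hx' := hx.resolve_left hxd
    have hgm : g = m := (D.uniq hc' hx' hcm hxm).resolve_left (fun h => hxc h.symm)
    subst hgm
    have : D.Ax γ g := fun p hp => by
      have h1 := o4 p hp
      rw [← hcm', mul_smul, b4 p hp] at h1
      exact h1
    exact hlm (ax_uniq g2 g4 this)
  have hc' := hc.resolve_left nc
  have hd' := hd.resolve_left nd
  have hxe : x = e := by
    rcases hx with h | h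
    · exact h
    · exfalso
      have hgm : g = m := (D.uniq hc' h hcm hxm).resolve_left (fun h => hxc h.symm)
      exact b5 (hgm ▸ hd')
  subst hxe
  exact ⟨g, ⟨_, hom'⟩, hc', hd'⟩

end PA

end H50.OW
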