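import Cfsg.Agent.Lib.H50.OW2

set_option autoImplicit false
set_option linter.unusedVariables false
set_option linter.unusedSectionVars false
set_option maxHeartbeats 400000

/-! Ostrom-Wagner, theorem X, part 3: every line is an axis. -/

namespace H50.OW

theorem orb_dvd {H X : Type*} [Group H] [Finite H] [MulAction H X] [Finite X] (s : ℕ)
    (hs : ∀ x : X, Nat.card (MulAction.stabilizer H x) = s) (x0 : X) :
    Nat.card (MulAction.orbit H x0) ∣ Nat.card X := by
  classical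
  have hst : ∀ x : X, Nat.card (MulAction.orbit H x) * s = Nat.card H := by
    intro x
    rw [← hs x, Nat.card_congr (MulAction.orbitEquivQuotientStabilizer H x)]
    exact (Subgroup.card_eq_card_quotient_mul_card_subgroup (MulAction.stabilizer H x)).symm
  have hs0 : 0 < s := by
    rw [← hs x0]
    exact Nat.card_pos
  have heq : ∀ x : X, Nat.card (MulAction.orbit H x) = Nat.card (MulAction.orbit H x0) :=
    fun x => Nat.eq_of_mul_eq_mul_right hs0 ((hst x).trans (hst x0).symm)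
  have := Fintype.ofFinite (MulAction.orbitRel.Quotient H X)
  rw [Nat.card_congr (MulAction.selfEquivSigmaOrbits H X), Nat.card_sigma]
  refine Finset.dvd_sum fun ω _ => ?_
  exact dvd_of_eq (heq _).symm

theorem third_of_dvd {d k : ℕ} (hk : Odd k) (h : d ∣ k) (hne : d ≠ k) : 3 * d ≤ k := by
  obtain ⟨e, rfl⟩ := h
  have he : Odd e := (Nat.odd_mul.1 hk).2
  have he1 : e ≠ 1 := by
    rintro rfl
    exact hne (by ring)
  obtain ⟨f, rfl⟩ := he
  have : 1 ≤ f := by omega
  nlinarith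

namespace PA

variable {G P L : Type*} [Group G] [MulAction G P] [MulAction G L] {D : PA G P L}

theorem Hom.even [Finite G] {τ : G} (K : Subgroup G) (hτ : τ * τ = 1) (h1 : τ ≠ 1)
    (hK : τ ∈ K) : Even (Nat.card K) := by
  have h3 : orderOf (⟨τ, hK⟩ : K) = 2 := by
    refine orderOf_eq_prime ?_ ?_
    · apply Subtype.ext
      rw [sq]
      exact hτ
    · intro h
      exact h1 (congrArg Subtype.val h)
  rw [even_iff_two_dvd, ← h3]
  exact orderOf_dvd_natCard _

theorem claim1 [Finite G] (hH1 : D.H1) (hodd : Odd D.k) {c d x : P} {a b : L}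
    (h1 : D.HH c a) (h2 : D.HH d b) (hcb : D.I c b) (hda : D.I d a) (hxa : D.I x a)
    (hxb : D.I x b) : ∃ l, D.HH x l ∧ D.I c l ∧ D.I d l := by
  obtain ⟨α, hα⟩ := h1
  obtain ⟨τ, hτ⟩ := h2
  have hα' := hα
  obtain ⟨a1, a2, a3, a4, a5⟩ := hα'
  have hdb : ¬ D.I d b := hτ.2.2.2.2
  have hK : Even (Nat.card (D.Pe d b)) :=
    Hom.even _ hτ.1 hτ.2.1 ⟨hτ.2.2.2.1, hτ.2.2.1⟩
  obtain ⟨β, hβ, b1, b2, b3⟩ := exists_comm_inv (D.Pe d b) hK α a1 (fun g hg => by
    have := Pe_conj hg α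
    rwa [a4 d hda, a3 b hcb] at this)
  exact tri hH1 hodd ⟨b1, b2, (mem_Pe.1 hβ).2, hβ.1, hdb⟩ hα hcb hda b3 hxb hxa

/-- (L3) for a line which is an axis -/
theorem comm_axis [Finite G] (hH1 : D.H1) (hodd : Odd D.k) {γ : G} {c : P} {l m : L}
    (hγ : D.Hom γ c l) (hcm : D.I c m) (hm : ∃ c', D.HH c' m) :
    ∃ β d, D.Hom β d m ∧ γ * β * γ⁻¹ = β ∧ D.I d l := by
  obtain ⟨c', τ, hτ⟩ := hm
  have hγ' := hγ
  obtain ⟨g1, g2, g3, g4, g5⟩ := hγ'
  have hK : Even (Nat.card (D.PG m)) := Hom.even _ hτ.1 hτ.2.1 hτ.2.2.2.1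
  obtain ⟨β, hβ, b1, b2, b3⟩ := exists_comm_inv (D.PG m) hK γ g1 (fun g hg => by
    have := Ax.conj hg γ
    rw [g3 m hcm] at this
    exact this)
  obtain ⟨d, m', hom⟩ := hH1.hom hodd b1 b2
  have hmm : m' = m := ax_uniq b2 hom.2.2.2.1 hβ
  subst hmm
  have hd : γ • d = d := by
    have h1 := hom.2.2.1.conj γ
    rw [b3] at h1
    exact ce_uniq b2 h1 hom.2.2.1
  refine ⟨β, d, hom, b3, ?_⟩
  rcases fix_pt g2 g3 g4 hd with h | h
  · exact absurd (h ▸ hcm) hom.2.2.2.2
  · exact h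

theorem f4 [Finite G] (hH1 : D.H1) (hodd : Odd D.k) (hax : ∀ l, ∃ c, D.HH c l) {c : P} {l : L}
    (h : D.HH c l) {x : P} (hx : D.I x l) :
    ∃ d m a, D.I d l ∧ D.I x m ∧ D.I c m ∧ D.HH d m ∧ D.HH x a ∧ D.I c a ∧ D.I d a := by
  obtain ⟨γ, hγ⟩ := h
  have hxc : x ≠ c := fun h => hγ.2.2.2.2 (h ▸ hx)
  obtain ⟨m, hxm, hcm⟩ := D.join x c hxc
  obtain ⟨β, d, hβ, hcomm, hdl⟩ := comm_axis hH1 hodd hγ hcm (hax m)
  obtain ⟨a, ha, hca, hda⟩ := tri hH1 hodd hβ hγ hcm hdl hcomm hxm hx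
  exact ⟨d, m, a, hdl, hxm, hcm, ⟨β, hβ⟩, ha, hca, hda⟩

/-- neighbours on a line -/
theorem nb_dvd [Finite G] (hodd : Odd D.k) {x : P} {l : L} (hx : D.I x l) {y0 : P}
    (hy0 : D.I y0 l) {a0 : L} (ha0 : D.HH x a0) (hya : D.I y0 a0) :
    Nat.card {y : P // D.I y l ∧ ∃ a, D.HH x a ∧ D.I y a} ∣ D.k := by
  classical
  have := D.finP
  let S := {y : P // D.I y l ∧ y ≠ x}
  have hcl : ∀ h ∈ D.Ec x, ∀ y : P, (D.I y l ∧ y ≠ x) → (D.I (h • y) l ∧ h • y ≠ x) := by
    intro h hh y hy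
    have h1 : h • l = l := hh.1 l hx
    have h2 : h • x = x := hh.1.pt
    refine ⟨?_, ?_⟩
    · rw [← h1, D.inc]; exact hy.1
    · intro h3
      rw [← h2] at h3
      exact hy.2 (MulAction.injective h h3)
  letI : MulAction (D.Ec x) S :=
    { smul := fun h y => ⟨(h : G) • (y : P), hcl h h.2 y y.2⟩
      one_smul := fun y => Subtype.ext (one_smul G (y : P))
      mul_smul := fun g h y => Subtype.ext (mul_smul (g : G) (h : G) (y : P)) }
  have hco : ∀ (h : D.Ec x) (y : S), ((h • y : S) : P) = (h : G) • (y : P) := fun _ _ => rfl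
  have hy0x : y0 ≠ x := by
    rintro rfl
    obtain ⟨τ, hτ⟩ := ha0
    exact hτ.2.2.2.2 hya
  have hxy0 : ∀ {y : P}, (∃ a, D.HH x a ∧ D.I y a) → y ≠ x := by
    rintro y ⟨a, ⟨τ, hτ⟩, hy⟩ rfl
    exact hτ.2.2.2.2 hy
  have hstab : ∀ y : S, Nat.card (MulAction.stabilizer (D.Ec x) y)
      = Nat.card ((D.Pe x l).subgroupOf (D.Ec x)) := by
    intro y
    congr 2
    have : MulAction.stabilizer (D.Ec x) y = (D.Pe x l).subgroupOf (D.Ec x) := by
      ext g
      rw [MulAction.mem_stabilizer_iff, Subgroup.mem_subgroupOf]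
      constructor
      · intro hg
        have h1 : (g : G) • (y : P) = y := congrArg Subtype.val hg
        by_cases hg1 : (g : G) = 1
        · rw [hg1]; exact one_mem _
        obtain ⟨b, hb⟩ := g.2.1.exists_ax
        have h2 := (fix_pt hg1 g.2.1 hb h1).resolve_left y.2.2
        have h3 := Ec_ax g.2 hb hg1
        have h4 : b = l := (D.uniq h2 h3 y.2.1 hx).resolve_left y.2.2
        exact ⟨h4 ▸ hb, g.2.1⟩
      · intro hg
        apply Subtype.ext
        rw [hco]
        exact hg.1 y y.2.1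
    rw [this]
  have h1 := orb_dvd (H := D.Ec x) (X := S) _ hstab ⟨y0, hy0, hy0x⟩
  rw [show Nat.card S = D.k from D.card_line_sub hx] at h1
  convert h1 using 1
  refine Nat.card_congr ?_
  refine Equiv.ofBijective (fun y => (⟨⟨y.1, y.2.1, hxy0 y.2.2⟩, ?_⟩ :
    MulAction.orbit (D.Ec x) (⟨y0, hy0, hy0x⟩ : S))) ⟨?_, ?_⟩
  · obtain ⟨y, hyl, a, ha, hya'⟩ := y
    obtain ⟨ε, hε, hεa⟩ := Ec_trans hodd ha0 ha
    refine ⟨⟨ε, hε⟩, ?_⟩
    apply Subtype.ext
    rw [hco]
    change ε • y0 = y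
    have e1 : D.I (ε • y0) l := (hcl ε hε y0 ⟨hy0, hy0x⟩).1
    have e2 : D.I (ε • y0) a := by rw [← hεa, D.inc]; exact hya
    have hla : l ≠ a := by
      rintro rfl
      obtain ⟨τ, hτ⟩ := ha
      exact hτ.2.2.2.2 hx
    exact (D.uniq e1 hyl e2 hya').resolve_right hla
  · intro y y' h
    have := congrArg (fun t => ((t.1 : S) : P)) h
    exact Subtype.ext this
  · rintro ⟨⟨y, hyl, hyx⟩, ⟨ε, hε⟩⟩
    have h2 : (ε : G) • y0 = y := congrArg Subtype.val hε
    refine ⟨⟨y, hyl, (ε : G) • a0, ?_, ?_⟩, rfl⟩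
    · obtain ⟨τ, t1, t2, t3, t4, t5⟩ := ha0
      refine ⟨ε * τ * (ε : G)⁻¹, ?_, ?_, ?_, t4.conj _, ?_⟩
      · calc (ε : G) * τ * (ε : G)⁻¹ * (ε * τ * (ε : G)⁻¹) = ε * (τ * τ) * (ε : G)⁻¹ := by group
          _ = 1 := by rw [t1]; group
      · intro h
        apply t2
        have : τ = (ε : G)⁻¹ * (ε * τ * (ε : G)⁻¹) * ε := by group
        rw [this, h]
        group
      · have := t3.conj (ε : G)
        rwa [ε.2.1.pt] at this
      · intro h
        have h' : D.I ((ε : G) • x) ((ε : G) • a0) := by rw [ε.2.1.pt]; exact h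
        exact t5 ((D.inc _ _ _).1 h')
    · rw [← h2, D.inc]; exact hya

theorem all_axes [Finite G] (hH1 : D.H1) (hodd : Odd D.k) (hk : D.k ≠ 3)
    (hH2 : ∀ x y : P, x ≠ y → ∃ τ : G, τ * τ = 1 ∧ τ ≠ 1 ∧ τ • x = x ∧ τ • y = y) :
    ∀ l, ∃ c, D.HH c l := by
  classical
  intro l
  by_contra hno
  push Not at hno
  have := D.finP
  have := Fintype.ofFinite P
  let T := {p // D.I p l}
  let R : T → T → Prop := fun x y => ∃ a, D.HH x.1 a ∧ D.I y.1 a
  have hRne : ∀ x y : T, R x y → x ≠ y := by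
    rintro x y ⟨a, ⟨τ, hτ⟩, hy⟩ rfl
    exact hτ.2.2.2.2 hy
  have htot : ∀ x y : T, x ≠ y → (R x y ∨ R y x) := by
    intro x y hxy
    have hxy' : x.1 ≠ y.1 := fun h => hxy (Subtype.ext h)
    obtain ⟨τ, t1, t2, t3, t4⟩ := hH2 x.1 y.1 hxy'
    obtain ⟨c, a, hom⟩ := hH1.hom hodd t1 t2
    have hx := fix_pt t2 hom.2.2.1 hom.2.2.2.1 t3
    have hy := fix_pt t2 hom.2.2.1 hom.2.2.2.1 t4
    have hal : a ≠ l := fun h => hno c (h ▸ ⟨τ, hom⟩)
    rcases hx with hx | hx
    · rcases hy with hy | hy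
      · exact absurd (hx.trans hy.symm) hxy'
      · left; exact ⟨a, hx ▸ ⟨τ, hom⟩, hy⟩
    · rcases hy with hy | hy
      · right; exact ⟨a, hy ▸ ⟨τ, hom⟩, hx⟩
      · exact absurd (D.uniq hx hy x.2 y.2) (by tauto)
  have hasym : ∀ x y : T, R x y → ¬ R y x := by
    rintro x y ⟨a, ha, hya⟩ ⟨b, hb, hxb⟩
    have hab : a ≠ b := by
      rintro rfl
      obtain ⟨τ, hτ⟩ := ha
      exact hτ.2.2.2.2 hxb
    obtain ⟨w, hwa, hwb⟩ := D.meet a b hab
    obtain ⟨m, hm, hxm, hym⟩ := claim1 hH1 hodd ha hb hxb hya hwa hwb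
    have hxy' : x.1 ≠ y.1 := by
      rintro h
      obtain ⟨τ, hτ⟩ := ha
      exact hτ.2.2.2.2 (h ▸ hya)
    have : m = l := (D.uniq hxm hym x.2 y.2).resolve_left hxy'
    exact hno w (this ▸ hm)
  let N : T → Finset T := fun x => Finset.univ.filter fun y => R x y
  have hcT : Fintype.card T = D.k + 1 := by
    rw [← Nat.card_eq_fintype_card]; exact D.cp l
  -- sum
  have hsum : 2 * ∑ x, (N x).card = (D.k + 1) * D.k := by
    have e1 : ∑ x, (N x).card = ∑ x, ∑ y, (if R x y then 1 else 0) := by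
      refine Finset.sum_congr rfl fun x _ => ?_
      simp only [N]
      rw [Finset.card_filter]
    have e2 : ∑ x, ∑ y, (if R x y then 1 else 0) = ∑ x, ∑ y, (if R y x then 1 else 0) :=
      Finset.sum_comm
    have e3 : ∑ x : T, ∑ y : T, ((if R x y then 1 else 0) + (if R y x then 1 else 0))
        = (D.k + 1) * D.k := by
      have e4 : ∀ x : T, ∑ y : T, ((if R x y then 1 else 0) + (if R y x then 1 else 0)) = D.k := by
        intro x
        have e5 : ∀ y : T, ((if R x y then 1 else 0) + (if R y x then 1 else 0) : ℕ)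
            = if y ≠ x then 1 else 0 := by
          intro y
          by_cases hxy : y = x
          · subst hxy
            have : ¬ R y y := fun h => hRne y y h rfl
            simp [this]
          · rcases htot x y (fun h => hxy h.symm) with h | h
            · simp [h, hasym x y h, hxy]
            · simp [h, hasym y x h, hxy]
        rw [Finset.sum_congr rfl fun y _ => e5 y, ← Finset.card_filter,
          Finset.filter_ne', Finset.card_erase_of_mem (Finset.mem_univ _), Finset.card_univ, hcT]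
        rfl
      rw [Finset.sum_congr rfl fun x _ => e4 x, Finset.sum_const, Finset.card_univ, hcT,
        smul_eq_mul]
    rw [← e3]
    simp only [Finset.sum_add_distrib]
    rw [← e2, ← e1]
    ring
  -- divisibility
  have hdv : ∀ x : T, (N x).card = 0 ∨ (N x).card ∣ D.k := by
    intro x
    by_cases h0 : (N x).card = 0
    · exact Or.inl h0
    right
    obtain ⟨y, hy⟩ := Finset.card_pos.1 (Nat.pos_of_ne_zero h0)
    obtain ⟨-, a, ha, hya⟩ := Finset.mem_filter.1 hy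
    have h1 := nb_dvd hodd x.2 y.2 ha hya
    have h2 : (N x).card = Nat.card {y : P // D.I y l ∧ ∃ a, D.HH x.1 a ∧ D.I y a} := by
      have e : {y : P // D.I y l ∧ ∃ a, D.HH x.1 a ∧ D.I y a} ≃ {y : T // R x y} :=
        { toFun := fun y => ⟨⟨y.1, y.2.1⟩, y.2.2⟩
          invFun := fun y => ⟨y.1.1, y.1.2, y.2⟩
          left_inv := fun y => rfl
          right_inv := fun y => rfl }
      rw [Nat.card_congr e, Nat.card_eq_fintype_card, Fintype.card_subtype]
    rw [h2]
    exact h1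
  have hfull : ∀ x : T, (N x).card = D.k → ∀ y, y ≠ x → R x y := by
    intro x hx y hyx
    have hsub : N x ⊆ Finset.univ.erase x := by
      intro z hz
      rw [Finset.mem_erase]
      exact ⟨fun h => hRne x z (Finset.mem_filter.1 hz).2 h.symm, Finset.mem_univ _⟩
    have hc : (Finset.univ.erase x).card ≤ (N x).card := by
      rw [Finset.card_erase_of_mem (Finset.mem_univ _), Finset.card_univ, hcT, hx]
      omega
    have := Finset.eq_of_subset_of_card_le hsub hc
    have hy : y ∈ N x := by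
      rw [this, Finset.mem_erase]
      exact ⟨hyx, Finset.mem_univ _⟩
    exact (Finset.mem_filter.1 hy).2
  have hbig : ∃ x0 : T, ∀ x, x ≠ x0 → 3 * (N x).card ≤ D.k := by
    by_cases h : ∃ x0 : T, (N x0).card = D.k
    · obtain ⟨x0, hx0⟩ := h
      refine ⟨x0, fun x hx => ?_⟩
      rcases hdv x with h1 | h1
      · rw [h1]; omega
      refine third_of_dvd hodd h1 fun h2 => ?_
      exact hasym x x0 (hfull x h2 x0 hx.symm) (hfull x0 hx0 x hx)
    · push Not at h
      have hne : Nonempty T := Fintype.card_pos_iff.1 (by rw [hcT]; omega)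
      refine ⟨Classical.choice hne, fun x _ => ?_⟩
      rcases hdv x with h1 | h1
      · rw [h1]; omega
      exact third_of_dvd hodd h1 (h x)
  obtain ⟨x0, hx0⟩ := hbig
  have hx0' : (N x0).card ≤ D.k := by
    rcases hdv x0 with h1 | h1
    · rw [h1]; omega
    · exact Nat.le_of_dvd (by have := D.k2; omega) h1
  have hs : 3 * ∑ x, (N x).card ≤ 3 * D.k + D.k * D.k := by
    rw [← Finset.add_sum_erase _ _ (Finset.mem_univ x0), mul_add, Finset.mul_sum]
    refine add_le_add (by omega) ?_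
    refine (Finset.sum_le_sum (fun x hx => hx0 x (Finset.ne_of_mem_erase hx))).trans ?_
    rw [Finset.sum_const, Finset.card_erase_of_mem (Finset.mem_univ _), Finset.card_univ, hcT,
      smul_eq_mul]
    simp
  have hk2 := D.k2
  have hk3 : D.k ≤ 3 := by nlinarith
  have : D.k = 2 := by omega
  rw [this] at hodd
  exact (by decide : ¬ Odd 2) hodd

end PA

end H50.OW
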