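import Cfsg.Agent.Lib.H50.OW3

set_option autoImplicit false
set_option linter.unusedVariables false
set_option linter.unusedSectionVars false
set_option maxHeartbeats 400000

/-! Ostrom-Wagner, theorem X, part 4: the case `E*(x) ≠ 1`, `E(x, l) = 1`. -/

namespace H50.OW

theorem free_dvd' {K S : Type*} [Group K] [MulAction K S] [Finite S]
    (hf : ∀ (k : K) (s : S), k • s = s → k = 1) : Nat.card K ∣ Nat.card S := by
  have h := free_dvd (⊤ : Subgroup K) (Set.univ : Set S) (fun _ _ _ _ => Set.mem_univ _)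
    (fun k _ s _ hk => hf k s hk)
  rwa [Nat.card_congr (Equiv.Set.univ S), Subgroup.card_top] at h

namespace PA

variable {G P L : Type*} [Group G] [MulAction G P] [MulAction G L] {D : PA G P L}

theorem HH.ni {c : P} {a : L} (h : D.HH c a) : ¬ D.I c a := by
  obtain ⟨τ, hτ⟩ := h
  exact hτ.2.2.2.2

theorem HH.conj {c : P} {a : L} (h : D.HH c a) (g : G) : D.HH (g • c) (g • a) := by
  obtain ⟨τ, t1, t2, t3, t4, t5⟩ := h
  refine ⟨g * τ * g⁻¹, ?_, ?_, t3.conj _, t4.conj _, ?_⟩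
  · calc g * τ * g⁻¹ * (g * τ * g⁻¹) = g * (τ * τ) * g⁻¹ := by group
      _ = 1 := by rw [t1]; group
  · intro h
    apply t2
    have : τ = g⁻¹ * (g * τ * g⁻¹) * g := by group
    rw [this, h]
    group
  · intro h
    exact t5 ((D.inc _ _ _).1 h)

theorem pts_of_axes [Finite G] (hH1 : D.H1) (hodd : Odd D.k) (hax : ∀ l, ∃ c, D.HH c l) (x : P) :
    ∃ a, D.HH x a := by
  obtain ⟨l, hl, -⟩ := D.third' x (Classical.choice (Nat.card_pos_iff.1 (by rw [D.cL]; positivity)).1)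
      (Classical.choice (Nat.card_pos_iff.1 (by rw [D.cL]; positivity)).1)
  obtain ⟨c, hc⟩ := hax l
  obtain ⟨d, m, a, -, -, -, -, ha, -⟩ := f4 hH1 hodd hax hc hl
  exact ⟨a, ha⟩

/-- (r1) -/
theorem card_A [Finite G] (hodd : Odd D.k) {x : P} (hx : ∃ a, D.HH x a) :
    Nat.card {a : L | D.HH x a} = Nat.card (D.Ec x) := by
  have := D.finL
  refine reg_card (D.Ec x) {a : L | D.HH x a} ?_ ?_ hx ?_
  · intro h hh a ha
    have := HH.conj ha h
    rwa [hh.1.pt] at this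
  · intro h hh a ha hf
    exact Ec_free hh (HH.ni ha) hf
  · intro a ha a' ha'
    exact Ec_trans hodd ha ha'

/-- (r3) -/
theorem card_Ca [Finite G] (hH1 : D.H1) (hodd : Odd D.k) {x d : P} {l a : L}
    (hl : ∃ c, D.HH c l) (hxl : D.I x l) (ha : D.HH x a) (hda : D.I d a) (hdl : D.I d l) :
    (∃ c, D.HH c l ∧ D.I c a) ∧
    Nat.card {c : P | D.HH c l ∧ D.I c a} = Nat.card (D.Pe d l) := by
  have := D.finP
  have hne : ∃ c, D.HH c l ∧ D.I c a := by
    obtain ⟨α, hα⟩ := ha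
    obtain ⟨β, c, hβ, -, hca⟩ := comm_axis hH1 hodd hα hxl hl
    exact ⟨c, ⟨β, hβ⟩, hca⟩
  refine ⟨hne, ?_⟩
  have hal : a ≠ l := fun h => ha.ni (h ▸ hxl)
  refine reg_card (D.Pe d l) {c : P | D.HH c l ∧ D.I c a} ?_ ?_ hne ?_
  · rintro h hh c ⟨hc, hca⟩
    have e1 : h • l = l := hh.1.line
    have e2 : h • a = a := (mem_Pe.1 hh).2 a hda
    refine ⟨?_, ?_⟩
    · have := hc.conj h
      rwa [e1] at this
    · rw [← e2, D.inc]; exact hca
  · rintro h hh c ⟨hc, hca⟩ hf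
    by_contra h1
    rcases fix_pt h1 (mem_Pe.1 hh).2 hh.1 hf with h2 | h2
    · exact hc.ni (h2 ▸ hdl)
    · exact hc.ni h2
  · rintro c ⟨hc, hca⟩ c' ⟨hc', hca'⟩
    obtain ⟨ε, hε, hεc⟩ := Ec_trans (D := D.dual) hodd (dual_HH.2 hc) (dual_HH.2 hc')
    refine ⟨ε, ?_, hεc⟩
    by_cases h1 : ε = 1
    · rw [h1]; exact one_mem _
    have hax : D.Ax ε l := hε.1
    obtain ⟨w, hw⟩ := hax.exists_ce
    have hwl : D.I w l := Ec_ax (D := D.dual) hε hw h1
    have hcc : c ≠ c' := by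
      rintro rfl
      exact h1 (Ec_free (D := D.dual) hε hc.ni hεc)
    have hwc : w ≠ c := fun h => hc.ni (h ▸ hwl)
    obtain ⟨m, hwm, hcm⟩ := D.join w c hwc
    have hmf := hw m hwm
    have hc'm : D.I c' m := by rw [← hεc, ← hmf, D.inc]; exact hcm
    have hma : m = a := (D.uniq hcm hc'm hca hca').resolve_left hcc
    subst hma
    have hwd : w = d := (D.uniq hwm hda hwl hdl).resolve_right hal
    subst hwd
    exact ⟨hax, hw⟩

theorem card_Ca_const [Finite G] (hodd : Odd D.k) {x : P} {l a a' : L} (hxl : D.I x l)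
    (ha : D.HH x a) (ha' : D.HH x a') :
    Nat.card {c : P | D.HH c l ∧ D.I c a} = Nat.card {c : P | D.HH c l ∧ D.I c a'} := by
  obtain ⟨ε, hε, rfl⟩ := Ec_trans hodd ha ha'
  have e1 : ε • l = l := hε.1 l hxl
  have e2 : ε⁻¹ • l = l := by rw [inv_smul_eq_iff, e1]
  refine Nat.card_congr ⟨fun c => ⟨ε • c.1, ?_, (D.inc _ _ _).2 c.2.2⟩,
    fun c => ⟨ε⁻¹ • c.1, ?_, ?_⟩, fun c => ?_, fun c => ?_⟩
  · have := c.2.1.conj ε
    rwa [e1] at this
  · have := c.2.1.conj ε⁻¹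
    rwa [e2] at this
  · have := c.2.2
    rw [← D.inc ε, smul_inv_smul]
    exact this
  · exact Subtype.ext (inv_smul_smul _ _)
  · exact Subtype.ext (smul_inv_smul _ _)

/-- (r6) -/
theorem dvd_sub_one [Finite G] {x : P} {l : L} (hxl : D.I x l) (hE : D.Pe x l = ⊥) :
    Nat.card (D.Ec x) ∣ Nat.card (D.dual.Ec l) - 1 := by
  classical
  have hcl : ∀ ε ∈ D.Ec x, ∀ g ∈ D.dual.Ec l, ε * g * ε⁻¹ ∈ D.dual.Ec l := by
    intro ε hε g hg
    have := Ec_conj hg ε
    rwa [hε.1 l hxl] at this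
  letI : MulAction (D.Ec x) {g : G // g ∈ D.dual.Ec l ∧ g ≠ 1} :=
    { smul := fun ε g => ⟨ε * g.1 * (ε : G)⁻¹, hcl ε ε.2 g.1 g.2.1, fun h => g.2.2 (by
        have : g.1 = (ε : G)⁻¹ * (ε * g.1 * (ε : G)⁻¹) * ε := by group
        rw [this, h]; group)⟩
      one_smul := fun g => Subtype.ext (by
        change ((1 : D.Ec x) : G) * g.1 * ((1 : D.Ec x) : G)⁻¹ = g.1
        simp)
      mul_smul := fun ε η g => Subtype.ext (by
        change ((ε * η : D.Ec x) : G) * g.1 * ((ε * η : D.Ec x) : G)⁻¹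
          = ε * (η * g.1 * (η : G)⁻¹) * (ε : G)⁻¹
        simp only [Subgroup.coe_mul]
        group) }
  have h := free_dvd' (K := D.Ec x) (S := {g : G // g ∈ D.dual.Ec l ∧ g ≠ 1}) (by
    rintro ε ⟨g, hg, hg1⟩ h
    have h1 : (ε : G) * g * (ε : G)⁻¹ = g := congrArg Subtype.val h
    have hax : D.Ax g l := hg.1
    obtain ⟨w, hw⟩ := hax.exists_ce
    have hwl : D.I w l := Ec_ax (D := D.dual) hg hw hg1
    have hwx : w ≠ x := by
      rintro rfl
      have : g ∈ D.Pe w l := ⟨hax, hw⟩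
      rw [hE, Subgroup.mem_bot] at this
      exact hg1 this
    have hεw : (ε : G) • w = w := by
      have h2 := hw.conj (ε : G)
      rw [h1] at h2
      exact ce_uniq hg1 h2 hw
    by_contra hε1
    have hε1' : (ε : G) ≠ 1 := fun h => hε1 (Subtype.ext h)
    obtain ⟨b, hb⟩ := ε.2.1.exists_ax
    have h3 := (fix_pt hε1' ε.2.1 hb hεw).resolve_left hwx
    have h4 := Ec_ax ε.2 hb hε1'
    have h5 : b = l := (D.uniq h3 h4 hwl hxl).resolve_left hwx
    subst h5
    have : (ε : G) ∈ D.Pe x b := ⟨hb, ε.2.1⟩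
    rw [hE, Subgroup.mem_bot] at this
    exact hε1' this)
  convert h using 1
  have := Fintype.ofFinite G
  have e : {g : G // g ∈ D.dual.Ec l ∧ g ≠ 1} ≃ {g : D.dual.Ec l // g ≠ 1} :=
    { toFun := fun g => ⟨⟨g.1, g.2.1⟩, fun h => g.2.2 (congrArg Subtype.val h)⟩
      invFun := fun g => ⟨g.1.1, g.1.2, fun h => g.2 (Subtype.ext h)⟩
      left_inv := fun g => rfl
      right_inv := fun g => rfl }
  have := Fintype.ofFinite (D.dual.Ec l)
  rw [Nat.card_congr e, Nat.card_eq_fintype_card, Nat.card_eq_fintype_card,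
    Fintype.card_subtype_compl, Fintype.card_subtype_eq]

/-- double counting -/
theorem dc {A C : Type*} [Finite A] [Finite C] (R : A → C → Prop) (r r' : ℕ)
    (h1 : ∀ a, Nat.card {c // R a c} = r) (h2 : ∀ c, Nat.card {a // R a c} = r') :
    Nat.card A * r = Nat.card C * r' := by
  classical
  have := Fintype.ofFinite A
  have := Fintype.ofFinite C
  have e1 : ∑ a : A, ∑ c : C, (if R a c then 1 else 0) = Nat.card A * r := by
    have : ∀ a : A, ∑ c : C, (if R a c then 1 else 0) = r := by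
      intro a
      rw [← h1 a, Nat.card_eq_fintype_card, Fintype.card_subtype, Finset.card_filter]
    rw [Finset.sum_congr rfl fun a _ => this a, Finset.sum_const, Finset.card_univ, smul_eq_mul,
      Nat.card_eq_fintype_card]
  have e2 : ∑ c : C, ∑ a : A, (if R a c then 1 else 0) = Nat.card C * r' := by
    have : ∀ c : C, ∑ a : A, (if R a c then 1 else 0) = r' := by
      intro c
      rw [← h2 c, Nat.card_eq_fintype_card, Fintype.card_subtype, Finset.card_filter]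
    rw [Finset.sum_congr rfl fun a _ => this a, Finset.sum_const, Finset.card_univ, smul_eq_mul,
      Nat.card_eq_fintype_card]
  rw [← e1, ← e2, Finset.sum_comm]

/-- Lemma 5a-1 -/
theorem five_a1 [Finite G] (hH1 : D.H1) (hodd : Odd D.k) (hax : ∀ l, ∃ c, D.HH c l)
    {x : P} (hx : D.Ec x ≠ ⊥) {l : L} (hxl : D.I x l) (hE : D.Pe x l = ⊥) :
    ∃ c b, D.HH c l ∧ D.I x b ∧ D.I c b ∧ (∀ a, D.HH x a → D.I c a) ∧ D.Ec x ≤ D.Pe x b := by
  classical
  have := D.finP
  have := D.finL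
  have hpt := pts_of_axes hH1 hodd hax
  obtain ⟨a0, ha0⟩ := hpt x
  set A := {a : L | D.HH x a} with hA
  set C := {c : P | D.HH c l} with hC
  have hcA : Nat.card A = Nat.card (D.Ec x) := card_A hodd (hpt x)
  have hcC : Nat.card C = Nat.card (D.dual.Ec l) := by
    have h := card_A (D := D.dual) (x := l) hodd (by
      obtain ⟨c, hc⟩ := hax l
      exact ⟨c, dual_HH.2 hc⟩)
    rw [← h]
    refine Nat.card_congr (Equiv.setCongr (Set.ext fun c => ?_))
    simp [hC, dual_HH]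
  set r := Nat.card {c : P | D.HH c l ∧ D.I c a0} with hr
  obtain ⟨c0, hc0, hc0a⟩ : ∃ c, D.HH c l ∧ D.I c a0 := by
    have hal : a0 ≠ l := fun h => ha0.ni (h ▸ hxl)
    obtain ⟨d, hda, hdl⟩ := D.meet a0 l hal
    exact (card_Ca hH1 hodd (hax l) hxl ha0 hda hdl).1
  set r' := Nat.card {a : L | D.HH x a ∧ D.I c0 a} with hr'
  have hdc := dc (A := A) (C := C) (fun a c => D.I c.1 a.1) r r'
    (by
      rintro ⟨a, ha⟩
      rw [hr, card_Ca_const hodd hxl ha0 ha]
      refine Nat.card_congr ⟨fun c => ⟨c.1.1, c.1.2, c.2⟩, fun c => ⟨⟨c.1, c.2.1⟩, c.2.2⟩,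
        fun c => rfl, fun c => rfl⟩)
    (by
      rintro ⟨c, hc⟩
      have h := card_Ca_const (D := D.dual) (x := l) (l := x) (a := c0) (a' := c) hodd hxl
        (dual_HH.2 hc0) (dual_HH.2 hc)
      have e : ∀ c : P, Nat.card {a : L | D.dual.HH a x ∧ D.dual.I a c}
          = Nat.card {a : L | D.HH x a ∧ D.I c a} := by
        intro c
        refine Nat.card_congr (Equiv.setCongr (Set.ext fun a => ?_))
        simp only [Set.mem_setOf_eq, dual_HH]
        rfl
      rw [e, e] at h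
      rw [hr', h]
      refine Nat.card_congr ⟨fun c => ⟨c.1.1, c.1.2, c.2⟩, fun c => ⟨⟨c.1, c.2.1⟩, c.2.2⟩,
        fun c => rfl, fun c => rfl⟩)
  rw [hcA, hcC] at hdc
  have hdvd := dvd_sub_one hxl hE
  have ht0 : 0 < Nat.card (D.dual.Ec l) := Nat.card_pos
  have hs0 : 0 < Nat.card (D.Ec x) := Nat.card_pos
  have hcop : Nat.Coprime (Nat.card (D.dual.Ec l)) (Nat.card (D.Ec x)) := by
    obtain ⟨j, hj⟩ := hdvd
    have h1 : Nat.card (D.dual.Ec l) = Nat.card (D.Ec x) * j + 1 := by omega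
    rw [h1]
    simp
  have htr : Nat.card (D.dual.Ec l) ∣ r :=
    hcop.dvd_of_dvd_mul_left (Dvd.intro _ hdc.symm)
  have hr0 : 0 < r := by
    rw [hr]
    have : Nonempty {c : P | D.HH c l ∧ D.I c a0} := ⟨⟨c0, hc0, hc0a⟩⟩
    exact Nat.card_pos
  -- all of C is on every a
  have hall : ∀ a, D.HH x a → ∀ c, D.HH c l → D.I c a := by
    intro a ha
    by_contra hcon
    push Not at hcon
    obtain ⟨c1, hc1, hc1a⟩ := hcon
    have hlt : r < Nat.card C := by
      rw [hr, card_Ca_const hodd hxl ha0 ha, Nat.card_coe_set_eq, Nat.card_coe_set_eq]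
      apply Set.ncard_lt_ncard ?_ (Set.toFinite _)
      rw [Set.ssubset_iff_subset_ne]
      refine ⟨fun c hc => hc.1, fun h => ?_⟩
      have : c1 ∈ {c : P | D.HH c l ∧ D.I c a} := by rw [h]; exact hc1
      exact hc1a this.2
    rw [hcC] at hlt
    exact absurd (Nat.le_of_dvd hr0 htr) (not_le.2 hlt)
  -- two axes
  have h2 : 1 < Nat.card (D.Ec x) := by
    rcases Nat.lt_or_ge 1 (Nat.card (D.Ec x)) with h | h
    · exact h
    · exact absurd (Subgroup.card_le_one_iff_eq_bot _ |>.1 h) hx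
  obtain ⟨a1, ha1, ha10⟩ : ∃ a1, D.HH x a1 ∧ a1 ≠ a0 := by
    by_contra hcon
    push Not at hcon
    have : Nat.card A ≤ 1 := by
      have : Subsingleton A := ⟨fun u v => Subtype.ext
        ((hcon u.1 u.2).trans (hcon v.1 v.2).symm)⟩
      exact Finite.card_le_one_iff_subsingleton.2 this
    rw [hcA] at this
    omega
  have huniq : ∀ c, D.HH c l → c = c0 := by
    intro c hc
    exact (D.uniq (hall a0 ha0 c hc) (hall a0 ha0 c0 hc0) (hall a1 ha1 c hc)
      (hall a1 ha1 c0 hc0)).resolve_right (fun h => ha10 h.symm)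
  have hxc : x ≠ c0 := fun h => hc0.ni (h ▸ hxl)
  obtain ⟨b, hxb, hcb⟩ := D.join x c0 hxc
  refine ⟨c0, b, hc0, hxb, hcb, fun a ha => hall a ha c0 hc0, ?_⟩
  have hr's : r' = Nat.card (D.Ec x) := by
    rw [hr', ← hcA]
    refine Nat.card_congr (Equiv.setCongr (Set.ext fun a => ?_))
    simp only [hA, Set.mem_setOf_eq]
    exact ⟨fun h => h.1, fun h => ⟨h, hall a h c0 hc0⟩⟩
  have h4 := (card_Ca (D := D.dual) (x := l) (d := b) (l := x) (a := c0) (dual_H1 hH1) hodd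
    (by obtain ⟨a, ha⟩ := hpt x; exact ⟨a, dual_HH.2 ha⟩) hxl (dual_HH.2 hc0) hcb hxb).2
  have e : Nat.card {a : L | D.dual.HH a x ∧ D.dual.I a c0}
      = Nat.card {a : L | D.HH x a ∧ D.I c0 a} := by
    refine Nat.card_congr (Equiv.setCongr (Set.ext fun a => ?_))
    simp only [Set.mem_setOf_eq, dual_HH]
    rfl
  rw [e, ← hr', hr's, dual_Pe] at h4
  exact (Subgroup.eq_of_le_of_card_ge (Pe_le_Ec hxb) h4.le).ge

theorem Ce.pow {g : G} {c : P} (h : D.Ce g c) (n : ℕ) : D.Ce (g ^ n) c :=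
  pow_mem (show g ∈ D.dual.PG c from h) n

theorem Ax.pow {g : G} {a : L} (h : D.Ax g a) (n : ℕ) : D.Ax (g ^ n) a :=
  pow_mem (show g ∈ D.PG a from h) n

theorem exp {x c : P} {b : L} (hxc : x ≠ c) (hxb : D.I x b) (hcb : D.I c b) {g h : G} {p : ℕ}
    (hg : g ∈ D.Pe x b) (hh : h ∈ D.Pe c b) (hg1 : g ≠ 1) (hgp : g ^ p = 1) : h ^ p = 1 := by
  obtain ⟨ga, gc⟩ := mem_Pe.1 hg
  obtain ⟨ha, hc⟩ := mem_Pe.1 hh
  have hcomm : g * h = h * g := by
    have e1 : h * g * h⁻¹ ∈ D.Pe x b := by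
      have := Pe_conj hg h
      rwa [ha x hxb, ha.line] at this
    have e2 : g * h⁻¹ * g⁻¹ ∈ D.Pe c b := by
      have := Pe_conj (inv_mem hh) g
      rwa [ga c hcb, ga.line] at this
    have e3 : h * g * h⁻¹ * g⁻¹ ∈ D.Pe x b := mul_mem e1 (inv_mem hg)
    have e4 : h * g * h⁻¹ * g⁻¹ ∈ D.Pe c b := by
      have := mul_mem hh e2
      convert this using 1
      group
    have e5 := ce_ce hxc (mem_Pe.1 e3).2 (mem_Pe.1 e4).2
    have e6 : h * g * h⁻¹ * g⁻¹ * (g * h) = g * h := by rw [e5, one_mul]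
    rw [← e6]
    group
  by_contra hhp
  have hpow : (g * h) ^ p = h ^ p := by
    rw [(show Commute g h from hcomm).mul_pow, hgp, one_mul]
  obtain ⟨w, hw⟩ := (ga.mul ha).exists_ce
  have h1 := hw.pow p
  rw [hpow] at h1
  have h2 : w = c := ce_uniq hhp h1 (hc.pow p)
  subst h2
  have h3 : D.Ce g w := by
    have := hw.mul hc.inv
    simpa using this
  exact hg1 (ce_ce hxc gc h3)

/-- Lemma 5a -/
theorem five_a [Finite G] (hH1 : D.H1) (hodd : Odd D.k) (hax : ∀ l, ∃ c, D.HH c l)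
    {x : P} (hx : D.Ec x ≠ ⊥) {l : L} (hxl : D.I x l) (hE : D.Pe x l = ⊥) : IsPrimePow D.k := by
  classical
  have := D.finP
  have := D.finL
  have hpt := pts_of_axes hH1 hodd hax
  obtain ⟨c, b, hcl, hxb, hcb, hall, hle⟩ := five_a1 hH1 hodd hax hx hxl hE
  have hxc : x ≠ c := fun h => hcl.ni (h ▸ hxl)
  obtain ⟨a0, ha0⟩ := hpt x
  have h2 : 1 < Nat.card (D.Ec x) := by
    rcases Nat.lt_or_ge 1 (Nat.card (D.Ec x)) with h | h
    · exact h
    · exact absurd (Subgroup.card_le_one_iff_eq_bot _ |>.1 h) hx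
  obtain ⟨a1, ha1, ha10⟩ : ∃ a1, D.HH x a1 ∧ a1 ≠ a0 := by
    by_contra hcon
    push Not at hcon
    have : Nat.card {a : L | D.HH x a} ≤ 1 := by
      have : Subsingleton {a : L | D.HH x a} := ⟨fun u v => Subtype.ext
        ((hcon u.1 u.2).trans (hcon v.1 v.2).symm)⟩
      exact Finite.card_le_one_iff_subsingleton.2 this
    rw [card_A hodd (hpt x)] at this
    omega
  have hother : ∀ l', D.I x l' → l' ≠ b → D.HH c l' := by
    intro l' hl' hne
    have hE' : D.Pe x l' = ⊥ := by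
      rw [eq_bot_iff]
      intro g hg
      have h1 := hle (Pe_le_Ec hl' hg)
      exact Subgroup.mem_bot.2 (ax_ax hne hg.1 h1.1)
    obtain ⟨c', b', hcl', -, -, hall', -⟩ := five_a1 hH1 hodd hax hx hl' hE'
    have : c' = c := (D.uniq (hall' a0 ha0) (hall a0 ha0) (hall' a1 ha1)
      (hall a1 ha1)).resolve_right (fun h => ha10 h.symm)
    rwa [this] at hcl'
  have hcard : Nat.card {l' : L | D.I x l' ∧ l' ≠ b} = Nat.card (D.Pe c b) := by
    have hnc : ∀ l', D.I x l' → l' ≠ b → ¬ D.I c l' := fun l' h1 h2 h3 =>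
      (D.uniq h1 h3 hxb hcb).elim hxc h2
    refine reg_card (D.Pe c b) _ ?_ ?_ ?_ ?_
    · rintro h hh l' ⟨h1, h2⟩
      have e1 : h • x = x := hh.1 x hxb
      have e2 : h • b = b := hh.1.line
      refine ⟨?_, ?_⟩
      · rw [← e1, D.inc]; exact h1
      · intro h3
        rw [← e2] at h3
        exact h2 (MulAction.injective h h3)
    · rintro h hh l' ⟨h1, h2⟩ hf
      exact Ec_free (Pe_le_Ec hcb hh) (hnc l' h1 h2) hf
    · obtain ⟨l', h1, h2, -⟩ := D.third' x b b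
      exact ⟨l', h1, h2⟩
    · rintro l1 ⟨h1, h1'⟩ l2 ⟨h2, h2'⟩
      obtain ⟨ε, hε, hεl⟩ := Ec_trans hodd (hother l1 h1 h1') (hother l2 h2 h2')
      refine ⟨ε, ?_, hεl⟩
      by_cases hε1 : ε = 1
      · rw [hε1]; exact one_mem _
      obtain ⟨b', hb'⟩ := hε.1.exists_ax
      have e1 : ε • b = b := hε.1 b hcb
      have e2 : D.I (ε • x) b := by rw [← e1, D.inc]; exact hxb
      have e3 : D.I (ε • x) l2 := by rw [← hεl, D.inc]; exact h1
      have e4 : ε • x = x := (D.uniq e2 hxb e3 h2).resolve_right (fun h => h2' h.symm)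
      have e5 := (fix_pt hε1 hε.1 hb' e4).resolve_left hxc
      have e6 := Ec_ax hε hb' hε1
      have e7 : b' = b := (D.uniq e5 e6 hxb hcb).resolve_left hxc
      exact ⟨e7 ▸ hb', hε.1⟩
  rw [show Nat.card {l' : L | D.I x l' ∧ l' ≠ b} = D.k from D.dual.card_line_sub hxb] at hcard
  -- an element of prime order
  obtain ⟨p, hp, hpd⟩ := Nat.exists_prime_and_dvd (Nat.ne_of_gt h2)
  have := Fact.mk hp
  obtain ⟨g, hg⟩ := exists_prime_orderOf_dvd_card' (G := D.Ec x) p hpd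
  have hg1 : (g : G) ≠ 1 := by
    intro h
    have : g = 1 := Subtype.ext h
    rw [this, orderOf_one] at hg
    exact hp.one_lt.ne hg
  have hgp : (g : G) ^ p = 1 := by
    have : g ^ p = 1 := by rw [← hg]; exact pow_orderOf_eq_one g
    simpa using congrArg Subtype.val this
  have hPG : IsPGroup p (D.Pe c b) := by
    rintro ⟨h, hh⟩
    refine ⟨1, ?_⟩
    rw [pow_one]
    exact Subtype.ext (exp hxc hxb hcb (hle g.2) hh hg1 hgp)
  obtain ⟨m, hm⟩ := IsPGroup.iff_card.1 hPG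
  rw [← hcard] at hm
  rw [hm]
  refine hp.isPrimePow.pow ?_
  rintro rfl
  have := D.k2
  rw [hm] at this
  simp at this

end PA

end H50.OW
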