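import Cfsg.Agent.Lib.H50.OW4

set_option autoImplicit false
set_option linter.unusedVariables false
set_option linter.unusedSectionVars false
set_option maxHeartbeats 400000

/-! Ostrom-Wagner, theorem X, part 5: the remaining cases. -/

namespace H50.OW

/-- number theory for the last case -/
theorem nt {k r i j p : ℕ} (hp : p.Prime) (hk : 0 < k) (hr : r = p ^ j) (hj : j ≠ 0)
    (hrk : r ∣ k) (h1 : 1 + (k + 1) * (r - 1) = p ^ i) (h2 : p ^ i ∣ k ^ 2) : k = r := by
  obtain ⟨k1, rfl⟩ := hrk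
  have hr2 : 2 ≤ r := by
    rw [hr]
    exact le_trans hp.two_le (Nat.le_self_pow hj p)
  obtain ⟨s, rfl⟩ : ∃ s, r = s + 1 := ⟨r - 1, by omega⟩
  have hk1 : 0 < k1 := Nat.pos_of_ne_zero (by rintro rfl; simp at hk)
  have e1 : p ^ i = (s + 1) * (k1 * s + 1) := by
    rw [← h1]
    simp only [Nat.add_sub_cancel]
    ring
  have hd : (k1 * s + 1) ∣ p ^ i := ⟨s + 1, by rw [e1]; ring⟩
  obtain ⟨l, -, hl⟩ := (Nat.dvd_prime_pow hp).1 hd
  have hl0 : l ≠ 0 := by
    rintro rfl
    rw [pow_zero] at hl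
    have : 0 < k1 * s := Nat.mul_pos hk1 (by omega)
    omega
  have hps : p ∣ s + 1 := by
    rw [hr]
    exact dvd_pow_self p hj
  have hpk : ¬ p ∣ k1 := by
    intro h
    have h3 : p ∣ k1 * s + 1 := by rw [hl]; exact dvd_pow_self p hl0
    have h4 : p ∣ 1 := (Nat.dvd_add_right (h.mul_right s)).1 h3
    exact hp.one_lt.ne' (Nat.dvd_one.1 h4)
  have h5 : p ^ i ∣ (s + 1) ^ 2 * k1 ^ 2 := by rw [← mul_pow]; exact h2
  have h6 : p ^ i ∣ (s + 1) ^ 2 := by
    refine Nat.Coprime.dvd_of_dvd_mul_right ?_ h5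
    exact Nat.Coprime.pow _ _ ((Nat.Prime.coprime_iff_not_dvd hp).2 hpk)
  have h7 : k1 * s + 1 ≤ s + 1 := by
    have := Nat.le_of_dvd (by positivity) h6
    rw [e1, sq] at this
    exact Nat.le_of_mul_le_mul_left this (by omega)
  have h8 : k1 ≤ 1 := by
    by_contra h
    have : 2 * s ≤ k1 * s := Nat.mul_le_mul_right _ (by omega)
    omega
  have : k1 = 1 := by omega
  rw [this, mul_one]

namespace PA

variable {G P L : Type*} [Group G] [MulAction G P] [MulAction G L] {D : PA G P L}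

theorem card_C [Finite G] (hodd : Odd D.k) {l : L} (hl : ∃ c, D.HH c l) :
    Nat.card {c : P | D.HH c l} = Nat.card (D.dual.Ec l) := by
  obtain ⟨c, hc⟩ := hl
  rw [← card_A (D := D.dual) (x := l) hodd ⟨c, dual_HH.2 hc⟩]
  refine Nat.card_congr (Equiv.setCongr (Set.ext fun c => ?_))
  simp [dual_HH]

theorem A_uniq [Finite G] (hodd : Odd D.k) {x : P} (hx : D.Ec x = ⊥) {a a' : L}
    (h : D.HH x a) (h' : D.HH x a') : a = a' := by
  obtain ⟨ε, hε, he⟩ := Ec_trans hodd h h'
  rw [hx, Subgroup.mem_bot] at hε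
  rw [← he, hε, one_smul]

theorem Pe_le_dual {y : P} {l : L} (h : D.I y l) : D.Pe y l ≤ D.dual.Ec l := by
  rw [← dual_Pe]
  exact Pe_le_Ec (D := D.dual) h

theorem exists_ne_one {K : Subgroup G} (h : K ≠ ⊥) : ∃ g ∈ K, g ≠ 1 := by
  obtain ⟨g, hg⟩ := Subgroup.ne_bot_iff_exists_ne_one.1 h
  exact ⟨g, g.2, fun h => hg (Subtype.ext h)⟩

theorem mixed1 [Finite G] (hH1 : D.H1) (hodd : Odd D.k) (hax : ∀ l, ∃ c, D.HH c l)
    (h5 : ∀ x l, D.I x l → D.Ec x ≠ ⊥ → D.Pe x l ≠ ⊥) {w y' : P} {a : L}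
    (hw : D.Ec w = ⊥) (ha : D.HH w a) (hy' : D.Ec y' ≠ ⊥) : D.I y' a := by
  have hwy : w ≠ y' := by
    rintro rfl
    exact hy' hw
  obtain ⟨l, hwl, hyl⟩ := D.join w y' hwy
  have hal : a ≠ l := fun h => ha.ni (h ▸ hwl)
  obtain ⟨y, hya, hyl'⟩ := D.meet a l hal
  have hsub : ∀ c, D.HH c l → D.I c a := by
    intro c hc
    obtain ⟨d, m, a', -, -, -, -, ha', hca', -⟩ := f4 hH1 hodd hax hc hwl
    rwa [A_uniq hodd hw ha ha']
  have h1 := (card_Ca hH1 hodd (hax l) hwl ha hya hyl').2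
  have h2 := card_C hodd (hax l)
  have h3 : Nat.card {c : P | D.HH c l ∧ D.I c a} = Nat.card {c : P | D.HH c l} :=
    Nat.card_congr (Equiv.setCongr (Set.ext fun c => ⟨fun h => h.1, fun h => ⟨h, hsub c h⟩⟩))
  have h4 : D.Pe y l = D.dual.Ec l :=
    Subgroup.eq_of_le_of_card_ge (Pe_le_dual hyl') (by rw [← h2, ← h3, h1])
  obtain ⟨g, hg, hg1'⟩ := exists_ne_one (h5 y' l hyl hy')
  have h6 : (g : G) ∈ D.Pe y l := by rw [h4]; exact Pe_le_dual hyl hg
  have h7 : y' = y := ce_uniq hg1' (mem_Pe.1 hg).2 (mem_Pe.1 h6).2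
  rw [h7]
  exact hya

theorem exists_prime_elt [Finite G] {K : Subgroup G} (h : K ≠ ⊥) :
    ∃ p : ℕ, p.Prime ∧ ∃ g ∈ K, g ≠ 1 ∧ g ^ p = 1 := by
  have h2 : Nat.card K ≠ 1 := fun h' => h ((Subgroup.card_eq_one).1 h')
  obtain ⟨p, hp, hpd⟩ := Nat.exists_prime_and_dvd h2
  have := Fact.mk hp
  obtain ⟨g, hg⟩ := exists_prime_orderOf_dvd_card' (G := K) p hpd
  refine ⟨p, hp, g, g.2, ?_, ?_⟩
  · intro h
    have : g = 1 := Subtype.ext h
    rw [this, orderOf_one] at hg
    exact hp.one_lt.ne hg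
  · have : g ^ p = 1 := by rw [← hg]; exact pow_orderOf_eq_one g
    simpa using congrArg Subtype.val this

theorem pp_of_exp [Finite G] {K : Subgroup G} {p : ℕ} (hp : p.Prime)
    (h : ∀ g ∈ K, g ^ p = 1) : ∃ m, Nat.card K = p ^ m := by
  have := Fact.mk hp
  have hPG : IsPGroup p K := by
    rintro ⟨g, hg⟩
    exact ⟨1, by rw [pow_one]; exact Subtype.ext (h g hg)⟩
  exact IsPGroup.iff_card.1 hPG

/-- the elation group of an axis with two centres is an elementary abelian `p`-group -/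
theorem exp_all {x y : P} {b : L} (hxy : x ≠ y) (hxb : D.I x b) (hyb : D.I y b) {g : G} {p : ℕ}
    (hg : g ∈ D.Pe x b) (hg1 : g ≠ 1) (hgp : g ^ p = 1) (hy : D.Pe y b ≠ ⊥) :
    ∀ h ∈ D.dual.Ec b, h ^ p = 1 := by
  intro h hh
  by_cases h1 : h = 1
  · rw [h1, one_pow]
  have hax : D.Ax h b := hh.1
  obtain ⟨u, hu⟩ := hax.exists_ce
  have hub : D.I u b := Ec_ax (D := D.dual) hh hu h1
  by_cases hux : x = u
  · subst hux
    obtain ⟨g2, hg2, hg21⟩ := exists_ne_one hy
    have e1 : g2 ^ p = 1 := exp hxy hxb hyb hg hg2 hg1 hgp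
    exact exp hxy.symm hyb hxb hg2 ⟨hax, hu⟩ hg21 e1
  · exact exp hux hxb hub hg ⟨hax, hu⟩ hg1 hgp

theorem pp_k (D : PA G P L) {p m : ℕ} (hp : p.Prime) (h : D.k = p ^ m) : IsPrimePow D.k := by
  rw [h]
  refine hp.isPrimePow.pow ?_
  rintro rfl
  have := D.k2
  rw [h] at this
  simp at this

theorem mixed2 [Finite G] (hH1 : D.H1) (hodd : Odd D.k) (hax : ∀ l, ∃ c, D.HH c l)
    (h5 : ∀ x l, D.I x l → D.Ec x ≠ ⊥ → D.Pe x l ≠ ⊥) {w : P}
    (hw : D.Ec w = ⊥) {y1 y2 : P} (h12 : y1 ≠ y2) (hy1 : D.Ec y1 ≠ ⊥) (hy2 : D.Ec y2 ≠ ⊥) :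
    IsPrimePow D.k := by
  have := D.finP
  have hpt := pts_of_axes hH1 hodd hax
  obtain ⟨a, ha⟩ := hpt w
  have h1a := mixed1 hH1 hodd hax h5 hw ha hy1
  have h2a := mixed1 hH1 hodd hax h5 hw ha hy2
  have hoff : ∀ v, ¬ D.I v a → D.HH v a := by
    intro v hv
    have hEv : D.Ec v = ⊥ := by
      by_contra hne
      exact hv (mixed1 hH1 hodd hax h5 hw ha hne)
    obtain ⟨a', ha'⟩ := hpt v
    have e1 := mixed1 hH1 hodd hax h5 hEv ha' hy1
    have e2 := mixed1 hH1 hodd hax h5 hEv ha' hy2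
    have : a' = a := (D.uniq e1 e2 h1a h2a).resolve_left h12
    rwa [this] at ha'
  have hcard : Nat.card (D.dual.Ec a) = D.k ^ 2 := by
    rw [← card_C hodd (hax a), ← D.card_off a]
    exact Nat.card_congr (Equiv.setCongr (Set.ext fun v => ⟨fun h => HH.ni h, fun h => hoff v h⟩))
  obtain ⟨p, hp, g, hg, hg1, hgp⟩ := exists_prime_elt (h5 y1 a h1a hy1)
  obtain ⟨m, hm⟩ := pp_of_exp hp (exp_all h12 h1a h2a hg hg1 hgp (h5 y2 a h2a hy2))
  rw [hcard] at hm
  have h3 : IsPrimePow (D.k ^ 2) := by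
    rw [hm]
    refine hp.isPrimePow.pow ?_
    rintro rfl
    have := D.k2
    nlinarith
  exact (isPrimePow_pow_iff two_ne_zero).1 h3

theorem mixed3 [Finite G] (hH1 : D.H1) (hodd : Odd D.k) (hax : ∀ l, ∃ c, D.HH c l)
    (h5 : ∀ x l, D.I x l → D.Ec x ≠ ⊥ → D.Pe x l ≠ ⊥) {y : P} (hy : D.Ec y ≠ ⊥)
    (huniq : ∀ v, D.Ec v ≠ ⊥ → v = y) : IsPrimePow D.k := by
  classical
  have := D.finP
  have := D.finL
  have := Fintype.ofFinite P
  have := Fintype.ofFinite L
  have hpt := pts_of_axes hH1 hodd hax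
  choose f hf using hpt
  have hfy : ∀ w, w ≠ y → D.I y (f w) := by
    intro w hw
    have : D.Ec w = ⊥ := by
      by_contra h
      exact hw (huniq w h)
    exact mixed1 hH1 hodd hax h5 this (hf w) hy
  obtain ⟨a, ha, hca⟩ : ∃ a ∈ (Finset.univ.filter fun l : L => D.I y l),
      D.k ≤ ((Finset.univ.erase y).filter fun w => f w = a).card := by
    refine Finset.exists_le_card_fiber_of_mul_le_card_of_maps_to
      (s := Finset.univ.erase y) (f := f) ?_ ?_ ?_
    · intro w hw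
      exact Finset.mem_filter.2 ⟨Finset.mem_univ _, hfy w (Finset.ne_of_mem_erase hw)⟩
    · obtain ⟨l, hl, -⟩ := D.third' y (f y) (f y)
      exact ⟨l, Finset.mem_filter.2 ⟨Finset.mem_univ _, hl⟩⟩
    · have e1 : (Finset.univ.filter fun l : L => D.I y l).card = D.k + 1 := by
        rw [← D.cl y, Nat.card_eq_fintype_card, Fintype.card_subtype]
      have e2 : (Finset.univ.erase y).card = D.k ^ 2 + D.k := by
        rw [Finset.card_erase_of_mem (Finset.mem_univ _), Finset.card_univ,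
          ← Nat.card_eq_fintype_card, D.cP]
        rfl
      rw [e1, e2]
      apply le_of_eq
      ring
  have hya : D.I y a := (Finset.mem_filter.1 ha).2
  have hEa : D.dual.Ec a ≤ D.Pe y a := by
    intro g hg
    by_cases h1 : g = 1
    · rw [h1]; exact one_mem _
    have hgax : D.Ax g a := hg.1
    obtain ⟨u, hu⟩ := hgax.exists_ce
    have hua : D.I u a := Ec_ax (D := D.dual) hg hu h1
    have h2 : D.Ec u ≠ ⊥ := by
      intro h
      have h3 : g ∈ D.Ec u := Pe_le_Ec hua ⟨hgax, hu⟩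
      rw [h, Subgroup.mem_bot] at h3
      exact h1 h3
    have := huniq u h2
    subst this
    exact ⟨hgax, hu⟩
  have hk1 : D.k ≤ Nat.card (D.Pe y a) := by
    refine hca.trans ?_
    have e1 : ((Finset.univ.erase y).filter fun w => f w = a).card ≤ Nat.card {c : P | D.HH c a} := by
      rw [Nat.card_eq_fintype_card, ← Set.toFinset_card]
      refine Finset.card_le_card ?_
      intro w hw
      rw [Set.mem_toFinset, Set.mem_setOf_eq]
      have h2 := (Finset.mem_filter.1 hw).2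
      rw [← h2]
      exact hf w
    refine e1.trans ?_
    rw [card_C hodd (hax a)]
    exact Subgroup.card_le_of_le hEa
  have hk2 : Nat.card (D.Pe y a) = D.k := by
    have := D.k2
    exact le_antisymm (Nat.le_of_dvd (by omega) (D.Pe_dvd hya)) hk1
  obtain ⟨a', hya', haa', -⟩ := D.third' y a a
  obtain ⟨p, hp, g, hg, hg1, hgp⟩ := exists_prime_elt (h5 y a' hya' hy)
  obtain ⟨m, hm⟩ := pp_of_exp (K := D.Pe y a) hp (fun h hh => by
    refine exp (D := D.dual) (x := a') (c := a) (b := y) haa' hya' hya (g := g) ?_ ?_ hg1 hgp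
    · rw [dual_Pe]; exact hg
    · rw [dual_Pe]; exact hh)
  rw [hk2] at hm
  exact D.pp_k hp hm

/-- no elations at all: friendship -/
theorem friend [Finite G] (hH1 : D.H1) (hodd : Odd D.k) (hax : ∀ l, ∃ c, D.HH c l)
    (h0 : ∀ x, D.Ec x = ⊥) : False := by
  classical
  have := D.finP
  have := D.finL
  have := Fintype.ofFinite P
  have hpt := pts_of_axes hH1 hodd hax
  choose a ha using hpt
  have hsymm : ∀ x y, D.I y (a x) → D.I x (a y) := by
    intro x y hy
    obtain ⟨d, m, a', -, -, -, -, ha', hca', -⟩ := f4 hH1 hodd hax (ha x) hy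
    rwa [A_uniq hodd (h0 y) (ha y) ha']
  have hinj : ∀ x y, a x = a y → x = y := by
    intro x y hxy
    by_contra hne
    have h1 := ha y
    rw [← hxy] at h1
    obtain ⟨ε, hε, hεx⟩ := Ec_trans (D := D.dual) hodd (dual_HH.2 (ha x)) (dual_HH.2 h1)
    have hε1 : ε ≠ 1 := by
      rintro rfl
      rw [one_smul] at hεx
      exact hne hεx
    have hgax : D.Ax ε (a x) := hε.1
    obtain ⟨u, hu⟩ := hgax.exists_ce
    have hua : D.I u (a x) := Ec_ax (D := D.dual) hε hu hε1
    have h3 : ε ∈ D.Ec u := Pe_le_Ec hua ⟨hgax, hu⟩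
    rw [h0 u, Subgroup.mem_bot] at h3
    exact hε1 h3
  obtain ⟨p, hp, hpk⟩ := Nat.exists_prime_and_dvd (show D.k ≠ 1 by have := D.k2; omega)
  have := Fact.mk hp
  have hk0 : (D.k : ZMod p) = 0 := (ZMod.natCast_eq_zero_iff _ _).2 hpk
  let A : Matrix P P (ZMod p) := Matrix.of fun x y => if D.I y (a x) then 1 else 0
  let J : Matrix P P (ZMod p) := Matrix.of fun _ _ => 1
  have hrow : ∀ x, (Finset.univ.filter fun y => D.I y (a x)).card = D.k + 1 := by
    intro x
    rw [← D.cp (a x), Nat.card_eq_fintype_card, Fintype.card_subtype]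
  have hA2 : A * A = J := by
    ext x z
    rw [Matrix.mul_apply]
    have e1 : ∑ y, A x y * A y z = ((Finset.univ.filter fun y => D.I y (a x) ∧ D.I y (a z)).card
        : ZMod p) := by
      rw [Finset.card_filter]
      push_cast
      refine Finset.sum_congr rfl fun y _ => ?_
      have : D.I z (a y) ↔ D.I y (a z) := ⟨fun h => hsymm y z h, fun h => hsymm z y h⟩
      simp only [A, Matrix.of_apply, this]
      by_cases h1 : D.I y (a x) <;> by_cases h2 : D.I y (a z) <;> simp [h1, h2]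
    rw [e1]
    change _ = (1 : ZMod p)
    by_cases hxz : x = z
    · subst hxz
      simp only [and_self]
      rw [hrow x]
      push_cast
      rw [hk0, zero_add]
    · have hne : a x ≠ a z := fun h => hxz (hinj x z h)
      obtain ⟨q, hq1, hq2⟩ := D.meet _ _ hne
      have : (Finset.univ.filter fun y => D.I y (a x) ∧ D.I y (a z)) = {q} := by
        ext y
        simp only [Finset.mem_filter, Finset.mem_univ, true_and, Finset.mem_singleton]
        constructor
        · rintro ⟨h1, h2⟩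
          exact (D.uniq h1 hq1 h2 hq2).resolve_right hne
        · rintro rfl
          exact ⟨hq1, hq2⟩
      rw [this]
      simp
  have hAJ : A * J = J := by
    ext x z
    rw [Matrix.mul_apply]
    have e1 : ∑ y, A x y * J y z = ((Finset.univ.filter fun y => D.I y (a x)).card : ZMod p) := by
      rw [Finset.card_filter]
      push_cast
      refine Finset.sum_congr rfl fun y _ => ?_
      simp [A, J]
    rw [e1, hrow x]
    change _ = (1 : ZMod p)
    push_cast
    rw [hk0, zero_add]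
  have hApow : ∀ n, A ^ (n + 2) = J := by
    intro n
    induction n with
    | zero => rw [zero_add, sq, hA2]
    | succ n ih => rw [show n + 1 + 2 = (n + 2) + 1 by ring, pow_succ', ih, hAJ]
  have htr : Matrix.trace A = 0 := by
    rw [Matrix.trace]
    refine Finset.sum_eq_zero fun x _ => ?_
    have : ¬ D.I x (a x) := (ha x).ni
    simp [A, this]
  have htrJ : Matrix.trace J = 1 := by
    rw [Matrix.trace]
    have : ∑ x : P, Matrix.diag J x = (Fintype.card P : ZMod p) := by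
      simp [J]
    rw [this, ← Nat.card_eq_fintype_card, D.cP]
    push_cast
    rw [hk0]
    ring
  have h1 := ZMod.trace_pow_card A
  have h2 : A ^ p = J := by
    have := hApow (p - 2)
    rwa [Nat.sub_add_cancel hp.two_le] at this
  rw [h2, htrJ, htr, zero_pow hp.ne_zero] at h1
  exact one_ne_zero h1

end PA

end H50.OW
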