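import Cfsg.Agent.Lib.H50.OW5

set_option autoImplicit false
set_option linter.unusedVariables false
set_option linter.unusedSectionVars false
set_option maxHeartbeats 400000

/-! Ostrom-Wagner, theorem X. -/

namespace H50.OW

theorem fp_mod {O : Type*} [Finite O] {p : ℕ} [Fact p.Prime] {f : Function.End O}
    (hf : f ^ p ^ 1 = 1) : Nat.card O ≡ Nat.card f.fixedPoints [MOD p] := by
  classical
  have := Fintype.ofFinite O
  have h := Equiv.Perm.card_fixedPoints_modEq hf
  have e1 : Nat.card f.fixedPoints = _ := @Nat.card_eq_fintype_card _ _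
  have e2 : Nat.card O = Fintype.card O := Nat.card_eq_fintype_card
  rw [e2]
  refine h.trans ?_
  rw [@Nat.card_eq_fintype_card _ (_)]

namespace PA

variable {G P L : Type*} [Group G] [MulAction G P] [MulAction G L] {D : PA G P L}

theorem full [Finite G] (h : ∀ x l, D.I x l → D.Pe x l ≠ ⊥) :
    IsPrimePow D.k := by
  classical
  have := D.finP
  have := D.finL
  have := Fintype.ofFinite P
  have hPne : Nonempty P := (Nat.card_pos_iff.1 (by rw [D.cP]; positivity)).1
  obtain ⟨v⟩ := hPne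
  have hLne : Nonempty L := (Nat.card_pos_iff.1 (by rw [D.cL]; positivity)).1
  obtain ⟨l⟩ := hLne
  obtain ⟨x0, hx0, -⟩ := D.third l v v
  obtain ⟨p, hp, g0, hg0, hg01, hg0p⟩ := exists_prime_elt (h x0 l hx0)
  have := Fact.mk hp
  obtain ⟨y0, hy0, hyx, -⟩ := D.third l x0 x0
  have hexp := exp_all hyx.symm hx0 hy0 hg0 hg01 hg0p (h y0 l hy0)
  have hloc : ∀ x, D.I x l → ∃ η : G, η ^ p = 1 ∧ η • l = l ∧ (∀ q, D.I q l → η • q = q → q = x) ∧
      η • x = x := by
    intro x hx
    obtain ⟨m, hxm, hml, -⟩ := D.third' x l l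
    obtain ⟨g, hg, hg1⟩ := exists_ne_one (h x l hx)
    obtain ⟨η, hη, hη1⟩ := exists_ne_one (h x m hxm)
    refine ⟨η, ?_, (mem_Pe.1 hη).2 l hx, ?_, (mem_Pe.1 hη).2.pt⟩
    · refine exp (D := D.dual) (x := l) (c := m) (b := x) hml.symm hx hxm (g := g) ?_ ?_ hg1
        (hexp g (Pe_le_dual hx hg))
      · rw [dual_Pe]; exact hg
      · rw [dual_Pe]; exact hη
    · intro q hq hf
      rcases fix_pt hη1 (mem_Pe.1 hη).2 hη.1 hf with h1 | h1
      · exact h1
      · exact (D.uniq hq hx h1 hxm).resolve_right hml.symm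
  -- Gleason
  have hgl : ∀ x y, D.I x l → D.I y l → ∃ g : G, g • l = l ∧ g • x = y := by
    intro x y hx hy
    by_contra hcon
    push Not at hcon
    let O := {q : P // ∃ g : G, g • l = l ∧ g • x = q}
    have hOl : ∀ q : O, D.I q.1 l := by
      rintro ⟨q, g, hg, rfl⟩
      change D.I (g • x) l
      rw [← hg, D.inc]
      exact hx
    have hact : ∀ η : G, η • l = l → η ^ p = 1 → ∃ f : Function.End O, f ^ p ^ 1 = 1 ∧
        ∀ q : O, (f q).1 = η • q.1 := by
      intro η hη hηp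
      let f : Function.End O := fun q => ⟨η • q.1, by
        obtain ⟨q, g, hg, rfl⟩ := q
        exact ⟨η * g, by rw [mul_smul, hg, hη], by rw [mul_smul]⟩⟩
      refine ⟨f, ?_, fun q => rfl⟩
      have hf : ∀ n : ℕ, ∀ q : O, ((f ^ n) q).1 = (η ^ n) • q.1 := by
        intro n
        induction n with
        | zero =>
          intro q
          rw [pow_zero, pow_zero, one_smul]
          rfl
        | succ n ih =>
          intro q
          rw [pow_succ', pow_succ', mul_smul]
          change (f ((f ^ n) q)).1 = _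
          change η • ((f ^ n) q).1 = _
          rw [ih]
      funext q
      apply Subtype.ext
      rw [pow_one, hf, hηp, one_smul]
      rfl
    obtain ⟨η, e1, e2, e3, e4⟩ := hloc x hx
    obtain ⟨f, hf, hf'⟩ := hact η e2 e1
    have h1 := fp_mod hf
    have h2 : Nat.card f.fixedPoints = 1 := by
      rw [Nat.card_eq_fintype_card, Fintype.card_eq_one_iff]
      refine ⟨⟨⟨x, 1, by rw [one_smul], by rw [one_smul]⟩, ?_⟩, ?_⟩
      · change f _ = _
        apply Subtype.ext
        rw [hf']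
        exact e4
      · rintro ⟨q, hq⟩
        apply Subtype.ext
        apply Subtype.ext
        refine e3 q.1 (hOl q) ?_
        have hq' : f q = q := hq
        have := congrArg Subtype.val hq'
        rwa [hf'] at this
    obtain ⟨η', e1', e2', e3', e4'⟩ := hloc y hy
    obtain ⟨f', hf'', hf'''⟩ := hact η' e2' e1'
    have h3 := fp_mod hf''
    have h4 : Nat.card f'.fixedPoints = 0 := by
      rw [Nat.card_eq_fintype_card, Fintype.card_eq_zero_iff]
      refine ⟨?_⟩
      rintro ⟨q, hq⟩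
      have hqy : q.1 = y := by
        refine e3' q.1 (hOl q) ?_
        have hq' : f' q = q := hq
        have := congrArg Subtype.val hq'
        rwa [hf'''] at this
      obtain ⟨q, g, hg, hgq⟩ := q
      exact hcon g hg (hgq.trans hqy)
    rw [h2] at h1
    rw [h4] at h3
    have h5 := h1.symm.trans h3
    have h6 := Nat.modEq_zero_iff_dvd.1 h5
    exact hp.one_lt.ne' (Nat.dvd_one.1 h6)
  set r := Nat.card (D.Pe x0 l) with hr
  have hconst : ∀ x, D.I x l → Nat.card (D.Pe x l) = r := by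
    intro x hx
    obtain ⟨g, hgl', hgx⟩ := hgl x0 x hx0 hx
    have e : D.Pe x0 l ≃ D.Pe x l :=
      { toFun := fun u => ⟨g * u.1 * g⁻¹, by
          have := Pe_conj u.2 g
          rwa [hgl', hgx] at this⟩
        invFun := fun u => ⟨g⁻¹ * u.1 * g, by
          have := Pe_conj u.2 g⁻¹
          rw [inv_inv] at this
          rwa [show g⁻¹ • l = l by rw [inv_smul_eq_iff, hgl'],
            show g⁻¹ • x = x0 by rw [inv_smul_eq_iff, hgx]] at this⟩
        left_inv := fun u => by
          apply Subtype.ext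
          change g⁻¹ * (g * u.1 * g⁻¹) * g = u.1
          group
        right_inv := fun u => by
          apply Subtype.ext
          change g * (g⁻¹ * u.1 * g) * g⁻¹ = u.1
          group }
    exact (Nat.card_congr e).symm
  have hsub : ∀ K : Subgroup G, Nat.card {g : G // g ∈ K ∧ g ≠ 1} = Nat.card K - 1 := by
    intro K
    have := Fintype.ofFinite K
    have e : {g : G // g ∈ K ∧ g ≠ 1} ≃ {g : K // g ≠ 1} :=
      { toFun := fun g => ⟨⟨g.1, g.2.1⟩, fun h => g.2.2 (congrArg Subtype.val h)⟩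
        invFun := fun g => ⟨g.1.1, g.1.2, fun h => g.2 (Subtype.ext h)⟩
        left_inv := fun g => rfl
        right_inv := fun g => rfl }
    rw [Nat.card_congr e, Nat.card_eq_fintype_card, Nat.card_eq_fintype_card,
      Fintype.card_subtype_compl, Fintype.card_subtype_eq]
  have hE : Nat.card (D.dual.Ec l) - 1 = (D.k + 1) * (r - 1) := by
    rw [← hsub]
    have e : (Σ x : {q : P // D.I q l}, {g : G // g ∈ D.Pe x.1 l ∧ g ≠ 1}) ≃
        {g : G // g ∈ D.dual.Ec l ∧ g ≠ 1} := by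
      refine Equiv.ofBijective (fun u => ⟨u.2.1, Pe_le_dual u.1.2 u.2.2.1, u.2.2.2⟩) ⟨?_, ?_⟩
      · rintro ⟨⟨x, hx⟩, ⟨g, hg, hg1⟩⟩ ⟨⟨y, hy⟩, ⟨g', hg', hg1'⟩⟩ hgg
        have h1 : g = g' := congrArg Subtype.val hgg
        subst h1
        have h2 : x = y := ce_uniq hg1 (mem_Pe.1 hg).2 (mem_Pe.1 hg').2
        subst h2
        rfl
      · rintro ⟨g, hg, hg1⟩
        have hgax : D.Ax g l := hg.1
        obtain ⟨u, hu⟩ := hgax.exists_ce
        have hul : D.I u l := Ec_ax (D := D.dual) hg hu hg1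
        exact ⟨⟨⟨u, hul⟩, ⟨g, ⟨hgax, hu⟩, hg1⟩⟩, rfl⟩
    rw [← Nat.card_congr e]
    have := Fintype.ofFinite G
    rw [Nat.card_sigma]
    have e2 : ∀ x : {q : P // D.I q l}, Nat.card {g : G // g ∈ D.Pe x.1 l ∧ g ≠ 1} = r - 1 := by
      intro x
      rw [hsub, hconst x.1 x.2]
    rw [Finset.sum_congr rfl fun x _ => e2 x, Finset.sum_const, Finset.card_univ, smul_eq_mul,
      ← Nat.card_eq_fintype_card, D.cp]
  obtain ⟨i, hi⟩ := pp_of_exp hp hexp
  obtain ⟨j, hj⟩ := pp_of_exp (K := D.Pe x0 l) hp (fun g hg => hexp g (Pe_le_dual hx0 hg))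
  have hj0 : j ≠ 0 := by
    rintro rfl
    rw [pow_zero] at hj
    exact h x0 l hx0 (Subgroup.card_eq_one.1 hj)
  have hE0 : 0 < Nat.card (D.dual.Ec l) := Nat.card_pos
  have hk := nt (k := D.k) (r := r) (i := i) (j := j) hp (by have := D.k2; omega)
    (by rw [hr, hj]) hj0 (D.Pe_dvd hx0) (by rw [← hE, ← hi]; omega)
    (by rw [← hi]; exact D.dual.Ec_dvd l)
  rw [hr, hj] at hk
  exact D.pp_k hp hk

theorem main [Finite G] (hH1 : D.H1) (hodd : Odd D.k)
    (hH2 : ∀ x y : P, x ≠ y → ∃ τ : G, τ * τ = 1 ∧ τ ≠ 1 ∧ τ • x = x ∧ τ • y = y) :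
    IsPrimePow D.k := by
  by_cases hk : D.k = 3
  · rw [hk]
    exact Nat.prime_three.isPrimePow
  have hax := all_axes hH1 hodd hk hH2
  by_cases h5a : ∃ x l, D.I x l ∧ D.Ec x ≠ ⊥ ∧ D.Pe x l = ⊥
  · obtain ⟨x, l, h1, h2, h3⟩ := h5a
    exact five_a hH1 hodd hax h2 h1 h3
  have h5 : ∀ x l, D.I x l → D.Ec x ≠ ⊥ → D.Pe x l ≠ ⊥ := by
    intro x l h1 h2 h3
    exact h5a ⟨x, l, h1, h2, h3⟩
  by_cases h0 : ∀ x, D.Ec x = ⊥
  · exact (friend hH1 hodd hax h0).elim
  obtain ⟨y, hy⟩ := not_forall.1 h0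
  by_cases hall : ∀ x, D.Ec x ≠ ⊥
  · exact full fun x l hxl => h5 x l hxl (hall x)
  obtain ⟨w, hw⟩ := not_forall.1 hall
  rw [not_not] at hw
  by_cases h2 : ∃ y2, y2 ≠ y ∧ D.Ec y2 ≠ ⊥
  · obtain ⟨y2, h2, h3⟩ := h2
    exact mixed2 hH1 hodd hax h5 hw h2 h3 hy
  · refine mixed3 hH1 hodd hax h5 hy fun v hv => ?_
    by_contra hne
    exact h2 ⟨v, hne, hv⟩

end PA

open Configuration Configuration.ProjectivePlane

/-- Theorem X (interface) -/
theorem thmX {G P L : Type*} [Group G] [Finite G] [MulAction G P] [MulAction G L]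
    [Membership P L] [Finite P] [Finite L] [ProjectivePlane P L]
    (hinc : ∀ (g : G) (p : P) (l : L), g • p ∈ g • l ↔ p ∈ l)
    (faith : ∀ g : G, (∀ p : P, g • p = p) → g = 1)
    (hodd : Odd (order P L))
    (H1 : ∀ τ : G, τ * τ = 1 → τ ≠ 1 → ∃ a : L, ∀ p : P, p ∈ a → τ • p = p)
    (H2 : ∀ x y : P, x ≠ y → ∃ τ : G, τ * τ = 1 ∧ τ ≠ 1 ∧ τ • x = x ∧ τ • y = y) :
    IsPrimePow (order P L) := by
  classical
  have := Fintype.ofFinite P
  have := Fintype.ofFinite L
  have hfix : ∀ (g : G), (∀ l : L, g • l = l) → ∀ p : P, g • p = p := by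
    intro g hg p
    have h2 : 1 < lineCount L p := by
      have := two_lt_lineCount (L := L) p
      omega
    obtain ⟨l, m, hlm⟩ : ∃ l m : {l : L // p ∈ l}, l ≠ m := by
      have : Nontrivial {l : L // p ∈ l} := Finite.one_lt_card_iff_nontrivial.1 h2
      exact exists_pair_ne _
    have hlm' : l.1 ≠ m.1 := fun h => hlm (Subtype.ext h)
    have e1 : g • p ∈ l.1 := by
      have := (hinc g p l.1).2 l.2
      rwa [hg] at this
    have e2 : g • p ∈ m.1 := by
      have := (hinc g p m.1).2 m.2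
      rwa [hg] at this
    exact (Nondegenerate.eq_or_eq e1 l.2 e2 m.2).resolve_right hlm'
  let D : PA G P L :=
    { I := fun p l => p ∈ l
      inc := hinc
      join := fun p q hpq => ⟨HasLines.mkLine hpq, (HasLines.mkLine_ax hpq).1,
        (HasLines.mkLine_ax hpq).2⟩
      meet := fun l m hlm => ⟨HasPoints.mkPoint hlm, (HasPoints.mkPoint_ax hlm).1,
        (HasPoints.mkPoint_ax hlm).2⟩
      uniq := fun {p q l m} h1 h2 h3 h4 => Nondegenerate.eq_or_eq h1 h2 h3 h4
      k := order P L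
      k2 := one_lt_order P L
      cp := fun l => pointCount_eq P l
      cl := fun p => lineCount_eq L p
      cP := by rw [Nat.card_eq_fintype_card]; exact card_points P L
      cL := by rw [Nat.card_eq_fintype_card]; exact card_lines P L
      faithP := faith
      faithL := fun g hg => faith g (hfix g hg) }
  exact PA.main (D := D) (fun τ h1 h2 => H1 τ h1 h2) hodd H2

end H50.OW
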