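import Cfsg.Agent.Lib.H50.OrthMinusFam
import Cfsg.Agent.Lib.H48.OutO8

/-!
Class counts in even dimension.
-/

set_option autoImplicit false
set_option linter.unusedSectionVars false

namespace H50.OrthCountE

open Matrix H48.OutO H50.PSLBasic H50.PSLField H50.H90 H50.ClassCount H50.PSLCount H48.QuadSplit H48.QuadStd
  H50.OrthPsi H50.OrthDesc H48.OmegaPlus H50.OrthSim H18.MaxSing H50.OrthPar H50.OrthProper H50.OrthMinusK H50.OrthField
  H50.OrthInn H50.OrthOddCount H50.OrthEven H50.OrthMinusFam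

section count

variable {F : Type*} [Field F] [Fintype F] {ι : Type} [Fintype ι] [DecidableEq ι] {Q : QuadraticForm F (ι → F)} {n : ℕ}

/-- the count is one if the proper similarities lie in `Inn ⊔ C` -/
lemma count_one_iff (x₀ : MulAut (Cfsg.POmega F (⇑Q)))
    (h : ∀ g ∈ DP Q n, psi1 Q g ∈ Cfsg.Inn (Cfsg.POmega F (⇑Q)) ⊔ Subgroup.centralizer {x₀}) :
    Cfsg.splitClassCount ((DP Q n).map (psi1 Q)) (Cfsg.Inn (Cfsg.POmega F (⇑Q))) x₀ = 1 := by
  rw [count_eq, Subgroup.index_eq_one, eq_top_iff]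
  rintro ⟨g, hg⟩ -
  exact h g hg

lemma count_two (h2 : (2 : F) = 0) (x₀ : MulAut (Cfsg.POmega F (⇑Q))) :
    Cfsg.splitClassCount ((DP Q n).map (psi1 Q)) (Cfsg.Inn (Cfsg.POmega F (⇑Q))) x₀ = 1 := by
  apply count_one_iff
  intro g hg
  rw [DP_two h2] at hg
  exact (le_sup_left : Cfsg.Inn (Cfsg.POmega F (⇑Q)) ≤ _) hg

variable {F₀ : Type*} [Field F₀] [Fintype F₀] {ι' : Type} [Fintype ι'] [DecidableEq ι'] {j : F₀ →+* F}
  {Q₁₀ : QuadraticForm F₀ (ι' → F₀)} {Q₁ : QuadraticForm F (ι' → F)} {P₀ : (ι' → F) ≃ₗ[F] (ι → F)} {y₀ : ↥(Gam Q)}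

/-- reflections in rational vectors commute with a descended element -/
lemma refl_cent (hj : ∀ c, (y₀ : GA ι F).right (j c) = j c) (hd : Desc Q (y₀ : GA ι F) Q₁ P₀)
    (v : ι' → F₀) (hv : Q (P₀ (jv j v)) ≠ 0) :
    psi1 Q (isoG Q (H17.OrthDet.refl Q _ hv)) ∈ Subgroup.centralizer {Psi Q y₀} := by
  obtain ⟨w₀, hw₀⟩ := hd.a
  have h2 : ap (y₀ : GA ι F) (P₀ (jv j v)) = (w₀ : F) • P₀ (jv j v) := by
    rw [hw₀]
    congr 2
    funext i
    exact hj _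
  have h3 := congrArg (Psi Q) (Rf_comm hv h2)
  rw [map_mul, map_mul, map_inv, mul_inv_eq_iff_eq_mul] at h3
  rw [psi1_refl, Subgroup.mem_centralizer_singleton_iff]
  exact h3.symm

/-- the count in the case of odd `r` -/
theorem count_odd_order (h2 : (2 : F) ≠ 0) (hQ : (QuadraticMap.polarBilin Q).Nondegenerate) (hc : Fintype.card ι = 2 * n)
    (hn : 7 ≤ Fintype.card ι) (hQ₁₀ : (QuadraticMap.polarBilin Q₁₀).Nondegenerate) (hc' : Fintype.card ι' = 2 * n)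
    {r : ℕ} (hr : orderOf (y₀ : GA ι F).right = r) (hr0 : 0 < r)
    (hj : ∀ x, (∃ c, j c = x) ↔ (y₀ : GA ι F).right x = x) (ho : Ovr j Q₁₀ Q₁) (hd : Desc Q (y₀ : GA ι F) Q₁ P₀)
    (hrodd : Odd r) (hcard : Fintype.card F = Fintype.card F₀ ^ r)
    (hsim : ∀ c : F₀, c ≠ 0 → ∃ d : ↥(simG Q₁₀), ∀ v, Q₁₀ (((d : GL ι' F₀) : Matrix ι' ι' F₀) *ᵥ v) = c * Q₁₀ v) :
    Cfsg.splitClassCount ((DP Q n).map (psi1 Q)) (Cfsg.Inn (Cfsg.POmega F (⇑Q))) (Psi Q y₀) = 1 := by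
  have h20 : (2 : F₀) ≠ 0 := by
    intro h
    apply h2
    have := congrArg j h
    rwa [map_ofNat, map_zero] at this
  have hn' : 7 ≤ Fintype.card ι' := by omega
  have hfr : Module.finrank F₀ (ι' → F₀) = Fintype.card ι' := Module.finrank_fintype_fun_eq_card F₀
  obtain ⟨a, ha⟩ := H48.FinFieldSq.exists_not_isSquare h20
  have ha0 : a ≠ 0 := by
    rintro rfl
    exact ha IsSquare.zero
  obtain ⟨v, hv⟩ := exists_eq (nd_iff.mpr hQ₁₀) (by omega) (one_ne_zero (α := F₀))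
  obtain ⟨w, hw⟩ := exists_eq (nd_iff.mpr hQ₁₀) (by omega) ha0
  have hv0 : Q₁₀ v ≠ 0 := by rw [hv]; exact one_ne_zero
  have hne : ∃ v, Q₁₀ v ≠ 0 := ⟨v, hv0⟩
  obtain ⟨ν, hν⟩ := hd.q
  have hQv : Q (P₀ (jv j v)) = ν := by rw [hν, ho, hv, map_one, mul_one]
  have hQw : Q (P₀ (jv j w)) = ν * j a := by rw [hν, ho, hw]
  have hv1 : Q (P₀ (jv j v)) ≠ 0 := by rw [hQv]; exact ν.ne_zero
  have hw1 : Q (P₀ (jv j w)) ≠ 0 := by rw [hQw]; exact mul_ne_zero ν.ne_zero ((map_ne_zero j).mpr ha0)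
  have hvw : ¬ IsSquare (Q (P₀ (jv j v)) * Q (P₀ (jv j w))) := by
    rw [hQv, hQw]
    intro h
    apply ha
    rw [← isSquare_iff_of_odd j hrodd hcard]
    obtain ⟨t, ht⟩ := h
    refine ⟨t * (ν : F)⁻¹, ?_⟩
    have := ν.ne_zero
    field_simp
    linear_combination ht
  -- a proper similarity over the small field with non-square multiplier
  obtain ⟨d, hd1, hd2⟩ : ∃ d : ↥(simG Q₁₀), d ∈ DP Q₁₀ n ∧
      ∀ v, Q₁₀ (((d : GL ι' F₀) : Matrix ι' ι' F₀) *ᵥ v) = a * Q₁₀ v := by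
    obtain ⟨d, hd⟩ := hsim a ha0
    rcases DP_or hQ₁₀ hc' hn' d hv0 with h | h
    · exact ⟨d, h, hd⟩
    · refine ⟨_, h, fun u => ?_⟩
      rw [Subgroup.coe_mul, Units.val_mul, ← Matrix.mulVec_mulVec, hd, isoG_coe,
        (H17.OrthDet.mem_isometryGroup_iff _ _).mp (H17.OrthDet.refl Q₁₀ v hv0).2]
  have hneQ : ∃ v, Q v ≠ 0 := ⟨_, hv1⟩
  have hd3 : fHom ho hne hd.q d ∈ DP Q n := by
    rw [← Subgroup.mem_comap, DP_fHom hQ hn hQ₁₀ hn' hneQ ho hne hd.q]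
    exact hd1
  apply count_one_iff
  intro g hg
  refine mem_of_gens hQ h2 hc hn hd3 (c := j a) (mult_fHom ho hd.q d.1 hd2) ?_ hv1 hw1 hvw le_sup_left ?_ ?_ hg
  · rw [isSquare_iff_of_odd j hrodd hcard]; exact ha
  · apply (le_sup_right : Subgroup.centralizer {Psi Q y₀} ≤ _)
    rw [cent_iff hQ hn hr hr0 hj ho hne hd]
    exact ⟨1, d, by rw [map_one, one_mul]⟩
  · apply (le_sup_right : Subgroup.centralizer {Psi Q y₀} ≤ _)
    rw [map_mul, map_mul]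
    exact mul_mem (refl_cent (fun c => (hj _).mp ⟨c, rfl⟩) hd v hv1) (refl_cent (fun c => (hj _).mp ⟨c, rfl⟩) hd w hw1)

end count

section minus

universe u v

variable {F : Type u} [Field F] [Fintype F] {m : ℕ} {a b : F}

theorem s2716 (hm : 3 ≤ m) (hab : An a b) {p f : ℕ} [Fact p.Prime] (hF : Fintype.card F = p ^ f)
    {F₀ : Type v} [Field F₀] [Fintype F₀] :
    ∀ (x : MulAut (Cfsg.POmega F (⇑(qMinus m F a b)))) (_ : FCM (⇑(qMinus m F a b)) x) {r : ℕ}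
      (_ : r.Prime) (_ : orderOf x = r) (_ : Fintype.card F₀ = p ^ (f / r)),
      Odd r ∧ r ∣ f ∧ (∃ a₀ b₀ : F₀, (∀ z₁ z₂ : F₀, z₁ ^ 2 + a₀ * z₁ * z₂ + b₀ * z₂ ^ 2 = 0 → z₁ = 0 ∧ z₂ = 0) ∧
        Nonempty (↥(inndF (⇑(qMinus m F a b)) (Cfsg.PreservesSingularClassesMinus m a b) ⊓ Subgroup.centralizer {x}) ≃*
          ↥(Cfsg.inndiagPOmegaMinus m F₀ a₀ b₀))) ∧
      Cfsg.splitClassCount (inndF (⇑(qMinus m F a b)) (Cfsg.PreservesSingularClassesMinus m a b))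
        (Cfsg.Inn (Cfsg.POmega F (⇑(qMinus m F a b)))) x = 1 := by
  intro x hx r hr hxr hc
  obtain ⟨α, y₀, a', b', P, h1, h2, h3, h4, h5, h6, h7⟩ := minus_class hm hab hx
  rw [hxr] at h4
  set σ := (y₀ : GA ((Fin m ⊕ Fin m) ⊕ Fin 2) F).right with hσ
  have hFn : Nat.card F = p ^ f := by rw [Nat.card_eq_fintype_card, hF]
  have hchar : CharP F p := H50.FieldAut.charP_of_card p hFn
  have hrf : r ∣ f := by
    rw [← h4, ← H50.FieldAut.card_ringAut p hFn]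
    exact orderOf_dvd_natCard σ
  have hfix : Nat.card (H49.FixedField.fixedField σ) = p ^ (f / r) :=
    H49.FixedField.card_fixedField σ hr.ne_zero (by rw [hFn, ← pow_mul, Nat.div_mul_cancel hrf]) h4
  obtain ⟨j, hj⟩ := exists_embedding (F₀ := F₀) σ (by rw [Nat.card_eq_fintype_card, hc, hfix])
  obtain ⟨a₀, ha₀⟩ := (hj a').mpr h2
  obtain ⟨b₀, hb₀⟩ := (hj b').mpr h3
  rw [← ha₀, ← hb₀] at h1 h7
  have h₀ : An a₀ b₀ := An.of_map j h1
  have hcard : Fintype.card F = Fintype.card F₀ ^ r := by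
    rw [hF, hc, ← pow_mul, Nat.div_mul_cancel hrf]
  have hrodd : Odd r := by
    rcases hr.eq_two_or_odd' with h | h
    · exfalso
      subst h
      obtain ⟨l, hl⟩ := exists_root j hcard a₀ b₀
      exact An.no_root h1 l hl
    · exact h
  have hN := inndM_normal hm hab
  have hNI : (Cfsg.Inn (Cfsg.POmega F (⇑(qMinus m F a b)))).Normal := inferInstance
  rw [inndM_eq hm hab]
  refine ⟨hrodd, hrf, ⟨a₀, b₀, h₀, ?_⟩, ?_⟩
  · have h8 : Nonempty (↥((DP (qMinus m F a b) (m + 1)).map (psi1 (qMinus m F a b)) ⊓ Subgroup.centralizer {x}) ≃*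
          ↥(inndF (⇑(qMinus m F₀ a₀ b₀)) (Cfsg.PreservesSingularClassesMinus m a₀ b₀))) := by
      rw [inndM_eq hm h₀]
      obtain ⟨e⟩ := cent_equiv (nd_minus' hab) (card_minus_ge hm) (nd_minus' h₀) (card_minus_ge hm) (y := y₀) h4 hr.pos hj
        (ovr_qMinus j m a₀ b₀) (hne_minus m a₀ b₀) h7 (DP (qMinus m F a b) (m + 1)) (scG_mem_DP (card_minus' m))
      have e' := centralizerConj ((DP (qMinus m F a b) (m + 1)).map (psi1 (qMinus m F a b))) α x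
      rw [h6] at e'
      rw [DP_fHom (nd_minus' hab) (card_minus_ge hm) (nd_minus' h₀) (card_minus_ge hm) (hne_minus m a b)] at e
      exact ⟨e'.symm.trans e⟩
    rw [coe_qMinus m a₀ b₀] at h8
    exact h8
  · rw [← splitClassCount_conj _ _ α x, h6]
    by_cases h2' : (2 : F) = 0
    · exact count_two h2' _
    · refine count_odd_order h2' (nd_minus' hab) (card_minus' m) (card_minus_ge hm) (nd_minus' h₀) (card_minus' m) h4 hr.pos hj
        (ovr_qMinus j m a₀ b₀) h7 hrodd hcard ?_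
      intro c hc0
      obtain ⟨d, hd1, hd2⟩ := exists_d_minus (m := m) h₀ hc0
      obtain ⟨g, rfl⟩ := exists_toGam hd1
      exact ⟨g, hd2⟩

end minus

end H50.OrthCountE
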