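import Cfsg.Agent.Lib.H50.OrthPlusFam

/-!
Class counts for automorphisms with field part of order two, odd characteristic, even dimension.
-/

set_option autoImplicit false
set_option linter.unusedSectionVars false
set_option maxHeartbeats 400000

namespace H50.OrthCountTwo

open Matrix H48.OutO H50.PSLBasic H50.PSLField H50.H90 H50.ClassCount H50.PSLCount H48.QuadSplit H48.QuadStd
  H50.OrthPsi H50.OrthDesc H48.OmegaPlus H50.OrthSim H18.MaxSing H50.OrthPar H50.OrthProper H50.OrthMinusK H50.OrthField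
  H50.OrthInn H50.OrthOddCount H50.OrthEven H50.OrthMinusFam H50.OrthCountE H50.OrthPlusFam

section abs

variable {G : Type*} [Group G] {H K D : Subgroup G}

lemma index_four (hHD : H ≤ D) {t : G} (ht : t ∈ D) (htH : t ∉ H) (hor : ∀ b ∈ D, b ∈ H ∨ b * t ∈ H)
    (hi : D.index = 2) : H.index = 4 := by
  rw [← Subgroup.relIndex_mul_index hHD, hi]
  have : H.relIndex D = 2 := by
    change (H.subgroupOf D).index = 2
    rw [Subgroup.index_eq_two_iff]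
    refine ⟨⟨t, ht⟩, fun b => ?_⟩
    rw [Subgroup.mem_subgroupOf, Subgroup.mem_subgroupOf]
    change Xor (b.1 * t ∈ H) (b.1 ∈ H)
    by_cases hb : b.1 ∈ H
    · right
      exact ⟨hb, fun h => htH ((Subgroup.mul_mem_cancel_left H hb).mp h)⟩
    · left
      exact ⟨(hor b.1 b.2).resolve_left hb, hb⟩
  rw [this]

lemma index_two_of (hHK : H ≤ K) (hKD : K ≤ D) {t : G} (hor : ∀ b ∈ D, b ∈ H ∨ b * t ∈ H)
    (hi : D.index = 2) {g : G} (hgK : g ∈ K) (hgH : g ∉ H) : K.index = 2 := by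
  have hK : K = D := by
    apply le_antisymm hKD
    intro b hb
    rcases hor b hb with h | h
    · exact hHK h
    · have h5 := (hor _ (hKD hgK)).resolve_left hgH
      have h6 : b = (b * t) * (g * t)⁻¹ * g := by group
      rw [h6]
      exact mul_mem (mul_mem (hHK h) (inv_mem (hHK h5))) hgK
  rw [hK, hi]

end abs

section gen

variable {F : Type*} [Field F] [Fintype F] {ι : Type} [Fintype ι] [DecidableEq ι] {Q : QuadraticForm F (ι → F)} {n : ℕ}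

/-- similarities with square multiplier -/
def SQ (hne : ∃ v, Q v ≠ 0) : Subgroup ↥(simG Q) where
  carrier := {g | ∃ c : F, IsSquare c ∧ ∀ v, Q (((g : GL ι F) : Matrix ι ι F) *ᵥ v) = c * Q v}
  one_mem' := ⟨1, IsSquare.one, fun v => by
    change Q ((1 : Matrix ι ι F) *ᵥ v) = _
    rw [Matrix.one_mulVec, one_mul]⟩
  mul_mem' := by
    rintro g h ⟨c, hc1, hc2⟩ ⟨e, he1, he2⟩
    refine ⟨c * e, hc1.mul he1, fun v => ?_⟩
    change Q ((((g : GL ι F) : Matrix ι ι F) * ((h : GL ι F) : Matrix ι ι F)) *ᵥ v) = _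
    rw [← Matrix.mulVec_mulVec, hc2, he2, mul_assoc]
  inv_mem' := by
    rintro g ⟨c, hc1, hc2⟩
    obtain ⟨v, hv⟩ := hne
    refine ⟨c⁻¹, hc1.inv, fun u => ?_⟩
    have hg : ((g : GL ι F) : Matrix ι ι F) * (((g : GL ι F)⁻¹ : GL ι F) : Matrix ι ι F) = 1 := by
      rw [← Units.val_mul, mul_inv_cancel, Units.val_one]
    have h := hc2 ((((g : GL ι F)⁻¹ : GL ι F) : Matrix ι ι F) *ᵥ u)
    rw [Matrix.mulVec_mulVec, hg, Matrix.one_mulVec] at h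
    have hc0 : c ≠ 0 := by
      rintro rfl
      have h' := hc2 ((((g : GL ι F)⁻¹ : GL ι F) : Matrix ι ι F) *ᵥ v)
      rw [Matrix.mulVec_mulVec, hg, Matrix.one_mulVec, zero_mul] at h'
      exact hv h'
    change Q ((((g : GL ι F)⁻¹ : GL ι F) : Matrix ι ι F) *ᵥ u) = _
    rw [h, ← mul_assoc, inv_mul_cancel₀ hc0, one_mul]

lemma mem_SQ (hne : ∃ v, Q v ≠ 0) {g : ↥(simG Q)} {c : F}
    (hg : ∀ v, Q (((g : GL ι F) : Matrix ι ι F) *ᵥ v) = c * Q v) : g ∈ SQ hne ↔ IsSquare c := by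
  constructor
  · rintro ⟨e, he1, he2⟩
    rw [mult_unique' hne hg he2]; exact he1
  · intro h; exact ⟨c, h, hg⟩

/-- isometries inducing inner automorphisms when `-1 ∈ Ω` -/
lemma iso_inn_iff (hQ : (QuadraticMap.polarBilin Q).Nondegenerate) (hn : 7 ≤ Fintype.card ι) (hneg : NegMem Q)
    (s : ↥(Cfsg.isometryGroup F (⇑Q))) :
    psi1 Q (isoG Q s) ∈ Cfsg.Inn (Cfsg.POmega F (⇑Q)) ↔ s ∈ Cfsg.Omega F (⇑Q) := by
  rw [inn_iff hQ hn]
  constructor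
  swap
  · intro h
    exact ⟨1, s, h, by rw [map_one, one_mul]⟩
  rintro ⟨u, s', hs', h⟩
  have hfr : Module.finrank F (ι → F) = Fintype.card ι := Module.finrank_fintype_fun_eq_card F
  obtain ⟨v, hv⟩ := exists_eq (nd_iff.mpr hQ) (by omega) (one_ne_zero (α := F))
  have h3 : ∀ w, (((s : GL ι F) : Matrix ι ι F) *ᵥ w) = (u : F) • (((s' : GL ι F) : Matrix ι ι F) *ᵥ w) := by
    intro w
    have h4 := congrArg (fun z : ↥(simG Q) => ((z : GL ι F) : Matrix ι ι F) *ᵥ w) h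
    refine h4.trans ?_
    change ((scG Q u : ↥(simG Q)).1 * (isoG Q s').1 : GL ι F).1 *ᵥ w = _
    rw [Units.val_mul, ← Matrix.mulVec_mulVec, scG_coe, sc_mulVec, isoG_coe]
  have h5 : (u : F) * u = 1 := by
    have h6 := congrArg Q (h3 v)
    rw [(H17.OrthDet.mem_isometryGroup_iff _ _).mp s.2, QuadraticMap.map_smul,
      (H17.OrthDet.mem_isometryGroup_iff _ _).mp s'.2, hv, smul_eq_mul, mul_one] at h6
    exact h6.symm
  rcases mul_self_eq_one_iff.mp h5 with h6 | h6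
  · have : s = s' := by
      apply Subtype.ext
      apply gl_ext
      intro w
      rw [h3, h6, one_smul]
    rw [this]; exact hs'
  · obtain ⟨g, hg, hg1⟩ := hneg
    have : s = g * s' := by
      apply Subtype.ext
      apply gl_ext
      intro w
      rw [h3, h6, Subgroup.coe_mul, Units.val_mul, ← Matrix.mulVec_mulVec, hg1, Matrix.neg_mulVec, Matrix.one_mulVec,
        neg_smul, one_smul]
    rw [this]
    exact mul_mem hg hs'

/-- the count for a centralizer all of whose proper similarities have square multiplier -/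
theorem count_of (h2 : (2 : F) ≠ 0) (hQ : (QuadraticMap.polarBilin Q).Nondegenerate) (hc : Fintype.card ι = 2 * n)
    (hn : 7 ≤ Fintype.card ι) (hneg : NegMem Q) {d : ↥(simG Q)} (hd : d ∈ DP Q n) {c₁ : F}
    (hd1 : ∀ v, Q (((d : GL ι F) : Matrix ι ι F) *ᵥ v) = c₁ * Q v) (hc₁ : ¬ IsSquare c₁)
    (x₀ : MulAut (Cfsg.POmega F (⇑Q)))
    (hsq : ∀ g ∈ DP Q n, psi1 Q g ∈ Subgroup.centralizer {x₀} →
      ∃ c : F, IsSquare c ∧ ∀ v, Q (((g : GL ι F) : Matrix ι ι F) *ᵥ v) = c * Q v) :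
    ((∃ g ∈ DP Q n, psi1 Q g ∈ Subgroup.centralizer {x₀} ∧ psi1 Q g ∉ Cfsg.Inn (Cfsg.POmega F (⇑Q))) →
      Cfsg.splitClassCount ((DP Q n).map (psi1 Q)) (Cfsg.Inn (Cfsg.POmega F (⇑Q))) x₀ = 2) ∧
    ((∀ g ∈ DP Q n, psi1 Q g ∈ Subgroup.centralizer {x₀} → psi1 Q g ∈ Cfsg.Inn (Cfsg.POmega F (⇑Q))) →
      Cfsg.splitClassCount ((DP Q n).map (psi1 Q)) (Cfsg.Inn (Cfsg.POmega F (⇑Q))) x₀ = 4) := by
  have hfr : Module.finrank F (ι → F) = Fintype.card ι := Module.finrank_fintype_fun_eq_card F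
  obtain ⟨a, ha⟩ := H48.FinFieldSq.exists_not_isSquare h2
  have ha0 : a ≠ 0 := by
    rintro rfl
    exact ha IsSquare.zero
  obtain ⟨v, hv⟩ := exists_eq (nd_iff.mpr hQ) (by omega) (one_ne_zero (α := F))
  obtain ⟨w, hw⟩ := exists_eq (nd_iff.mpr hQ) (by omega) ha0
  have hv0 : Q v ≠ 0 := by rw [hv]; exact one_ne_zero
  have hw0 : Q w ≠ 0 := by rw [hw]; exact ha0
  have hne : ∃ v, Q v ≠ 0 := ⟨v, hv0⟩
  have hvw : ¬ IsSquare (Q v * Q w) := by rw [hv, hw, one_mul]; exact ha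
  set t₀ := H17.OrthDet.refl Q v hv0 * H17.OrthDet.refl Q w hw0 with ht₀
  have ht₀n : t₀ ∉ Cfsg.Omega F (⇑Q) := by
    rw [ht₀, refl2_mem_iff h2 hQ (by omega)]
    exact hvw
  have htm : ∀ u, Q (((isoG Q t₀ : ↥(simG Q)) : GL ι F).1 *ᵥ u) = 1 * Q u := by
    intro u
    rw [one_mul, isoG_coe]
    exact (H17.OrthDet.mem_isometryGroup_iff _ _).mp t₀.2 u
  have ht : isoG Q t₀ ∈ DP Q n := by
    rw [DP_odd h2]
    exact ⟨1, by simpa using htm, by rw [Units.val_one, one_pow, isoG_coe]; exact det_refl2 h2 hQ hv0 hw0⟩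
  obtain ⟨H, hH⟩ : ∃ H : Subgroup ↥(DP Q n), ∀ b, b ∈ H ↔ psi1 Q b.1 ∈ Cfsg.Inn (Cfsg.POmega F (⇑Q)) :=
    ⟨(Cfsg.Inn (Cfsg.POmega F (⇑Q))).comap ((psi1 Q).comp (DP Q n).subtype), fun _ => Iff.rfl⟩
  obtain ⟨K, hKe, hK⟩ : ∃ K : Subgroup ↥(DP Q n),
      ((Cfsg.Inn (Cfsg.POmega F (⇑Q)) ⊔ Subgroup.centralizer {x₀}).comap ((psi1 Q).comp (DP Q n).subtype)) = K ∧
      ∀ b, b ∈ K ↔ psi1 Q b.1 ∈ Cfsg.Inn (Cfsg.POmega F (⇑Q)) ⊔ Subgroup.centralizer {x₀} :=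
    ⟨_, rfl, fun _ => Iff.rfl⟩
  obtain ⟨D2, hD2⟩ : ∃ D : Subgroup ↥(DP Q n), ∀ b, b ∈ D ↔ b.1 ∈ SQ hne :=
    ⟨(SQ hne).comap (DP Q n).subtype, fun _ => Iff.rfl⟩
  have hD2i : D2.index = 2 := by
    rw [Subgroup.index_eq_two_iff]
    refine ⟨⟨d, hd⟩, fun b => ?_⟩
    obtain ⟨cb, hcb⟩ := b.1.2
    have hbd : ∀ v, Q (((b.1 * d : ↥(simG Q)) : GL ι F).1 *ᵥ v) = (cb * c₁) * Q v := by
      intro u
      rw [Subgroup.coe_mul, Units.val_mul, ← Matrix.mulVec_mulVec, hcb, hd1, mul_assoc]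
    have e1 : (b * ⟨d, hd⟩ ∈ D2) ↔ IsSquare ((cb : F) * c₁) := (hD2 _).trans (mem_SQ hne hbd)
    have e2 : b ∈ D2 ↔ IsSquare (cb : F) := (hD2 _).trans (mem_SQ hne hcb)
    rw [e1, e2]
    by_cases h : IsSquare (cb : F)
    · right
      refine ⟨h, fun h1 => hc₁ ?_⟩
      obtain ⟨e, he⟩ := h
      obtain ⟨e', he'⟩ := h1
      have he0 : e ≠ 0 := by
        rintro rfl
        rw [mul_zero] at he
        exact cb.ne_zero he
      refine ⟨e' / e, ?_⟩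
      field_simp
      linear_combination he' - c₁ * he
    · left
      exact ⟨H48.FinFieldSq.isSquare_mul_of_not h hc₁, h⟩
  have hHs : ∀ (u : Fˣ) (s : ↥(Cfsg.isometryGroup F (⇑Q))),
      psi1 Q (scG Q u * isoG Q s) ∈ Cfsg.Inn (Cfsg.POmega F (⇑Q)) ↔ s ∈ Cfsg.Omega F (⇑Q) := by
    intro u s
    rw [map_mul, psi1_scG, one_mul, iso_inn_iff hQ hn hneg]
  have hHor : ∀ b ∈ D2, b ∈ H ∨ b * ⟨isoG Q t₀, ht⟩ ∈ H := by
    intro b hb
    obtain ⟨c, hc1, hc2⟩ := (hD2 b).mp hb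
    obtain ⟨u, s, -, hs, hbs⟩ := sq_decomp hQ h2 hc hne b.2 hc2 hc1
    rcases omega_dich h2 hQ hn s hs hv0 hw0 hvw with h | h
    · left
      rw [hH, hbs, hHs]; exact h
    · right
      rw [hH]
      have e1 : (b * ⟨isoG Q t₀, ht⟩ : ↥(DP Q n)).1 = scG Q u * isoG Q (s * t₀) := by
        change b.1 * isoG Q t₀ = _
        rw [map_mul (isoG Q) s t₀, ← mul_assoc, ← hbs]
      rw [e1, hHs]; exact h
  have hHD2 : H ≤ D2 := by
    intro b hb
    rw [hH, inn_iff hQ hn] at hb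
    obtain ⟨u, s, -, hbs⟩ := hb
    rw [hD2]
    refine ⟨u * u, ⟨u, rfl⟩, fun x => ?_⟩
    rw [hbs, Subgroup.coe_mul, Units.val_mul, ← Matrix.mulVec_mulVec, scG_coe, sc_mulVec, QuadraticMap.map_smul, isoG_coe,
      (H17.OrthDet.mem_isometryGroup_iff _ _).mp s.2]
    rfl
  have htD2 : (⟨isoG Q t₀, ht⟩ : ↥(DP Q n)) ∈ D2 := (hD2 _).mpr ⟨1, IsSquare.one, htm⟩
  have htH : (⟨isoG Q t₀, ht⟩ : ↥(DP Q n)) ∉ H := by
    intro h
    rw [hH] at h
    have h' := (iso_inn_iff hQ hn hneg t₀).mp h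
    exact ht₀n h'
  have hHK : H ≤ K := fun b hb => by
    rw [hK]
    exact (le_sup_left : Cfsg.Inn (Cfsg.POmega F (⇑Q)) ≤ _) ((hH b).mp hb)
  have hNI : (Cfsg.Inn (Cfsg.POmega F (⇑Q))).Normal := inferInstance
  have hKdec : ∀ b ∈ K, ∃ b' : ↥(DP Q n), b' ∈ H ∧ psi1 Q (b'.1 * b.1) ∈ Subgroup.centralizer {x₀} := by
    intro b hb
    obtain ⟨_, ⟨k, rfl⟩, hk⟩ := mem_inn_sup.mp ((hK b).mp hb)
    obtain ⟨s, rfl⟩ := QuotientGroup.mk_surjective k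
    rw [← psi1_isoG] at hk
    have hsD : isoG Q s.1 ∈ DP Q n := by
      rw [DP_odd h2]
      refine ⟨1, fun v => ?_, ?_⟩
      · rw [isoG_coe, (H17.OrthDet.mem_isometryGroup_iff _ _).mp s.1.2, Units.val_one, one_mul]
      · rw [isoG_coe, det_of_omega h2 hQ hn s.2, Units.val_one, one_pow]
    refine ⟨⟨isoG Q s.1, hsD⟩, ?_, ?_⟩
    · rw [hH, psi1_isoG]
      exact ⟨_, rfl⟩
    · rw [map_mul]
      exact hk
  have hKD2 : K ≤ D2 := by
    intro b hb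
    obtain ⟨b', hb', hk⟩ := hKdec b hb
    have h3 := hsq (b'.1 * b.1) (mul_mem b'.2 b.2) hk
    have h4 : b' * b ∈ D2 := (hD2 _).mpr h3
    exact (Subgroup.mul_mem_cancel_left D2 (hHD2 hb')).mp h4
  rw [count_eq, hKe]
  constructor
  · rintro ⟨g, hg1, hg2, hg3⟩
    have a1 : (⟨g, hg1⟩ : ↥(DP Q n)) ∈ K := by
      rw [hK]
      exact Subgroup.mem_sup_right hg2
    have a2 : (⟨g, hg1⟩ : ↥(DP Q n)) ∉ H := by
      intro h
      rw [hH] at h
      exact hg3 h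
    exact index_two_of hHK hKD2 hHor hD2i a1 a2
  · intro hall
    have hKH : K = H := by
      refine le_antisymm (fun b hb => ?_) hHK
      obtain ⟨b', hb', hk⟩ := hKdec b hb
      have h4 : b' * b ∈ H := (hH _).mpr (hall _ (mul_mem b'.2 b.2) hk)
      exact (Subgroup.mul_mem_cancel_left H hb').mp h4
    rw [hKH]
    exact index_four hHD2 htD2 htH hHor hD2i

end gen

/-! ### descended elements -/

section desc

variable {F : Type*} [Field F] [Fintype F] {ι : Type} [Fintype ι] [DecidableEq ι] {Q : QuadraticForm F (ι → F)} {n : ℕ}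
  {F₀ : Type*} [Field F₀] [Fintype F₀] {ι' : Type} [Fintype ι'] [DecidableEq ι'] {j : F₀ →+* F}
  {Q₁₀ : QuadraticForm F₀ (ι' → F₀)} {Q₁ : QuadraticForm F (ι' → F)} {P₀ : (ι' → F) ≃ₗ[F] (ι → F)} {y₀ : ↥(Gam Q)}

/-- rational proper similarities with square multiplier are inner over the quadratic extension -/
lemma inn_of_sq (h2 : (2 : F) ≠ 0) (h20 : (2 : F₀) ≠ 0) (hQ : (QuadraticMap.polarBilin Q).Nondegenerate)
    (hn : 7 ≤ Fintype.card ι) (hQ₁₀ : (QuadraticMap.polarBilin Q₁₀).Nondegenerate)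
    (hc' : Fintype.card ι' = 2 * n) (hn' : 7 ≤ Fintype.card ι') (ho : Ovr j Q₁₀ Q₁) (hne : ∃ v, Q₁₀ v ≠ 0)
    (hq : ∃ ν : Fˣ, ∀ v, Q (P₀ v) = (ν : F) * Q₁ v) (hcard : Fintype.card F = Fintype.card F₀ ^ 2) {k : ↥(simG Q₁₀)}
    (hk : k ∈ DP Q₁₀ n) {c : F₀} (hkm : ∀ v, Q₁₀ (((k : GL ι' F₀) : Matrix ι' ι' F₀) *ᵥ v) = c * Q₁₀ v) (hc : IsSquare c) :
    psi1 Q (fHom ho hne hq k) ∈ Cfsg.Inn (Cfsg.POmega F (⇑Q)) := by
  have hne' : Nonempty ι' := by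
    rw [← Fintype.card_pos_iff]; omega
  obtain ⟨u, s, -, hdet, rfl⟩ := sq_decomp hQ₁₀ h20 hc' hne hk hkm hc
  obtain ⟨u₁, hu₁⟩ := (fHom_eq_sc_iff ho hne hq (scG Q₁₀ u)).mpr ⟨u, rfl⟩
  obtain ⟨vs, hvs, hs⟩ := H48.MaxSing.exists_rprod_all (nd_iff.mpr hQ₁₀) (Or.inr (by omega)) s
  have heven : Even vs.length := even_of_det h20 hQ₁₀ hvs (by rw [← hs]; exact hdet)
  have h3 := rprod_fHom ho hq s.1 vs hs
  obtain ⟨ν, hν⟩ := hq
  have hvs' : ∀ v ∈ vs.map (fun v => P₀ (jv j v)), Q v ≠ 0 := by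
    intro v hv
    obtain ⟨w, hw, rfl⟩ := List.mem_map.mp hv
    rw [hν, ho]
    exact mul_ne_zero ν.ne_zero ((map_ne_zero j).mpr (hvs w hw))
  have h4 : trP P₀ (glHom j s.1) ∈ Cfsg.isometryGroup F (⇑Q) := by
    rw [H17.OrthDet.mem_isometryGroup_iff]
    intro v
    have := mult_fHom ho ⟨ν, hν⟩ s.1 (c := 1) (fun v => by
      rw [one_mul]; exact (H17.OrthDet.mem_isometryGroup_iff _ _).mp s.2 v) v
    rw [map_one, one_mul] at this
    exact this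
  rw [map_mul, hu₁, map_mul, psi1_scG, one_mul, inn_iff hQ hn]
  refine ⟨1, ⟨_, h4⟩, ?_, by rw [map_one, one_mul]; rfl⟩
  rw [H48.OmegaQ.mem_Omega_iff h2 (by omega) Q hQ _ _ hvs' h3]
  refine ⟨by rw [List.length_map]; exact heven, ?_⟩
  have h5 : ∀ vs : List (ι' → F₀), ((vs.map (fun v => P₀ (jv j v))).map (fun v => Q v)).prod =
      (ν : F) ^ vs.length * j (vs.map (fun v => Q₁₀ v)).prod := by
    intro vs
    induction vs with
    | nil => simp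
    | cons v vs ih =>
      rw [List.map_cons, List.map_cons, List.prod_cons, ih, List.map_cons, List.prod_cons, List.length_cons, hν, ho,
        map_mul, pow_succ]
      ring
  rw [h5]
  obtain ⟨l, hl⟩ := heven
  refine IsSquare.mul ⟨(ν : F) ^ l, by rw [hl, pow_add]⟩ (isSquare_of_sq j hcard _)

/-- the count in terms of one rational similarity with non-square multiplier -/
theorem count_desc (h2 : (2 : F) ≠ 0) (hQ : (QuadraticMap.polarBilin Q).Nondegenerate) (hc : Fintype.card ι = 2 * n)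
    (hn : 7 ≤ Fintype.card ι) (hneg : NegMem Q) {d : ↥(simG Q)} (hd : d ∈ DP Q n) {c₁ : F}
    (hd1 : ∀ v, Q (((d : GL ι F) : Matrix ι ι F) *ᵥ v) = c₁ * Q v) (hc₁ : ¬ IsSquare c₁)
    (hQ₁₀ : (QuadraticMap.polarBilin Q₁₀).Nondegenerate) (hc' : Fintype.card ι' = 2 * n)
    (hr : orderOf (y₀ : GA ι F).right = 2) (hj : ∀ x, (∃ c, j c = x) ↔ (y₀ : GA ι F).right x = x) (ho : Ovr j Q₁₀ Q₁)
    (hne : ∃ v, Q₁₀ v ≠ 0) (hD : Desc Q (y₀ : GA ι F) Q₁ P₀) (hcard : Fintype.card F = Fintype.card F₀ ^ 2)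
    {k₀ : ↥(simG Q₁₀)} (hk₀ : k₀ ∈ DP Q₁₀ n) {c₀ : F₀}
    (hkm : ∀ v, Q₁₀ (((k₀ : GL ι' F₀) : Matrix ι' ι' F₀) *ᵥ v) = c₀ * Q₁₀ v) (hc₀ : ¬ IsSquare c₀) :
    (psi1 Q (fHom ho hne hD.q k₀) ∉ Cfsg.Inn (Cfsg.POmega F (⇑Q)) →
      Cfsg.splitClassCount ((DP Q n).map (psi1 Q)) (Cfsg.Inn (Cfsg.POmega F (⇑Q))) (Psi Q y₀) = 2) ∧
    (psi1 Q (fHom ho hne hD.q k₀) ∈ Cfsg.Inn (Cfsg.POmega F (⇑Q)) →
      Cfsg.splitClassCount ((DP Q n).map (psi1 Q)) (Cfsg.Inn (Cfsg.POmega F (⇑Q))) (Psi Q y₀) = 4) := by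
  have h20 : (2 : F₀) ≠ 0 := by
    intro h
    apply h2
    have := congrArg j h
    rwa [map_ofNat, map_zero] at this
  have hn' : 7 ≤ Fintype.card ι' := by omega
  have hneQ : ∃ v, Q v ≠ 0 := by
    have hfr : Module.finrank F (ι → F) = Fintype.card ι := Module.finrank_fintype_fun_eq_card F
    obtain ⟨v, hv⟩ := exists_eq (nd_iff.mpr hQ) (by omega) (one_ne_zero (α := F))
    exact ⟨v, by rw [hv]; exact one_ne_zero⟩
  have hcomap := DP_fHom (n := n) hQ hn hQ₁₀ hn' hneQ ho hne hD.q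
  have hcent := fun g => cent_iff hQ hn hr two_pos hj ho hne hD g
  obtain ⟨C1, C2⟩ := count_of h2 hQ hc hn hneg hd hd1 hc₁ (Psi Q y₀) (by
    intro g hg hgc
    obtain ⟨u, k, rfl⟩ := (hcent g).mp hgc
    obtain ⟨e, he⟩ := k.2
    refine ⟨u * u * j e, IsSquare.mul ⟨u, rfl⟩ (isSquare_of_sq j hcard _), fun v => ?_⟩
    rw [Subgroup.coe_mul, Units.val_mul, ← Matrix.mulVec_mulVec, scG_coe, sc_mulVec, QuadraticMap.map_smul, fHom_coe,
      mult_fHom ho hD.q k.1 he, smul_eq_mul]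
    ring)
  have hk₀' : fHom ho hne hD.q k₀ ∈ DP Q n := by
    rw [← Subgroup.mem_comap, hcomap]; exact hk₀
  constructor
  · intro h
    exact C1 ⟨_, hk₀', (hcent _).mpr ⟨1, k₀, by rw [map_one, one_mul]⟩, h⟩
  · intro h
    apply C2
    intro g hg hgc
    obtain ⟨u, k, rfl⟩ := (hcent g).mp hgc
    rw [map_mul, psi1_scG, one_mul]
    have hk : k ∈ DP Q₁₀ n := by
      rw [← hcomap, Subgroup.mem_comap]
      exact (Subgroup.mul_mem_cancel_left _ (scG_mem_DP hc u)).mp hg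
    obtain ⟨e, he⟩ := k.2
    by_cases hsq : IsSquare (e : F₀)
    · exact inn_of_sq h2 h20 hQ hn hQ₁₀ hc' hn' ho hne hD.q hcard hk he hsq
    · have h3 := inn_of_sq h2 h20 hQ hn hQ₁₀ hc' hn' ho hne hD.q hcard (mul_mem hk hk₀) (c := e * c₀) (fun v => by
        rw [Subgroup.coe_mul, Units.val_mul, ← Matrix.mulVec_mulVec, he, hkm, mul_assoc])
        (H48.FinFieldSq.isSquare_mul_of_not hsq hc₀)
      rw [map_mul, map_mul] at h3
      exact (Subgroup.mul_mem_cancel_right _ h).mp h3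

end desc

end H50.OrthCountTwo
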