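import Cfsg.Agent.Lib.H50.OrthTwoGF

/-!
Involutory graph-field automorphisms of `PΩ⁺`.
-/

set_option autoImplicit false
set_option linter.unusedSectionVars false
set_option maxHeartbeats 400000

namespace H50.OrthGF

open Matrix H48.OutO H50.PSLBasic H50.PSLField H50.H90 H50.ClassCount H50.PSLCount H48.QuadSplit H48.QuadStd
  H50.OrthPsi H50.OrthDesc H48.OmegaPlus H50.OrthSim H18.MaxSing H50.OrthPar H50.OrthProper H50.OrthMinusK H50.OrthField
  H50.OrthInn H50.OrthOddCount H50.OrthEven H50.OrthMinusFam H50.OrthCountE H50.OrthPlusFam H50.OrthCountTwo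
  H48.OmegaLevi H50.OrthTwoPlus H50.OrthTwoGF

lemma splitClassCount_conj_mem {X : Type*} [Group X] (H K : Subgroup X) {a : X} (ha : a ∈ H) (x : X) :
    Cfsg.splitClassCount H K (a * x * a⁻¹) = Cfsg.splitClassCount H K x := by
  have h : Cfsg.IsConjUnder H (a * x * a⁻¹) = Cfsg.IsConjUnder H x := by
    funext y
    apply propext
    constructor
    · rintro ⟨h, hh, rfl⟩
      exact ⟨h * a, mul_mem hh ha, by group⟩
    · rintro ⟨h, hh, rfl⟩
      exact ⟨h * a⁻¹, mul_mem hh (inv_mem ha), by group⟩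
  unfold Cfsg.splitClassCount
  rw [h]

section nt

variable {F₀ : Type*} [Field F₀] [Fintype F₀]

lemma sq_neg_pow (h20 : (2 : F₀) ≠ 0) {c : F₀} (hc : ¬ IsSquare c) (k : ℕ) :
    IsSquare (-(-c) ^ k) ↔ (Odd (k + 1) ∧ Fintype.card F₀ % 4 = 1) := by
  have hodd : Fintype.card F₀ % 2 = 1 := FiniteField.odd_card_of_char_ne_two (ringChar_ne h20)
  have h1 := FiniteField.isSquare_neg_one_iff (F := F₀)
  have hc0 : c ≠ 0 := by
    rintro rfl
    exact hc IsSquare.zero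
  have hp0 : (-c) ^ k ≠ 0 := pow_ne_zero _ (neg_ne_zero.mpr hc0)
  have h3 := isSquare_pow_iff (-c) k (neg_ne_zero.mpr hc0)
  rw [neg_isSquare_iff hc] at h3
  have hm : Fintype.card F₀ % 4 = 1 ∨ Fintype.card F₀ % 4 = 3 := by omega
  rcases hm with hm | hm
  · obtain ⟨i, hi⟩ := h1.mpr (by omega)
    have h4 : IsSquare (-(-c) ^ k) ↔ IsSquare ((-c) ^ k) := by
      constructor
      · rintro ⟨b, hb⟩
        refine ⟨i * b, ?_⟩
        linear_combination (-1 : F₀) * hb + b ^ 2 * hi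
      · rintro ⟨b, hb⟩
        refine ⟨i * b, ?_⟩
        linear_combination (-1 : F₀) * hb + b ^ 2 * hi
    rw [h4, h3]
    constructor
    · rintro (h | h)
      · exact ⟨h.add_one, hm⟩
      · omega
    · rintro ⟨h, -⟩
      left
      rw [Nat.odd_add_one, Nat.not_odd_iff_even] at h
      exact h
  · have h4 : IsSquare ((-c) ^ k) := h3.mpr (Or.inr hm)
    constructor
    · rintro ⟨b, hb⟩
      exfalso
      obtain ⟨e, he⟩ := h4
      have he0 : e ≠ 0 := by
        rintro rfl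
        rw [mul_zero] at he
        exact hp0 he
      have : IsSquare (-1 : F₀) := by
        refine ⟨b / e, ?_⟩
        field_simp
        linear_combination hb + he
      exact (h1.mp this) hm
    · rintro ⟨-, h⟩
      omega

end nt

section main

variable {F : Type*} [Field F] [Fintype F] {F₀ : Type*} [Field F₀] [Fintype F₀] {j : F₀ →+* F} {k : ℕ}

theorem count_gf (h2 : (2 : F) ≠ 0) (hk : 3 ≤ k) {y : ↥(Gam (qPlus (k + 1) F))}
    (hσ : orderOf (y : GA (Fin (k + 1) ⊕ Fin (k + 1)) F).right = 2)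
    (hj : ∀ x, (∃ c, j c = x) ↔ (y : GA (Fin (k + 1) ⊕ Fin (k + 1)) F).right x = x)
    (hcard : Fintype.card F = Fintype.card F₀ ^ 2)
    (hfrob : ∀ x, (y : GA (Fin (k + 1) ⊕ Fin (k + 1)) F).right x = x ^ Fintype.card F₀)
    (hpar : par (k + 1) y = -1) (hy2 : (Psi _ y) ^ 2 = 1) :
    ((Odd (k + 1) ∧ Fintype.card F₀ % 4 = 1) →
      Cfsg.splitClassCount ((DP (qPlus (k + 1) F) (k + 1)).map (psi1 (qPlus (k + 1) F)))
      (Cfsg.Inn (Cfsg.POmega F (⇑(qPlus (k + 1) F)))) (Psi _ y) = 4) ∧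
    (¬ (Odd (k + 1) ∧ Fintype.card F₀ % 4 = 1) →
      Cfsg.splitClassCount ((DP (qPlus (k + 1) F) (k + 1)).map (psi1 (qPlus (k + 1) F)))
      (Cfsg.Inn (Cfsg.POmega F (⇑(qPlus (k + 1) F)))) (Psi _ y) = 2) := by
  set σ := (y : GA (Fin (k + 1) ⊕ Fin (k + 1)) F).right with hσ'
  have hσj : ∀ c, σ (j c) = j c := fun c => (hj _).mp ⟨c, rfl⟩
  have h20 : (2 : F₀) ≠ 0 := by
    intro h
    apply h2
    have := congrArg j h
    rwa [map_ofNat, map_zero] at this
  have hodd : Fintype.card F₀ % 2 = 1 := FiniteField.odd_card_of_char_ne_two (ringChar_ne h20)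
  obtain ⟨⟨a, b, hab⟩, -⟩ := (plus_desc hk (y := y) (j := j) hσ two_pos hj hy2).2 hpar
  obtain ⟨l, hl⟩ := exists_root j hcard a b
  have hσl : σ l ≠ l := by
    intro h
    obtain ⟨c, rfl⟩ := (hj l).mpr h
    apply An.no_root hab c
    apply j.injective
    rw [map_add, map_add, map_mul, map_pow, map_zero]
    exact hl
  have hl2 : (σ l) ^ 2 + j a * (σ l) + j b = 0 := by
    have := congrArg σ hl
    rwa [map_add, map_add, map_mul, map_pow, hσj, hσj, map_zero] at this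
  have hsum : l + σ l = -j a := by
    have h3 : (σ l - l) * (σ l + l + j a) = 0 := by linear_combination hl2 - hl
    have h4 := (mul_eq_zero.mp h3).resolve_left (sub_ne_zero.mpr hσl)
    linear_combination h4
  have hprod : l * σ l = j b := by linear_combination (l : F) * hsum - hl
  have hq : ∃ ν : Fˣ, ∀ v, qPlus (k + 1) F (pE hσl.symm v) = (ν : F) * qMinus k F (j a) (j b) v :=
    ⟨1, fun v => by rw [Units.val_one, one_mul, q_pE hσl.symm hsum hprod]⟩
  have hfix := fix_qMinus k (σ := σ) (hσj a) (hσj b)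
  obtain ⟨y₀, hy₀r, hy₀⟩ := exists_transport hq (std hfix)
  rw [std_right] at hy₀r
  have hy₀' : ∀ v, ap (y₀ : GA (Fin (k + 1) ⊕ Fin (k + 1)) F) (pE hσl.symm v) = pE hσl.symm (σ ∘ v) := by
    intro v
    rw [hy₀, std_ap]
  have hD : Desc (qPlus (k + 1) F) (y₀ : GA (Fin (k + 1) ⊕ Fin (k + 1)) F) (qMinus k F (j a) (j b)) (pE hσl.symm) :=
    ⟨⟨1, fun v => by rw [Units.val_one, one_smul, hy₀', hy₀r]⟩, hq⟩
  have hj₀ : ∀ x, (∃ c, j c = x) ↔ (y₀ : GA (Fin (k + 1) ⊕ Fin (k + 1)) F).right x = x := by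
    rw [hy₀r]; exact hj
  have hpar₀ : par (k + 1) y₀ = -1 := par_desc_minus hab hj₀ hD
  have hσ2 : σ * σ = 1 := by
    rw [← pow_two, ← hσ, pow_orderOf_eq_one]
  have hy₀2 : (Psi (qPlus (k + 1) F) y₀) ^ 2 = 1 := by
    rw [← map_pow]
    have : y₀ ^ 2 = 1 := by
      apply Subtype.ext
      apply ext_ap
      · rw [pow_two, Subgroup.coe_mul, SemidirectProduct.mul_right, hy₀r, hσ2]
        rfl
      · intro v
        obtain ⟨u, rfl⟩ := (pE (k := k) hσl.symm).surjective v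
        rw [pow_two, Subgroup.coe_mul, ap_mul, hy₀', hy₀', Subgroup.coe_one, ap_one]
        congr 1
        funext i
        change (σ * σ) (u i) = u i
        rw [hσ2]; rfl
    rw [this, map_one]
  obtain ⟨t, ht, hty⟩ := conj_par hk Nat.prime_two (y := y) (y₀ := y₀) (by rw [hy₀r]) (by rw [hy₀r]; exact hσ) hy2 hy₀2
    (by rw [hpar, hpar₀])
  rw [hty, splitClassCount_conj_mem _ _ (Subgroup.mem_map_of_mem _ ht)]
  -- the similarity with non-square multiplier
  obtain ⟨d, c₁, hd, hd1, hc₁⟩ := dG_nonsq (F := F) (m := k + 1) h2 (by omega)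
  obtain ⟨c, hc⟩ := H48.FinFieldSq.exists_not_isSquare h20
  have hc0 : c ≠ 0 := by
    rintro rfl
    exact hc IsSquare.zero
  obtain ⟨⟨e₁, e₂⟩, he⟩ := exists_eq (nd_qBin (disc_ne_zero hab)) (by
    rw [Module.finrank_prod, Module.finrank_self]) hc0
  rw [qBin_apply] at he
  have he' : e₁ ^ 2 + a * e₁ * e₂ + b * e₂ ^ 2 = c := he
  obtain ⟨r, hr⟩ := isSquare_of_sq j hcard c
  have hr0 : r ≠ 0 := by
    rintro rfl
    rw [mul_zero] at hr
    exact hc0 ((map_eq_zero j).mp hr)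
  have hη' : (j e₁ - l * j e₂) * (j e₁ - σ l * j e₂) = j c := by
    rw [← he', map_add, map_add, map_mul j (a * e₁), map_mul j a, map_mul j b, map_pow, map_pow]
    linear_combination (-(j e₁ * j e₂)) * hsum + (j e₂) ^ 2 * hprod
  have hη0 : j e₁ - l * j e₂ ≠ 0 := by
    intro h
    rw [h, zero_mul] at hη'
    exact hc0 ((map_eq_zero j).mp hη'.symm)
  have hfe := fHom_tG (k := k) hc0 he' hσl.symm hsum hprod (r := Units.mk0 r hr0) hr.symm (η := Units.mk0 _ hη0) rfl hη' hq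
  have hcardk := card_ge (m := k + 1) (by omega)
  have hQ := nd_iff.mp (nd_qPlus (F := F) (k + 1))
  have hk₀ : tG k hc0 he' ∈ DP (qMinus k F₀ a b) (k + 1) := by
    rw [← DP_fHom (n := k + 1) hQ hcardk (nd_minus' hab) (card_minus_ge hk) (hne_plus (by omega)) (ovr_qMinus j k a b)
      (hne_minus k a b) hq, Subgroup.mem_comap, hfe]
    exact mul_mem (scG_mem_DP (card_plus (k + 1)) _) (lev_mem_DP h2 _)
  obtain ⟨C1, C2⟩ := count_desc (y₀ := y₀) h2 hQ (card_plus (k + 1)) hcardk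
    (neg_mem_plus hcard hodd (by omega)) hd hd1 hc₁ (nd_minus' hab) (card_minus' k) (by rw [hy₀r]; exact hσ) hj₀
    (ovr_qMinus j k a b) (hne_minus k a b) hD hcard hk₀ (tG_mult k hc0 he') hc
  have hrn := neg_norm hj hc hr.symm
  have hση : σ (j e₁ - l * j e₂) = j e₁ - σ l * j e₂ := by
    rw [map_sub, map_mul, hσj, hσj]
  have hx0 : (j e₁ - l * j e₂) * r⁻¹ * r ^ k ≠ 0 := mul_ne_zero (mul_ne_zero hη0 (inv_ne_zero hr0)) (pow_ne_zero _ hr0)
  have hnorm : ((j e₁ - l * j e₂) * r⁻¹ * r ^ k) * σ ((j e₁ - l * j e₂) * r⁻¹ * r ^ k) = j (-(-c) ^ k) := by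
    rw [map_mul, map_mul, map_inv₀, map_pow, hση]
    have e1 : ((j e₁ - l * j e₂) * r⁻¹ * r ^ k) * ((j e₁ - σ l * j e₂) * (σ r)⁻¹ * σ r ^ k) =
        ((j e₁ - l * j e₂) * (j e₁ - σ l * j e₂)) * (r * σ r)⁻¹ * (r * σ r) ^ k := by
      rw [mul_pow, mul_inv]; ring
    rw [e1, hη', hrn, ← map_pow, ← map_inv₀, ← map_mul, ← map_mul]
    congr 1
    have : c * (-c)⁻¹ = -1 := by field_simp
    rw [this]; ring
  have hiff : psi1 (qPlus (k + 1) F) (fHom (ovr_qMinus j k a b) (hne_minus k a b) hD.q (tG k hc0 he')) ∈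
      Cfsg.Inn (Cfsg.POmega F (⇑(qPlus (k + 1) F))) ↔ (Odd (k + 1) ∧ Fintype.card F₀ % 4 = 1) := by
    rw [hfe, map_mul, psi1_scG, one_mul, iso_inn_iff hQ hcardk (neg_mem_plus hcard hodd (by omega)),
      H48.OmegaTwo.lev_mem_iff (by omega) (Or.inr (by omega)), dgl_det, Fin.prod_univ_succ]
    have e2 : ((fE k (Units.mk0 _ hη0 * (Units.mk0 r hr0)⁻¹) (Units.mk0 r hr0) 0 : Fˣ) : F) *
        ∏ i : Fin k, ((fE k (Units.mk0 _ hη0 * (Units.mk0 r hr0)⁻¹) (Units.mk0 r hr0) i.succ : Fˣ) : F) =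
        (j e₁ - l * j e₂) * r⁻¹ * r ^ k := by
      have e3 : ((fE k (Units.mk0 _ hη0 * (Units.mk0 r hr0)⁻¹) (Units.mk0 r hr0) 0 : Fˣ) : F) =
          (j e₁ - l * j e₂) * r⁻¹ := by
        change ((Units.mk0 _ hη0 * (Units.mk0 r hr0)⁻¹ : Fˣ) : F) = _
        rw [Units.val_mul, Units.val_inv_eq_inv_val, Units.val_mk0, Units.val_mk0]
      have e4 : ∀ i : Fin k, ((fE k (Units.mk0 _ hη0 * (Units.mk0 r hr0)⁻¹) (Units.mk0 r hr0) i.succ : Fˣ) : F) = r :=
        fun i => rfl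
      rw [e3, Finset.prod_congr rfl (fun i _ => e4 i), Finset.prod_const, Finset.card_univ, Fintype.card_fin]
    rw [e2, isSquare_iff_norm h2 h20 hcard hfrob hx0 hnorm, sq_neg_pow h20 hc]
  constructor
  · intro h
    exact C2 (hiff.mpr h)
  · intro h
    exact C1 (fun h' => h (hiff.mp h'))

end main

end H50.OrthGF
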