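import Cfsg.Agent.Lib.H50.OrthGF

/-!
The theorem on involutory graph-field automorphisms of `PΩ⁺`.
-/

set_option autoImplicit false
set_option linter.unusedSectionVars false
set_option maxHeartbeats 2000000

namespace H50.OrthGFMain

open Matrix H48.OutO H50.PSLBasic H50.PSLField H50.H90 H50.ClassCount H50.PSLCount H48.QuadSplit H48.QuadStd
  H50.OrthPsi H50.OrthDesc H48.OmegaPlus H50.OrthSim H18.MaxSing H50.OrthPar H50.OrthProper H50.OrthMinusK H50.OrthField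
  H50.OrthInn H50.OrthOddCount H50.OrthEven H50.OrthMinusFam H50.OrthCountE H50.OrthPlusFam H50.OrthCountTwo
  H48.OmegaLevi H50.OrthTwoPlus H50.OrthTwoGF H50.OrthGF

universe u v

variable {F : Type u} [Field F] [Fintype F] {F₀ : Type v} [Field F₀] [Fintype F₀] {k : ℕ}

lemma two_iff {p f : ℕ} [Fact p.Prime] (hF : Fintype.card F = p ^ f) : p = 2 ↔ (2 : F) = 0 := by
  have hFn : Nat.card F = p ^ f := by rw [Nat.card_eq_fintype_card, hF]
  have hchar : CharP F p := H50.FieldAut.charP_of_card p hFn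
  constructor
  · rintro rfl
    have := CharP.cast_eq_zero F 2
    exact_mod_cast this
  · intro h
    have h1 : ((2 : ℕ) : F) = 0 := by exact_mod_cast h
    rw [CharP.cast_eq_zero_iff F p] at h1
    exact (Nat.prime_dvd_prime_iff_eq (Fact.out) Nat.prime_two).mp h1

theorem s2717 (hk : 4 ≤ k) {p f : ℕ} [Fact p.Prime] (hF : Fintype.card F = p ^ f) :
    ∀ (x : MulAut (Cfsg.POmega F (⇑(qPlus (k + 1) F)))) (_ : GFC (⇑(qPlus (k + 1) F)) x)
      (_ : orderOf x = 2) (_ : Fintype.card F₀ = p ^ (f / 2)),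
      Even f ∧ (∀ y : MulAut (Cfsg.POmega F (⇑(qPlus (k + 1) F))), GFC (⇑(qPlus (k + 1) F)) y → orderOf y = 2 →
        Cfsg.IsConjUnder (inndF (⇑(qPlus (k + 1) F)) (Cfsg.PreservesSingularClasses (⇑(qPlus (k + 1) F)))) x y) ∧
      (∃ a₀ b₀ : F₀, (∀ z₁ z₂ : F₀, z₁ ^ 2 + a₀ * z₁ * z₂ + b₀ * z₂ ^ 2 = 0 → z₁ = 0 ∧ z₂ = 0) ∧
        Nonempty (↥(inndF (⇑(qPlus (k + 1) F)) (Cfsg.PreservesSingularClasses (⇑(qPlus (k + 1) F))) ⊓
          Subgroup.centralizer {x}) ≃* ↥(Cfsg.inndiagPOmegaMinus k F₀ a₀ b₀))) ∧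
      (p = 2 → Cfsg.splitClassCount (inndF (⇑(qPlus (k + 1) F)) (Cfsg.PreservesSingularClasses (⇑(qPlus (k + 1) F))))
        (Cfsg.Inn (Cfsg.POmega F (⇑(qPlus (k + 1) F)))) x = 1) ∧
      ((p ≠ 2 ∧ Odd (k + 1) ∧ p ^ (f / 2) % 4 = 1) →
        Cfsg.splitClassCount (inndF (⇑(qPlus (k + 1) F)) (Cfsg.PreservesSingularClasses (⇑(qPlus (k + 1) F))))
        (Cfsg.Inn (Cfsg.POmega F (⇑(qPlus (k + 1) F)))) x = 4) ∧
      ((p ≠ 2 ∧ ¬ (Odd (k + 1) ∧ p ^ (f / 2) % 4 = 1)) →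
        Cfsg.splitClassCount (inndF (⇑(qPlus (k + 1) F)) (Cfsg.PreservesSingularClasses (⇑(qPlus (k + 1) F))))
        (Cfsg.Inn (Cfsg.POmega F (⇑(qPlus (k + 1) F)))) x = 2) := by
  intro x hx hx2 hc
  obtain ⟨y, rfl, hpar, hy1⟩ := gf_rep (by omega) hx
  have hyr : (Psi (qPlus (k + 1) F) y) ^ 2 = 1 := by rw [← hx2]; exact pow_orderOf_eq_one _
  have hord := (order_right (by omega) Nat.prime_two hyr hy1).1
  have hFn : Nat.card F = p ^ f := by rw [Nat.card_eq_fintype_card, hF]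
  have hchar : CharP F p := H50.FieldAut.charP_of_card p hFn
  obtain ⟨hf2, hfrob⟩ := H50.FieldAut2.order_two p hFn hord
  have h2f : 2 ∣ f := hf2.two_dvd
  rw [← hc] at hfrob
  have hcard : Fintype.card F = Fintype.card F₀ ^ 2 := by
    rw [hF, hc, ← pow_mul, Nat.div_mul_cancel h2f]
  set σ := (y : GA (Fin (k + 1) ⊕ Fin (k + 1)) F).right with hσ
  have hfix : Nat.card (H49.FixedField.fixedField σ) = p ^ (f / 2) :=
    H49.FixedField.card_fixedField σ two_ne_zero (by rw [hFn, ← pow_mul, Nat.div_mul_cancel h2f]) hord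
  obtain ⟨j, hj⟩ := exists_embedding (F₀ := F₀) σ (by rw [Nat.card_eq_fintype_card, hc, hfix])
  rw [inndP_eq (by omega)]
  refine ⟨hf2, ?_, ?_, ?_, ?_⟩
  · intro y' hy' hy'2
    obtain ⟨z, rfl, hparz, hz1⟩ := gf_rep (by omega) hy'
    have hzr : (Psi (qPlus (k + 1) F) z) ^ 2 = 1 := by rw [← hy'2]; exact pow_orderOf_eq_one _
    have hordz := (order_right (by omega) Nat.prime_two hzr hz1).1
    obtain ⟨t, ht, hty⟩ := conj_par (by omega) Nat.prime_two (y := z) (y₀ := y)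
      (H50.FieldAut2.unique_order_two hordz hord) hord hzr hyr (by rw [hpar, hparz])
    exact ⟨psi1 _ t, Subgroup.mem_map_of_mem _ ht, hty⟩
  · obtain ⟨⟨a, b, hab⟩, H⟩ := (plus_desc (by omega) (y := y) (j := j) hord two_pos hj hyr).2 hpar
    obtain ⟨P, hP⟩ := H a b hab
    refine ⟨a, b, hab, ?_⟩
    have hQ := nd_iff.mp (nd_qPlus (F := F) (k + 1))
    have hcardk := card_ge (m := k + 1) (by omega)
    have hk3 : 3 ≤ k := by omega
    have h8 : Nonempty (↥((DP (qPlus (k + 1) F) (k + 1)).map (psi1 (qPlus (k + 1) F)) ⊓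
        Subgroup.centralizer {Psi (qPlus (k + 1) F) y}) ≃*
          ↥(inndF (⇑(qMinus k F₀ a b)) (Cfsg.PreservesSingularClassesMinus k a b))) := by
      rw [inndM_eq hk3 hab]
      obtain ⟨e⟩ := cent_equiv hQ hcardk (nd_minus' hab) (card_minus_ge hk3) (y := y) hord two_pos hj
        (ovr_qMinus j k a b) (hne_minus k a b) hP (DP (qPlus (k + 1) F) (k + 1)) (scG_mem_DP (card_plus (k + 1)))
      rw [DP_fHom hQ hcardk (nd_minus' hab) (card_minus_ge hk3) (hne_plus (by omega))] at e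
      exact ⟨e⟩
    rw [coe_qMinus k a b] at h8
    exact h8
  · intro hp2
    exact count_two ((two_iff hF).mp hp2) _
  · have key := fun hp : p ≠ 2 => count_gf (F₀ := F₀) (j := j) (fun h => hp ((two_iff hF).mpr h)) (by omega) hord hj hcard hfrob
      hpar hyr
    rw [← hc]
    exact ⟨fun ⟨h1, h2⟩ => (key h1).1 h2, fun ⟨h1, h2⟩ => (key h1).2 h2⟩

end H50.OrthGFMain
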