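import Cfsg.Agent.Lib.H50.OrthGFMain

/-!
Field automorphisms of `PΩ⁺` of prime order, modulo normality of the inner-diagonal group.
-/

set_option autoImplicit false
set_option linter.unusedSectionVars false
set_option maxHeartbeats 2000000

namespace H50.OrthPlusField

open Matrix H48.OutO H50.PSLBasic H50.PSLField H50.H90 H50.ClassCount H50.PSLCount H48.QuadSplit H48.QuadStd
  H50.OrthPsi H50.OrthDesc H48.OmegaPlus H50.OrthSim H18.MaxSing H50.OrthPar H50.OrthProper H50.OrthMinusK H50.OrthField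
  H50.OrthInn H50.OrthOddCount H50.OrthEven H50.OrthMinusFam H50.OrthCountE H50.OrthPlusFam H50.OrthCountTwo
  H48.OmegaLevi H50.OrthTwoPlus H50.OrthTwoGF H50.OrthGF H50.OrthGFMain

universe u v

variable {F : Type u} [Field F] [Fintype F] {F₀ : Type v} [Field F₀] [Fintype F₀] {m : ℕ}

theorem s2715 (hm : 4 ≤ m) (hN : ((DP (qPlus m F) m).map (psi1 (qPlus m F))).Normal) {p f : ℕ} [Fact p.Prime]
    (hF : Fintype.card F = p ^ f) :
    ∀ (x : MulAut (Cfsg.POmega F (⇑(qPlus m F)))) (_ : Cfsg.IsFieldAutClassPOmega (⇑(qPlus m F)) x)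
      {r : ℕ} (_ : r.Prime) (_ : orderOf x = r) (_ : Fintype.card F₀ = p ^ (f / r)),
      r ∣ f ∧
      Nonempty (↥(inndF (⇑(qPlus m F)) (Cfsg.PreservesSingularClasses (⇑(qPlus m F))) ⊓
          Subgroup.centralizer {x}) ≃* ↥(Cfsg.inndiagPOmegaPlus m F₀)) ∧
      ((Odd r ∨ p = 2) → Cfsg.splitClassCount (inndF (⇑(qPlus m F)) (Cfsg.PreservesSingularClasses (⇑(qPlus m F))))
        (Cfsg.Inn (Cfsg.POmega F (⇑(qPlus m F)))) x = 1) ∧
      ((r = 2 ∧ p ≠ 2 ∧ Odd m ∧ p ^ (f / 2) % 4 = 1) →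
        Cfsg.splitClassCount (inndF (⇑(qPlus m F)) (Cfsg.PreservesSingularClasses (⇑(qPlus m F))))
        (Cfsg.Inn (Cfsg.POmega F (⇑(qPlus m F)))) x = 2) ∧
      ((r = 2 ∧ p ≠ 2 ∧ ¬ (Odd m ∧ p ^ (f / 2) % 4 = 1)) →
        Cfsg.splitClassCount (inndF (⇑(qPlus m F)) (Cfsg.PreservesSingularClasses (⇑(qPlus m F))))
        (Cfsg.Inn (Cfsg.POmega F (⇑(qPlus m F)))) x = 4) := by
  intro x hx r hr hxr hc
  have hQ := nd_iff.mp (nd_qPlus (F := F) m)
  have hcardm := card_ge (m := m) hm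
  obtain ⟨α, σ, hσ1, hα, hσ⟩ := field_class_std (fix_qPlus m) hQ hcardm hx
  rw [hxr] at hσ
  have hFn : Nat.card F = p ^ f := by rw [Nat.card_eq_fintype_card, hF]
  have hchar : CharP F p := H50.FieldAut.charP_of_card p hFn
  have hrf : r ∣ f := by
    rw [← hσ, ← H50.FieldAut.card_ringAut p hFn]
    exact orderOf_dvd_natCard σ
  have hcard : Fintype.card F = Fintype.card F₀ ^ r := by
    rw [hF, hc, ← pow_mul, Nat.div_mul_cancel hrf]
  have hfix : Nat.card (H49.FixedField.fixedField σ) = p ^ (f / r) :=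
    H49.FixedField.card_fixedField σ hr.ne_zero (by rw [hFn, ← pow_mul, Nat.div_mul_cancel hrf]) hσ
  obtain ⟨j, hj⟩ := exists_embedding (F₀ := F₀) σ (by rw [Nat.card_eq_fintype_card, hc, hfix])
  have hNI : (Cfsg.Inn (Cfsg.POmega F (⇑(qPlus m F)))).Normal := inferInstance
  rw [inndP_eq hm, ← splitClassCount_conj _ _ α x, hα]
  refine ⟨hrf, ?_, ?_, ?_⟩
  · have h8 : Nonempty (↥((DP (qPlus m F) m).map (psi1 (qPlus m F)) ⊓ Subgroup.centralizer {x}) ≃*
          ↥(inndF (⇑(qPlus m F₀)) (Cfsg.PreservesSingularClasses (⇑(qPlus m F₀))))) := by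
      rw [inndP_eq hm]
      obtain ⟨e⟩ := cent_equiv hQ hcardm (nd_iff.mp (nd_qPlus m)) hcardm (y := std (fix_qPlus m σ)) hσ hr.pos hj
        (ovr_qPlus j m) (hne_plus hm) (desc_std (fix_qPlus m σ)) (DP (qPlus m F) m) (scG_mem_DP (card_plus m))
      have e' := centralizerConj ((DP (qPlus m F) m).map (psi1 (qPlus m F))) α x
      rw [hα] at e'
      rw [DP_fHom hQ hcardm (nd_iff.mp (nd_qPlus m)) hcardm (hne_plus hm)] at e
      exact ⟨e'.symm.trans e⟩
    rw [coe_qPlus (F := F₀) m] at h8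
    exact h8
  · intro h
    by_cases h2' : (2 : F) = 0
    · exact count_two h2' _
    · have hrodd : Odd r := by
        rcases h with h | h
        · exact h
        · exact absurd ((two_iff hF).mp h) h2'
      refine count_odd_order h2' hQ (card_plus m) hcardm (nd_iff.mp (nd_qPlus m)) (card_plus m) hσ hr.pos hj
        (ovr_qPlus j m) (desc_std (fix_qPlus m σ)) hrodd hcard ?_
      intro c hc0
      exact ⟨dG m (Units.mk0 c hc0), dG_mult m _⟩
  · have key : r = 2 → p ≠ 2 → _ := fun h1 h2 => by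
      subst h1
      have hfrob := (H50.FieldAut2.order_two p hFn hσ).2
      rw [← hc] at hfrob
      exact count_field (F₀ := F₀) (j := j) (fun h => h2 ((two_iff hF).mpr h)) hm hσ hj hcard hfrob
    constructor
    · rintro ⟨h1, h2, h3⟩
      subst h1
      rw [← hc] at h3
      exact (key rfl h2).1 h3
    · rintro ⟨h1, h2, h3⟩
      subst h1
      rw [← hc] at h3
      exact (key rfl h2).2 h3

end H50.OrthPlusField
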