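import Cfsg.Agent.Lib.H50.OrthTwoPlus

/-!
Class counts for involutory graph-field automorphisms of `PΩ⁺`, odd characteristic.
-/

set_option autoImplicit false
set_option linter.unusedSectionVars false
set_option maxHeartbeats 400000

namespace H50.OrthTwoGF

open Matrix H48.OutO H50.PSLBasic H50.PSLField H50.H90 H50.ClassCount H50.PSLCount H48.QuadSplit H48.QuadStd
  H50.OrthPsi H50.OrthDesc H48.OmegaPlus H50.OrthSim H18.MaxSing H50.OrthPar H50.OrthProper H50.OrthMinusK H50.OrthField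
  H50.OrthInn H50.OrthOddCount H50.OrthEven H50.OrthMinusFam H50.OrthCountE H50.OrthPlusFam H50.OrthCountTwo
  H48.OmegaLevi H50.OrthTwoPlus

section coord

variable {F : Type*} [Field F] {k : ℕ}

/-- coordinates in which a split minus expression is hyperbolic -/
def pE {l l' : F} (hl : l ≠ l') : ((Fin k ⊕ Fin k) ⊕ Fin 2 → F) ≃ₗ[F] (Fin (k + 1) ⊕ Fin (k + 1) → F) where
  toFun v := Sum.elim (Fin.cons (v (Sum.inr 0) - l * v (Sum.inr 1)) (fun i => v (Sum.inl (Sum.inl i))) : Fin (k + 1) → F)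
    (Fin.cons (v (Sum.inr 0) - l' * v (Sum.inr 1)) (fun i => v (Sum.inl (Sum.inr i))) : Fin (k + 1) → F)
  invFun w := Sum.elim (Sum.elim (fun i => w (Sum.inl i.succ)) (fun i => w (Sum.inr i.succ)))
    ![w (Sum.inl 0) + l * ((w (Sum.inr 0) - w (Sum.inl 0)) / (l - l')), (w (Sum.inr 0) - w (Sum.inl 0)) / (l - l')]
  map_add' v w := by
    funext i
    rcases i with i | i
    · refine Fin.cases ?_ (fun i => ?_) i
      · change (v (Sum.inr 0) + w (Sum.inr 0)) - l * (v (Sum.inr 1) + w (Sum.inr 1)) =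
          (v (Sum.inr 0) - l * v (Sum.inr 1)) + (w (Sum.inr 0) - l * w (Sum.inr 1))
        ring
      · rfl
    · refine Fin.cases ?_ (fun i => ?_) i
      · change (v (Sum.inr 0) + w (Sum.inr 0)) - l' * (v (Sum.inr 1) + w (Sum.inr 1)) =
          (v (Sum.inr 0) - l' * v (Sum.inr 1)) + (w (Sum.inr 0) - l' * w (Sum.inr 1))
        ring
      · rfl
  map_smul' c v := by
    funext i
    rcases i with i | i
    · refine Fin.cases ?_ (fun i => ?_) i
      · change c * v (Sum.inr 0) - l * (c * v (Sum.inr 1)) = c * (v (Sum.inr 0) - l * v (Sum.inr 1))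
        ring
      · rfl
    · refine Fin.cases ?_ (fun i => ?_) i
      · change c * v (Sum.inr 0) - l' * (c * v (Sum.inr 1)) = c * (v (Sum.inr 0) - l' * v (Sum.inr 1))
        ring
      · rfl
  left_inv v := by
    have h : l - l' ≠ 0 := sub_ne_zero.mpr hl
    funext i
    rcases i with (i | i) | i
    · rfl
    · rfl
    · fin_cases i
      · change (v (Sum.inr 0) - l * v (Sum.inr 1)) + l * (((v (Sum.inr 0) - l' * v (Sum.inr 1)) -
          (v (Sum.inr 0) - l * v (Sum.inr 1))) / (l - l')) = v (Sum.inr 0)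
        field_simp
        ring
      · change ((v (Sum.inr 0) - l' * v (Sum.inr 1)) - (v (Sum.inr 0) - l * v (Sum.inr 1))) / (l - l') = v (Sum.inr 1)
        field_simp
        ring
  right_inv w := by
    have h : l - l' ≠ 0 := sub_ne_zero.mpr hl
    funext i
    rcases i with i | i
    · refine Fin.cases ?_ (fun i => ?_) i
      · change (w (Sum.inl 0) + l * ((w (Sum.inr 0) - w (Sum.inl 0)) / (l - l'))) -
          l * ((w (Sum.inr 0) - w (Sum.inl 0)) / (l - l')) = w (Sum.inl 0)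
        ring
      · rfl
    · refine Fin.cases ?_ (fun i => ?_) i
      · change (w (Sum.inl 0) + l * ((w (Sum.inr 0) - w (Sum.inl 0)) / (l - l'))) -
          l' * ((w (Sum.inr 0) - w (Sum.inl 0)) / (l - l')) = w (Sum.inr 0)
        field_simp
        ring
      · rfl

lemma pE_inl_zero {l l' : F} (hl : l ≠ l') (v : (Fin k ⊕ Fin k) ⊕ Fin 2 → F) :
    pE hl v (Sum.inl 0) = v (Sum.inr 0) - l * v (Sum.inr 1) := rfl

lemma pE_inr_zero {l l' : F} (hl : l ≠ l') (v : (Fin k ⊕ Fin k) ⊕ Fin 2 → F) :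
    pE hl v (Sum.inr 0) = v (Sum.inr 0) - l' * v (Sum.inr 1) := rfl

lemma pE_inl_succ {l l' : F} (hl : l ≠ l') (v : (Fin k ⊕ Fin k) ⊕ Fin 2 → F) (i : Fin k) :
    pE hl v (Sum.inl i.succ) = v (Sum.inl (Sum.inl i)) := rfl

lemma pE_inr_succ {l l' : F} (hl : l ≠ l') (v : (Fin k ⊕ Fin k) ⊕ Fin 2 → F) (i : Fin k) :
    pE hl v (Sum.inr i.succ) = v (Sum.inl (Sum.inr i)) := rfl

lemma q_pE {l l' a b : F} (hl : l ≠ l') (ha : l + l' = -a) (hb : l * l' = b) (v : (Fin k ⊕ Fin k) ⊕ Fin 2 → F) :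
    qPlus (k + 1) F (pE hl v) = qMinus k F a b v := by
  rw [qPlus_apply, Fin.sum_univ_succ, pE_inl_zero, pE_inr_zero, qMinus_apply]
  simp only [pE_inl_succ, pE_inr_succ]
  linear_combination (-(v (Sum.inr 0) * v (Sum.inr 1))) * ha + (v (Sum.inr 1)) ^ 2 * hb

/-- multiplication by an element of the quadratic extension on the anisotropic plane -/
def tE (k : ℕ) {a b c e₁ e₂ : F} (hc : c ≠ 0) (he : e₁ ^ 2 + a * e₁ * e₂ + b * e₂ ^ 2 = c) :
    ((Fin k ⊕ Fin k) ⊕ Fin 2 → F) ≃ₗ[F] ((Fin k ⊕ Fin k) ⊕ Fin 2 → F) where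
  toFun v := Sum.elim (Sum.elim (fun i => c * v (Sum.inl (Sum.inl i))) (fun i => v (Sum.inl (Sum.inr i))))
    ![e₁ * v (Sum.inr 0) - b * e₂ * v (Sum.inr 1), e₁ * v (Sum.inr 1) + e₂ * v (Sum.inr 0) + a * e₂ * v (Sum.inr 1)]
  invFun v := Sum.elim (Sum.elim (fun i => c⁻¹ * v (Sum.inl (Sum.inl i))) (fun i => v (Sum.inl (Sum.inr i))))
    ![c⁻¹ * ((e₁ + a * e₂) * v (Sum.inr 0) + b * e₂ * v (Sum.inr 1)),
      c⁻¹ * ((e₁ + a * e₂) * v (Sum.inr 1) - e₂ * v (Sum.inr 0) - a * e₂ * v (Sum.inr 1))]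
  map_add' v w := by
    funext i
    rcases i with (i | i) | i
    · change c * (v _ + w _) = c * v _ + c * w _
      ring
    · rfl
    · fin_cases i
      · change e₁ * (v (Sum.inr 0) + w (Sum.inr 0)) - b * e₂ * (v (Sum.inr 1) + w (Sum.inr 1)) =
          (e₁ * v (Sum.inr 0) - b * e₂ * v (Sum.inr 1)) + (e₁ * w (Sum.inr 0) - b * e₂ * w (Sum.inr 1))
        ring
      · change e₁ * (v (Sum.inr 1) + w (Sum.inr 1)) + e₂ * (v (Sum.inr 0) + w (Sum.inr 0)) +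
          a * e₂ * (v (Sum.inr 1) + w (Sum.inr 1)) =
          (e₁ * v (Sum.inr 1) + e₂ * v (Sum.inr 0) + a * e₂ * v (Sum.inr 1)) +
          (e₁ * w (Sum.inr 1) + e₂ * w (Sum.inr 0) + a * e₂ * w (Sum.inr 1))
        ring
  map_smul' r v := by
    funext i
    rcases i with (i | i) | i
    · change c * (r * v _) = r * (c * v _)
      ring
    · rfl
    · fin_cases i
      · change e₁ * (r * v (Sum.inr 0)) - b * e₂ * (r * v (Sum.inr 1)) =
          r * (e₁ * v (Sum.inr 0) - b * e₂ * v (Sum.inr 1))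
        ring
      · change e₁ * (r * v (Sum.inr 1)) + e₂ * (r * v (Sum.inr 0)) + a * e₂ * (r * v (Sum.inr 1)) =
          r * (e₁ * v (Sum.inr 1) + e₂ * v (Sum.inr 0) + a * e₂ * v (Sum.inr 1))
        ring
  left_inv v := by
    funext i
    rcases i with (i | i) | i
    · change c⁻¹ * (c * v _) = v _
      rw [inv_mul_cancel_left₀ hc]
    · rfl
    · fin_cases i
      · change c⁻¹ * ((e₁ + a * e₂) * (e₁ * v (Sum.inr 0) - b * e₂ * v (Sum.inr 1)) +
          b * e₂ * (e₁ * v (Sum.inr 1) + e₂ * v (Sum.inr 0) + a * e₂ * v (Sum.inr 1))) = v (Sum.inr 0)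
        have : (e₁ + a * e₂) * (e₁ * v (Sum.inr 0) - b * e₂ * v (Sum.inr 1)) +
          b * e₂ * (e₁ * v (Sum.inr 1) + e₂ * v (Sum.inr 0) + a * e₂ * v (Sum.inr 1)) = c * v (Sum.inr 0) := by
          rw [← he]; ring
        rw [this, inv_mul_cancel_left₀ hc]
      · change c⁻¹ * ((e₁ + a * e₂) * (e₁ * v (Sum.inr 1) + e₂ * v (Sum.inr 0) + a * e₂ * v (Sum.inr 1)) -
          e₂ * (e₁ * v (Sum.inr 0) - b * e₂ * v (Sum.inr 1)) -
          a * e₂ * (e₁ * v (Sum.inr 1) + e₂ * v (Sum.inr 0) + a * e₂ * v (Sum.inr 1))) = v (Sum.inr 1)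
        have : (e₁ + a * e₂) * (e₁ * v (Sum.inr 1) + e₂ * v (Sum.inr 0) + a * e₂ * v (Sum.inr 1)) -
          e₂ * (e₁ * v (Sum.inr 0) - b * e₂ * v (Sum.inr 1)) -
          a * e₂ * (e₁ * v (Sum.inr 1) + e₂ * v (Sum.inr 0) + a * e₂ * v (Sum.inr 1)) = c * v (Sum.inr 1) := by
          rw [← he]; ring
        rw [this, inv_mul_cancel_left₀ hc]
  right_inv v := by
    funext i
    rcases i with (i | i) | i
    · change c * (c⁻¹ * v _) = v _
      rw [mul_inv_cancel_left₀ hc]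
    · rfl
    · fin_cases i
      · change e₁ * (c⁻¹ * ((e₁ + a * e₂) * v (Sum.inr 0) + b * e₂ * v (Sum.inr 1))) -
          b * e₂ * (c⁻¹ * ((e₁ + a * e₂) * v (Sum.inr 1) - e₂ * v (Sum.inr 0) - a * e₂ * v (Sum.inr 1))) = v (Sum.inr 0)
        have : e₁ * (c⁻¹ * ((e₁ + a * e₂) * v (Sum.inr 0) + b * e₂ * v (Sum.inr 1))) -
          b * e₂ * (c⁻¹ * ((e₁ + a * e₂) * v (Sum.inr 1) - e₂ * v (Sum.inr 0) - a * e₂ * v (Sum.inr 1))) =
          c⁻¹ * (c * v (Sum.inr 0)) := by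
          rw [← he]; ring
        rw [this, inv_mul_cancel_left₀ hc]
      · change e₁ * (c⁻¹ * ((e₁ + a * e₂) * v (Sum.inr 1) - e₂ * v (Sum.inr 0) - a * e₂ * v (Sum.inr 1))) +
          e₂ * (c⁻¹ * ((e₁ + a * e₂) * v (Sum.inr 0) + b * e₂ * v (Sum.inr 1))) +
          a * e₂ * (c⁻¹ * ((e₁ + a * e₂) * v (Sum.inr 1) - e₂ * v (Sum.inr 0) - a * e₂ * v (Sum.inr 1))) = v (Sum.inr 1)
        have : e₁ * (c⁻¹ * ((e₁ + a * e₂) * v (Sum.inr 1) - e₂ * v (Sum.inr 0) - a * e₂ * v (Sum.inr 1))) +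
          e₂ * (c⁻¹ * ((e₁ + a * e₂) * v (Sum.inr 0) + b * e₂ * v (Sum.inr 1))) +
          a * e₂ * (c⁻¹ * ((e₁ + a * e₂) * v (Sum.inr 1) - e₂ * v (Sum.inr 0) - a * e₂ * v (Sum.inr 1))) =
          c⁻¹ * (c * v (Sum.inr 1)) := by
          rw [← he]; ring
        rw [this, inv_mul_cancel_left₀ hc]

lemma q_tE (k : ℕ) {a b c e₁ e₂ : F} (hc : c ≠ 0) (he : e₁ ^ 2 + a * e₁ * e₂ + b * e₂ ^ 2 = c)
    (v : (Fin k ⊕ Fin k) ⊕ Fin 2 → F) : qMinus k F a b (tE k hc he v) = c * qMinus k F a b v := by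
  rw [qMinus_apply, qMinus_apply]
  have h1 : ∀ i, tE k hc he v (Sum.inl (Sum.inl i)) = c * v (Sum.inl (Sum.inl i)) := fun i => rfl
  have h2 : ∀ i, tE k hc he v (Sum.inl (Sum.inr i)) = v (Sum.inl (Sum.inr i)) := fun i => rfl
  have h3 : tE k hc he v (Sum.inr 0) = e₁ * v (Sum.inr 0) - b * e₂ * v (Sum.inr 1) := rfl
  have h4 : tE k hc he v (Sum.inr 1) = e₁ * v (Sum.inr 1) + e₂ * v (Sum.inr 0) + a * e₂ * v (Sum.inr 1) := rfl
  have h5 : ∑ i, tE k hc he v (Sum.inl (Sum.inl i)) * tE k hc he v (Sum.inl (Sum.inr i)) =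
      c * ∑ i, v (Sum.inl (Sum.inl i)) * v (Sum.inl (Sum.inr i)) := by
    rw [Finset.mul_sum]
    refine Finset.sum_congr rfl fun i _ => ?_
    rw [h1, h2]; ring
  rw [h5, h3, h4, ← he]
  ring

/-- the similarity attached to it -/
noncomputable def tG (k : ℕ) {a b c e₁ e₂ : F} (hc : c ≠ 0) (he : e₁ ^ 2 + a * e₁ * e₂ + b * e₂ ^ 2 = c) :
    ↥(simG (qMinus k F a b)) :=
  ⟨eG (tE k hc he), Units.mk0 c hc, fun v => by rw [eG_mulVec, q_tE, Units.val_mk0]⟩

lemma tG_mulVec (k : ℕ) {a b c e₁ e₂ : F} (hc : c ≠ 0) (he : e₁ ^ 2 + a * e₁ * e₂ + b * e₂ ^ 2 = c)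
    (v : (Fin k ⊕ Fin k) ⊕ Fin 2 → F) :
    ((tG k hc he : ↥(simG (qMinus k F a b))) : GL ((Fin k ⊕ Fin k) ⊕ Fin 2) F).1 *ᵥ v = tE k hc he v :=
  eG_mulVec _ _

lemma tG_mult (k : ℕ) {a b c e₁ e₂ : F} (hc : c ≠ 0) (he : e₁ ^ 2 + a * e₁ * e₂ + b * e₂ ^ 2 = c)
    (v : (Fin k ⊕ Fin k) ⊕ Fin 2 → F) :
    qMinus k F a b (((tG k hc he : ↥(simG (qMinus k F a b))) : GL ((Fin k ⊕ Fin k) ⊕ Fin 2) F).1 *ᵥ v) =
      c * qMinus k F a b v := by
  rw [tG_mulVec, q_tE]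

end coord

/-! ### the similarity over the large field -/

section big

variable {F : Type*} [Field F] [Fintype F] {F₀ : Type*} [Field F₀] [Fintype F₀] {j : F₀ →+* F} {k : ℕ}

/-- the eigenvalues on the hyperbolic basis -/
def fE (k : ℕ) (x y : Fˣ) : Fin (k + 1) → Fˣ := Fin.cons x (fun _ => y)

theorem fHom_tG {a b c e₁ e₂ : F₀} (hc : c ≠ 0) (he : e₁ ^ 2 + a * e₁ * e₂ + b * e₂ ^ 2 = c) {l l' : F} (hl : l ≠ l')
    (ha : l + l' = -j a) (hb : l * l' = j b) {r : Fˣ} (hr : (r : F) * r = j c) {η : Fˣ} (hη : (η : F) = j e₁ - l * j e₂)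
    (hη' : (η : F) * (j e₁ - l' * j e₂) = j c)
    (hq : ∃ ν : Fˣ, ∀ v, qPlus (k + 1) F (pE hl v) = (ν : F) * qMinus k F (j a) (j b) v) :
    fHom (ovr_qMinus j k a b) (hne_minus k a b) hq (tG k hc he) =
      scG (qPlus (k + 1) F) r * isoG (qPlus (k + 1) F) (lev (dgl (fE k (η * r⁻¹) r))) := by
  set M : GL (Fin (k + 1) ⊕ Fin (k + 1)) F :=
    (scG (qPlus (k + 1) F) r * isoG (qPlus (k + 1) F) (lev (dgl (fE k (η * r⁻¹) r)))).1 with hM
  have hη'' : (j e₁ - l' * j e₂) = j c * ((η⁻¹ : Fˣ) : F) := by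
    rw [Units.val_inv_eq_inv_val, ← hη']
    have := η.ne_zero
    field_simp
  have hMv : ∀ v, (M : Matrix (Fin (k + 1) ⊕ Fin (k + 1)) (Fin (k + 1) ⊕ Fin (k + 1)) F) *ᵥ v =
      (r : F) • Sum.elim (fun i => (fE k (η * r⁻¹) r i : F) * v (Sum.inl i))
        (fun i => ((fE k (η * r⁻¹) r i)⁻¹ : Fˣ) * v (Sum.inr i)) := by
    intro v
    rw [hM, Subgroup.coe_mul, Units.val_mul, ← Matrix.mulVec_mulVec, scG_coe, sc_mulVec, isoG_coe, lev_dgl]
  have key : glHom j (tG k hc he).1 = trP (pE hl).symm M := by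
    apply Units.ext
    apply matrix_ext_jv (j := j)
    intro v
    rw [glHom_mulVec_jv, tG_mulVec]
    have h1 := trP_mulVec (pE hl).symm M (pE hl (jv j v))
    rw [LinearEquiv.symm_apply_apply] at h1
    rw [h1, LinearEquiv.eq_symm_apply, hMv]
    have hr0 := r.ne_zero
    have hη0 := η.ne_zero
    have l2 : l * l = -j a * l - j b := by linear_combination (l : F) * ha - hb
    have l2' : l' * l' = -j a * l' - j b := by linear_combination (l' : F) * ha - hb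
    funext i
    rcases i with i | i
    · refine Fin.cases ?_ (fun i => ?_) i
      · rw [pE_inl_zero, Pi.smul_apply, Sum.elim_inl, pE_inl_zero, smul_eq_mul]
        change j (e₁ * v (Sum.inr 0) - b * e₂ * v (Sum.inr 1)) -
          l * j (e₁ * v (Sum.inr 1) + e₂ * v (Sum.inr 0) + a * e₂ * v (Sum.inr 1)) =
          (r : F) * (((η * r⁻¹ : Fˣ) : F) * (j (v (Sum.inr 0)) - l * j (v (Sum.inr 1))))
        have e1 : (r : F) * (((η * r⁻¹ : Fˣ) : F) * (j (v (Sum.inr 0)) - l * j (v (Sum.inr 1)))) =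
            (j e₁ - l * j e₂) * (j (v (Sum.inr 0)) - l * j (v (Sum.inr 1))) := by
          rw [Units.val_mul, Units.val_inv_eq_inv_val, ← hη]
          field_simp
        rw [e1]
        simp only [map_sub, map_add, map_mul]
        linear_combination (-(j e₂ * j (v (Sum.inr 1)))) * l2
      · rw [pE_inl_succ, Pi.smul_apply, Sum.elim_inl, pE_inl_succ, smul_eq_mul]
        change j (c * v (Sum.inl (Sum.inl i))) = (r : F) * ((r : F) * j (v (Sum.inl (Sum.inl i))))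
        rw [map_mul, ← hr]; ring
    · refine Fin.cases ?_ (fun i => ?_) i
      · rw [pE_inr_zero, Pi.smul_apply, Sum.elim_inr, pE_inr_zero, smul_eq_mul]
        change j (e₁ * v (Sum.inr 0) - b * e₂ * v (Sum.inr 1)) -
          l' * j (e₁ * v (Sum.inr 1) + e₂ * v (Sum.inr 0) + a * e₂ * v (Sum.inr 1)) =
          (r : F) * ((((η * r⁻¹)⁻¹ : Fˣ) : F) * (j (v (Sum.inr 0)) - l' * j (v (Sum.inr 1))))
        have e1 : (r : F) * ((((η * r⁻¹)⁻¹ : Fˣ) : F) * (j (v (Sum.inr 0)) - l' * j (v (Sum.inr 1)))) =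
            (j e₁ - l' * j e₂) * (j (v (Sum.inr 0)) - l' * j (v (Sum.inr 1))) := by
          rw [hη'', ← hr, _root_.mul_inv_rev, inv_inv, Units.val_mul]
          ring
        rw [e1]
        simp only [map_sub, map_add, map_mul]
        linear_combination (-(j e₂ * j (v (Sum.inr 1)))) * l2'
      · rw [pE_inr_succ, Pi.smul_apply, Sum.elim_inr, pE_inr_succ, smul_eq_mul]
        change j (v (Sum.inl (Sum.inr i))) = (r : F) * (((r⁻¹ : Fˣ) : F) * j (v (Sum.inl (Sum.inr i))))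
        rw [← mul_assoc, ← Units.val_mul, mul_inv_cancel, Units.val_one, one_mul]
  apply Subtype.ext
  rw [fHom_coe, key, trP_symm]

end big

end H50.OrthTwoGF
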