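import Cfsg.Agent.Lib.H50.OrthCountTwo
import Cfsg.Agent.Lib.H48.OmegaTwo
import Cfsg.Agent.Lib.H50.FieldAut2

/-!
Class counts for involutory field and graph-field automorphisms of `PΩ⁺`, odd characteristic.
-/

set_option autoImplicit false
set_option linter.unusedSectionVars false
set_option maxHeartbeats 400000

namespace H50.OrthTwoPlus

open Matrix H48.OutO H50.PSLBasic H50.PSLField H50.H90 H50.ClassCount H50.PSLCount H48.QuadSplit H48.QuadStd
  H50.OrthPsi H50.OrthDesc H48.OmegaPlus H50.OrthSim H18.MaxSing H50.OrthPar H50.OrthProper H50.OrthMinusK H50.OrthField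
  H50.OrthInn H50.OrthOddCount H50.OrthEven H50.OrthMinusFam H50.OrthCountE H50.OrthPlusFam H50.OrthCountTwo
  H48.OmegaLevi

/-! ### squares and norms -/

section norm

variable {F : Type*} [Field F] [Fintype F] {F₀ : Type*} [Field F₀] [Fintype F₀] {j : F₀ →+* F}

lemma ringChar_ne {K : Type*} [Field K] (h2 : (2 : K) ≠ 0) : ringChar K ≠ 2 := by
  intro h
  apply h2
  have := ringChar.Nat.cast_ringChar (R := K)
  rw [h] at this
  exact_mod_cast this

lemma isSquare_iff_norm (h2 : (2 : F) ≠ 0) (h20 : (2 : F₀) ≠ 0) (hcard : Fintype.card F = Fintype.card F₀ ^ 2)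
    {σ : F ≃+* F} (hσ : ∀ x, σ x = x ^ Fintype.card F₀) {x : F} (hx : x ≠ 0) {n₀ : F₀} (hn : x * σ x = j n₀) :
    IsSquare x ↔ IsSquare n₀ := by
  have hn0 : n₀ ≠ 0 := by
    rintro rfl
    rw [map_zero, hσ] at hn
    rcases mul_eq_zero.mp hn with h | h
    · exact hx h
    · exact hx (pow_eq_zero_iff (Fintype.card_ne_zero) |>.mp h)
  have hodd : Fintype.card F₀ % 2 = 1 := FiniteField.odd_card_of_char_ne_two (ringChar_ne h20)
  rw [FiniteField.isSquare_iff (ringChar_ne h2) hx, FiniteField.isSquare_iff (ringChar_ne h20) hn0]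
  have e1 : Fintype.card F / 2 = (Fintype.card F₀ + 1) * (Fintype.card F₀ / 2) := by
    obtain ⟨l, hl⟩ : ∃ l, Fintype.card F₀ = 2 * l + 1 := ⟨Fintype.card F₀ / 2, by omega⟩
    rw [hcard, hl]
    have e2 : (2 * l + 1) ^ 2 = 2 * ((2 * l + 2) * l) + 1 := by ring
    have e3 : (2 * l + 1) / 2 = l := by omega
    have e5 : (2 * l + 1 + 1) * l = (2 * l + 2) * l := by ring
    rw [e2, e3, e5]
    generalize (2 * l + 2) * l = z
    omega
  have e4 : x ^ (Fintype.card F₀ + 1) = j n₀ := by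
    rw [← hn, hσ, pow_succ, mul_comm]
  rw [e1, pow_mul, e4, ← map_pow]
  constructor
  · intro h
    apply j.injective
    rw [h, map_one]
  · intro h
    rw [h, map_one]

lemma neg_norm {σ : F ≃+* F} (hj : ∀ x, (∃ c, j c = x) ↔ σ x = x) {c : F₀} (hc : ¬ IsSquare c) {l : F} (hl : l * l = j c) :
    l * σ l = j (-c) := by
  have hσj : ∀ c, σ (j c) = j c := fun c => (hj _).mp ⟨c, rfl⟩
  have h1 : σ l * σ l = l * l := by rw [← map_mul, hl, hσj]
  rcases mul_self_eq_mul_self_iff.mp h1 with h | h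
  · exfalso
    obtain ⟨d, rfl⟩ := (hj l).mpr h
    apply hc
    rw [← map_mul] at hl
    exact ⟨d, (j.injective hl).symm⟩
  · rw [h, mul_neg, hl, map_neg]

lemma isSquare_pow_iff {K : Type*} [Field K] (a : K) (n : ℕ) (ha : a ≠ 0) : IsSquare (a ^ n) ↔ Even n ∨ IsSquare a := by
  rcases Nat.even_or_odd' n with ⟨l, hl | hl⟩
  · rw [hl]
    exact ⟨fun _ => Or.inl (even_two_mul l), fun _ => ⟨a ^ l, by rw [two_mul, pow_add]⟩⟩
  · have h1 : ¬ Even n := by rw [Nat.not_even_iff_odd]; exact ⟨l, hl⟩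
    constructor
    · rintro ⟨b, hb⟩
      right
      refine ⟨b / a ^ l, ?_⟩
      rw [hl, pow_succ, two_mul, pow_add] at hb
      field_simp
      rw [pow_two, pow_two]
      linear_combination hb
    · rintro (h | h)
      · exact absurd h h1
      · exact h.pow n

lemma neg_isSquare_iff {c : F₀} (hc : ¬ IsSquare c) : IsSquare (-c) ↔ Fintype.card F₀ % 4 = 3 := by
  have h1 := FiniteField.isSquare_neg_one_iff (F := F₀)
  have hc0 : c ≠ 0 := by
    rintro rfl
    exact hc IsSquare.zero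
  constructor
  · intro h
    by_contra hcon
    have h2 := h1.mpr hcon
    apply hc
    have := h2.mul h
    rwa [neg_one_mul, neg_neg] at this
  · intro h
    have h2 : ¬ IsSquare (-1 : F₀) := fun h3 => (h1.mp h3) h
    have := H48.FinFieldSq.isSquare_mul_of_not h2 hc
    rwa [neg_one_mul] at this

end norm

/-! ### diagonal elements of the Levi subgroup -/

section diag

variable {F : Type*} [Field F] {m : ℕ}

/-- a diagonal matrix -/
def dgl (f : Fin m → Fˣ) : GL (Fin m) F :=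
  ⟨Matrix.diagonal (fun i => (f i : F)), Matrix.diagonal (fun i => ((f i)⁻¹ : Fˣ)), by
    rw [Matrix.diagonal_mul_diagonal, ← Matrix.diagonal_one]
    congr 1
    ext i
    simp, by
    rw [Matrix.diagonal_mul_diagonal, ← Matrix.diagonal_one]
    congr 1
    ext i
    simp⟩

lemma dgl_det (f : Fin m → Fˣ) : ((dgl f : GL (Fin m) F) : Matrix (Fin m) (Fin m) F).det = ∏ i, (f i : F) := by
  change (Matrix.diagonal (fun i => (f i : F))).det = _
  rw [Matrix.det_diagonal]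

lemma lev_dgl (f : Fin m → Fˣ) (v : Fin m ⊕ Fin m → F) :
    (((lev (dgl f) : ↥(Cfsg.isometryGroup F (⇑(qPlus m F)))) : GL (Fin m ⊕ Fin m) F) :
      Matrix (Fin m ⊕ Fin m) (Fin m ⊕ Fin m) F) *ᵥ v =
    Sum.elim (fun i => (f i : F) * v (Sum.inl i)) (fun i => ((f i)⁻¹ : Fˣ) * v (Sum.inr i)) := by
  rw [lev_coe, lm_apply, ← Matrix.coe_units_inv]
  have h1 : ((dgl f : GL (Fin m) F)⁻¹ : GL (Fin m) F).1 = Matrix.diagonal (fun i => (((f i)⁻¹ : Fˣ) : F)) := rfl
  have h2 : (dgl f : GL (Fin m) F).1 = Matrix.diagonal (fun i => ((f i : Fˣ) : F)) := rfl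
  rw [h1, h2, Matrix.diagonal_transpose]
  funext i
  rcases i with i | i
  · rw [Sum.elim_inl, Sum.elim_inl, Matrix.mulVec_diagonal]; rfl
  · rw [Sum.elim_inr, Sum.elim_inr, Matrix.mulVec_diagonal]; rfl

variable [Fintype F]

lemma lev_mem_DP (h2 : (2 : F) ≠ 0) (A : GL (Fin m) F) : isoG (qPlus m F) (lev A) ∈ DP (qPlus m F) m := by
  rw [DP_odd h2]
  refine ⟨1, fun v => ?_, ?_⟩
  · rw [isoG_coe, (H17.OrthDet.mem_isometryGroup_iff _ _).mp (lev A).2, Units.val_one, one_mul]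
  · rw [isoG_coe, lev_coe, lm, Matrix.det_fromBlocks_zero₂₁, Matrix.det_transpose, Units.val_one, one_pow,
      ← Matrix.det_mul, Matrix.mul_nonsing_inv _ ((Matrix.isUnit_iff_isUnit_det _).mp A.isUnit), Matrix.det_one]

lemma dG_nonsq (h2 : (2 : F) ≠ 0) (hm : 4 ≤ m) : ∃ (d : ↥(simG (qPlus m F))) (c : F), d ∈ DP (qPlus m F) m ∧
    (∀ v, qPlus m F (((d : GL (Fin m ⊕ Fin m) F) : Matrix (Fin m ⊕ Fin m) (Fin m ⊕ Fin m) F) *ᵥ v) = c * qPlus m F v) ∧
    ¬ IsSquare c := by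
  obtain ⟨c, hc⟩ := H48.FinFieldSq.exists_not_isSquare h2
  have hc0 : c ≠ 0 := by
    rintro rfl
    exact hc IsSquare.zero
  refine ⟨dG m (Units.mk0 c hc0), c, ?_, dG_mult m _, hc⟩
  rw [DP_odd h2]
  exact ⟨Units.mk0 c hc0, dG_mult m _, det_dG m _⟩

lemma neg_mem_plus {q : ℕ} (hcard : Fintype.card F = q ^ 2) (hq : q % 2 = 1) (hm : 1 ≤ m) : NegMem (qPlus m F) := by
  have h1 : q ^ 2 % 4 = 1 := by
    rw [Nat.pow_mod]
    have : q % 4 = 1 ∨ q % 4 = 3 := by omega
    rcases this with h | h <;> rw [h]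
  have h2 : (q ^ 2) % 2 = 1 := by omega
  rw [negMem_plus_iff hcard (Nat.odd_iff.mpr h2) m hm, Nat.pow_mod, h1]
  simp

end diag

/-! ### field automorphisms -/

section field

variable {F : Type*} [Field F] [Fintype F] {F₀ : Type*} [Field F₀] [Fintype F₀] {j : F₀ →+* F} {m : ℕ}

theorem count_field (h2 : (2 : F) ≠ 0) (hm : 4 ≤ m) {σ : F ≃+* F} (hσ : orderOf σ = 2)
    (hj : ∀ x, (∃ c, j c = x) ↔ σ x = x) (hcard : Fintype.card F = Fintype.card F₀ ^ 2)
    (hfrob : ∀ x, σ x = x ^ Fintype.card F₀) :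
    ((Odd m ∧ Fintype.card F₀ % 4 = 1) → Cfsg.splitClassCount ((DP (qPlus m F) m).map (psi1 (qPlus m F)))
      (Cfsg.Inn (Cfsg.POmega F (⇑(qPlus m F)))) (Psi _ (std (fix_qPlus m σ))) = 2) ∧
    (¬ (Odd m ∧ Fintype.card F₀ % 4 = 1) → Cfsg.splitClassCount ((DP (qPlus m F) m).map (psi1 (qPlus m F)))
      (Cfsg.Inn (Cfsg.POmega F (⇑(qPlus m F)))) (Psi _ (std (fix_qPlus m σ))) = 4) := by
  have h20 : (2 : F₀) ≠ 0 := by
    intro h
    apply h2
    have := congrArg j h
    rwa [map_ofNat, map_zero] at this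
  have hodd : Fintype.card F₀ % 2 = 1 := FiniteField.odd_card_of_char_ne_two (ringChar_ne h20)
  obtain ⟨d, c₁, hd, hd1, hc₁⟩ := dG_nonsq (F := F) (m := m) h2 hm
  obtain ⟨c, hc⟩ := H48.FinFieldSq.exists_not_isSquare h20
  have hc0 : c ≠ 0 := by
    rintro rfl
    exact hc IsSquare.zero
  obtain ⟨l, hl⟩ := isSquare_of_sq j hcard c
  have hl0 : l ≠ 0 := by
    rintro rfl
    rw [mul_zero] at hl
    exact hc0 ((map_eq_zero j).mp hl)
  have hk₀ : dG m (Units.mk0 c hc0) ∈ DP (qPlus m F₀) m := by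
    rw [DP_odd h20]
    exact ⟨Units.mk0 c hc0, dG_mult m _, det_dG m _⟩
  have hQ := nd_iff.mp (nd_qPlus (F := F) m)
  obtain ⟨C1, C2⟩ := count_desc (y₀ := std (fix_qPlus m σ)) h2 hQ (card_plus m) (card_ge hm)
    (neg_mem_plus hcard hodd (by omega)) hd hd1 hc₁ (nd_iff.mp (nd_qPlus m)) (card_plus m) hσ hj (ovr_qPlus j m)
    (hne_plus hm) (desc_std (fix_qPlus m σ)) hcard hk₀ (dG_mult m _) hc
  have hf : fHom (ovr_qPlus j m) (hne_plus hm) (desc_std (fix_qPlus m σ)).q (dG m (Units.mk0 c hc0)) =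
      scG (qPlus m F) (Units.mk0 l hl0) * isoG (qPlus m F) (lev (dgl fun _ => Units.mk0 l hl0)) := by
    apply Subtype.ext
    rw [fHom_coe, trP_refl]
    apply gl_ext
    intro v
    rw [Subgroup.coe_mul, Units.val_mul, ← Matrix.mulVec_mulVec, scG_coe, sc_mulVec, isoG_coe, lev_dgl, glHom_coe,
      dG_coe, Matrix.diagonal_map (map_zero j)]
    funext i
    rw [Matrix.mulVec_diagonal]
    rcases i with i | i
    · simp only [Sum.elim_inl, Function.comp_apply, Pi.smul_apply, Units.val_mk0, smul_eq_mul]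
      rw [hl]; ring
    · simp only [Sum.elim_inr, Function.comp_apply, Pi.smul_apply, Units.val_mk0, smul_eq_mul, map_one,
        Units.val_inv_eq_inv_val]
      field_simp
  have hnorm := neg_norm hj hc hl.symm
  have hiff : psi1 (qPlus m F) (fHom (ovr_qPlus j m) (hne_plus hm) (desc_std (fix_qPlus m σ)).q (dG m (Units.mk0 c hc0))) ∈
      Cfsg.Inn (Cfsg.POmega F (⇑(qPlus m F))) ↔ (Even m ∨ Fintype.card F₀ % 4 = 3) := by
    rw [hf, map_mul, psi1_scG, one_mul, iso_inn_iff hQ (card_ge hm) (neg_mem_plus hcard hodd (by omega)),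
      H48.OmegaTwo.lev_mem_iff (by omega) (Or.inr (by omega)), dgl_det, Finset.prod_const, Finset.card_univ,
      Fintype.card_fin, Units.val_mk0, isSquare_pow_iff _ _ hl0, isSquare_iff_norm h2 h20 hcard hfrob hl0 hnorm,
      neg_isSquare_iff hc]
  constructor
  · rintro ⟨h3, h4⟩
    apply C1
    rw [hiff]
    rintro (h5 | h5)
    · exact (Nat.not_even_iff_odd.mpr h3) h5
    · omega
  · intro h
    apply C2
    rw [hiff]
    by_contra hcon
    push Not at hcon
    apply h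
    refine ⟨Nat.not_even_iff_odd.mp hcon.1, ?_⟩
    omega

end field

end H50.OrthTwoPlus
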