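import Mathlib

/-!
Elements of order three of `PSL(3,4)`.
-/

set_option autoImplicit false
set_option maxHeartbeats 1000000

namespace H50.SL34

lemma ch3 {F : Type*} [Field F] (M : Matrix (Fin 3) (Fin 3) F) :
    M * (M * M) = M.trace • (M * M) - (M 0 0 * M 1 1 - M 0 1 * M 1 0 + (M 0 0 * M 2 2 - M 0 2 * M 2 0) +
      (M 1 1 * M 2 2 - M 1 2 * M 2 1)) • M + M.det • (1 : Matrix (Fin 3) (Fin 3) F) := by
  rw [Matrix.trace_fin_three, Matrix.det_fin_three]
  ext i k
  fin_cases i <;> fin_cases k <;>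
    simp [Matrix.mul_apply, Fin.sum_univ_three, Matrix.sub_apply, Matrix.add_apply, Matrix.smul_apply] <;> ring

lemma char3 {F : Type*} [Field F] (M : Matrix (Fin 3) (Fin 3) F) (c : F) :
    (M - c • (1 : Matrix (Fin 3) (Fin 3) F)).det = M.det - (M 0 0 * M 1 1 - M 0 1 * M 1 0 + (M 0 0 * M 2 2 - M 0 2 * M 2 0) +
      (M 1 1 * M 2 2 - M 1 2 * M 2 1)) * c + M.trace * c ^ 2 - c ^ 3 := by
  rw [Matrix.trace_fin_three, Matrix.det_fin_three, Matrix.det_fin_three]
  simp [Matrix.sub_apply, Matrix.smul_apply]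
  ring

/-- the characteristic polynomial -/
lemma det_eq_zero {F : Type*} [Field F] (h2 : (2 : F) = 0) (hF3 : ∀ t : F, t ≠ 0 → t ^ 3 = 1)
    {M : Matrix (Fin 3) (Fin 3) F} (hdet : M.det = 1) {l : F} (hl : M * (M * M) = l • (1 : Matrix (Fin 3) (Fin 3) F))
    (hns : ∀ c : F, M ≠ c • (1 : Matrix (Fin 3) (Fin 3) F)) {c : F} (hc : c ≠ 0) :
    (M - c • (1 : Matrix (Fin 3) (Fin 3) F)).det = 0 := by
  have hCH := ch3 M
  rw [char3]
  set e := (M 0 0 * M 1 1 - M 0 1 * M 1 0 + (M 0 0 * M 2 2 - M 0 2 * M 2 0) +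
      (M 1 1 * M 2 2 - M 1 2 * M 2 1)) with he
  set t := M.trace with ht
  rw [hdet, one_smul, hl] at hCH
  rw [hdet]
  -- M is invertible, so l ≠ 0
  have hl0 : l ≠ 0 := by
    rintro rfl
    have h1 : (M * (M * M)).det = 0 := by
      rw [hl, zero_smul, Matrix.det_zero]
    rw [Matrix.det_mul, Matrix.det_mul, hdet] at h1
    norm_num at h1
  have ht0 : t = 0 := by
    by_contra ht0
    have h1 : M * M = (e / t) • M + ((l - 1) / t) • (1 : Matrix (Fin 3) (Fin 3) F) := by
      have h2 : t • (M * M) = e • M + (l - 1) • (1 : Matrix (Fin 3) (Fin 3) F) := by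
        rw [sub_smul, one_smul, hCH]; abel
      have h3 := congrArg (fun X => t⁻¹ • X) h2
      simp only [smul_add, smul_smul] at h3
      rw [inv_mul_cancel₀ ht0, one_smul] at h3
      rw [h3, div_eq_inv_mul, div_eq_inv_mul]
    set α := e / t with hα
    set β := (l - 1) / t with hβ
    have h3 : l • (1 : Matrix (Fin 3) (Fin 3) F) = (α ^ 2 + β) • M + (α * β) • (1 : Matrix (Fin 3) (Fin 3) F) := by
      rw [← hl, h1, Matrix.mul_add, Matrix.mul_smul, Matrix.mul_smul, Matrix.mul_one, h1]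
      module
    have h4 : α ^ 2 + β = 0 := by
      by_contra h4
      apply hns ((l - α * β) / (α ^ 2 + β))
      have h5 : (α ^ 2 + β) • M = (l - α * β) • (1 : Matrix (Fin 3) (Fin 3) F) := by
        rw [sub_smul, h3]; abel
      have h6 := congrArg (fun X => (α ^ 2 + β)⁻¹ • X) h5
      simp only [smul_smul] at h6
      rw [inv_mul_cancel₀ h4, one_smul] at h6
      rw [h6, div_eq_inv_mul]
    rw [h4, zero_smul, zero_add] at h3
    have h5 : l = α * β := by
      have := congrFun (congrFun h3 0) 0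
      simpa using this
    have h6 : β = - α ^ 2 := by linear_combination h4
    have hα0 : α ≠ 0 := by
      intro h; rw [h, zero_mul] at h5; exact hl0 h5
    have h7 := hF3 α hα0
    have h8 : l = 1 := by
      rw [h5, h6]
      linear_combination -h7 - h2
    rw [hβ, h8, sub_self, zero_div] at h6
    exact hα0 (pow_eq_zero_iff (two_ne_zero) |>.mp (by linear_combination h6))
  rw [ht0, zero_smul, zero_sub] at hCH
  have he0 : e = 0 := by
    by_contra he0
    apply hns ((1 - l) / e)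
    have h5 : e • M = (1 - l) • (1 : Matrix (Fin 3) (Fin 3) F) := by
      rw [sub_smul, hCH, one_smul]; abel
    have h6 := congrArg (fun X => e⁻¹ • X) h5
    simp only [smul_smul] at h6
    rw [inv_mul_cancel₀ he0, one_smul] at h6
    rw [h6, div_eq_inv_mul]
  rw [he0, ht0, hF3 c hc]
  ring

/-- diagonalisation -/
lemma exists_diag {F : Type*} [Field F] (h2 : (2 : F) = 0) (hF3 : ∀ t : F, t ≠ 0 → t ^ 3 = 1) {w : F} (hw0 : w ≠ 0)
    (hw1 : w ≠ 1) {M : Matrix (Fin 3) (Fin 3) F} (hdet : M.det = 1) {l : F}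
    (hl : M * (M * M) = l • (1 : Matrix (Fin 3) (Fin 3) F))
    (hns : ∀ c : F, M ≠ c • (1 : Matrix (Fin 3) (Fin 3) F)) :
    ∃ g : Matrix (Fin 3) (Fin 3) F, g.det = 1 ∧ M * g = g * Matrix.diagonal ![1, w, w * w] := by
  classical
  set μ : Fin 3 → F := ![1, w, w * w] with hμ
  have hμ0 : ∀ i, μ i ≠ 0 := by
    intro i
    fin_cases i
    · exact one_ne_zero
    · exact hw0
    · exact mul_ne_zero hw0 hw0
  have hw3 := hF3 w hw0
  have hww1 : w * w ≠ 1 := by
    intro h
    apply hw1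
    have : w ^ 3 = w * w * w := by ring
    rw [this, h, one_mul] at hw3
    exact hw3
  have hwww : w * w ≠ w := fun h => hw1 (mul_left_cancel₀ hw0 (by rw [h, mul_one]))
  have hinj : Function.Injective μ := by
    intro i k hik
    fin_cases i <;> fin_cases k
    · rfl
    · exact absurd hik.symm hw1
    · exact absurd hik.symm hww1
    · exact absurd hik hw1
    · rfl
    · exact absurd hik.symm hwww
    · exact absurd hik hww1
    · exact absurd hik hwww
    · rfl
  have hv : ∀ i, ∃ v : Fin 3 → F, v ≠ 0 ∧ Matrix.mulVec M v = μ i • v := by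
    intro i
    obtain ⟨v, hv, hv2⟩ := Matrix.exists_mulVec_eq_zero_iff.mpr (det_eq_zero h2 hF3 hdet hl hns (hμ0 i))
    refine ⟨v, hv, ?_⟩
    rw [Matrix.sub_mulVec, Matrix.smul_mulVec, Matrix.one_mulVec, sub_eq_zero] at hv2
    exact hv2
  choose v hv0 hv1 using hv
  have hli : LinearIndependent F v := by
    apply Module.End.eigenvectors_linearIndependent' (Matrix.toLin' M) μ hinj v
    intro i
    rw [Module.End.hasEigenvector_iff, Module.End.mem_eigenspace_iff]
    exact ⟨by rw [Matrix.toLin'_apply]; exact hv1 i, hv0 i⟩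
  let g₀ : Matrix (Fin 3) (Fin 3) F := Matrix.of fun i k => v k i
  have hg₀ : IsUnit g₀ := by
    rw [← Matrix.linearIndependent_cols_iff_isUnit]
    exact hli
  have hMg : M * g₀ = g₀ * Matrix.diagonal μ := by
    ext i k
    rw [Matrix.mul_diagonal]
    have := congrFun (hv1 k) i
    rw [Pi.smul_apply, smul_eq_mul, mul_comm] at this
    exact this
  have hd0 : g₀.det ≠ 0 := ((Matrix.isUnit_iff_isUnit_det _).mp hg₀).ne_zero
  refine ⟨g₀ * Matrix.diagonal ![g₀.det⁻¹, 1, 1], ?_, ?_⟩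
  · rw [Matrix.det_mul, Matrix.det_diagonal, Fin.prod_univ_three]
    simp [hd0]
  · rw [← Matrix.mul_assoc, hMg, Matrix.mul_assoc, Matrix.mul_assoc, Matrix.diagonal_mul_diagonal,
      Matrix.diagonal_mul_diagonal]
    congr 2
    funext i
    exact mul_comm _ _

end H50.SL34
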