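import Cfsg.Agent.Lib.H50.SpBasic
import Cfsg.Agent.Lib.H49.FormConj3
import Cfsg.Agent.Lib.H46.CaseD

/-!
Operators commuting with a fixed-point-free isometry of odd order: the determinant of a similarity.
-/

set_option autoImplicit false
set_option linter.unusedSectionVars false
set_option maxHeartbeats 400000

namespace H50.SSDet

open Matrix H6.Symp H49.FormConj2 Module

variable {F : Type*} [Field F]

lemma det_sim_std {m : ℕ} (M : Matrix (Fin m ⊕ Fin m) (Fin m ⊕ Fin m) F) {μ : F} (hμ : μ ≠ 0)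
    (h : ∀ u v, bf (M *ᵥ u) (M *ᵥ v) = μ * bf u v) : M.det = μ ^ m := by
  have hD : ∀ w : Fin m ⊕ Fin m → F,
      (Matrix.diagonal (Sum.elim (fun _ : Fin m => μ⁻¹) (fun _ => 1))) *ᵥ w =
        Sum.elim (fun i => μ⁻¹ * w (Sum.inl i)) (fun i => w (Sum.inr i)) := by
    intro w
    ext i
    rw [Matrix.mulVec_diagonal]
    rcases i with i | i
    · rfl
    · simp
  have h1 : (Matrix.diagonal (Sum.elim (fun _ : Fin m => μ⁻¹) (fun _ => 1))) * M ∈ Matrix.symplecticGroup (Fin m) F := by
    rw [mem_iff_bf]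
    intro u v
    rw [← Matrix.mulVec_mulVec, ← Matrix.mulVec_mulVec, hD, hD]
    have h2 : ∀ x y : Fin m ⊕ Fin m → F, bf (Sum.elim (fun i => μ⁻¹ * x (Sum.inl i)) (fun i => x (Sum.inr i)))
        (Sum.elim (fun i => μ⁻¹ * y (Sum.inl i)) (fun i => y (Sum.inr i))) = μ⁻¹ * bf x y := by
      intro x y
      rw [bf_eq_sum, bf_eq_sum, Finset.mul_sum]
      refine Finset.sum_congr rfl fun i _ => ?_
      simp only [Sum.elim_inl, Sum.elim_inr]
      ring
    rw [h2, h, ← mul_assoc, inv_mul_cancel₀ hμ, one_mul]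
  have h3 := SymplecticGroup.det_eq_one h1
  rw [Matrix.det_mul, Matrix.det_diagonal, Fintype.prod_sum_type] at h3
  simp only [Sum.elim_inl, Sum.elim_inr, Finset.prod_const, Finset.card_univ, Fintype.card_fin, one_pow, mul_one] at h3
  rw [inv_pow] at h3
  field_simp at h3
  exact h3

variable {V : Type*} [AddCommGroup V] [Module F V] [FiniteDimensional F V]

theorem det_sim_alt (B : LinearMap.BilinForm F V) (hA : B.IsAlt) (hB : NDB B) {n : ℕ} (hd : finrank F V = 2 * n)
    (c : V →ₗ[F] V) {μ : F} (hμ : μ ≠ 0) (hc : ∀ u v, B (c u) (c v) = μ * B u v) : LinearMap.det c = μ ^ n := by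
  obtain ⟨e, he⟩ := H49.EmbedSymp.symp_coords B hA hB hd
  have h1 : LinearMap.det ((e : V →ₗ[F] (Fin n ⊕ Fin n → F)) ∘ₗ c ∘ₗ (e.symm : (Fin n ⊕ Fin n → F) →ₗ[F] V)) =
      LinearMap.det c := LinearMap.det_conj c e
  rw [← h1, ← LinearMap.det_toMatrix']
  apply det_sim_std _ hμ
  intro u v
  rw [← Matrix.toLin'_apply, ← Matrix.toLin'_apply, Matrix.toLin'_toMatrix']
  change Cfsg.sympForm n F (e (c (e.symm u))) (e (c (e.symm v))) = μ * Cfsg.sympForm n F u v
  rw [he, hc, ← he, e.apply_symm_apply, e.apply_symm_apply]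

/-- similarities commuting with a fixed-point-free isometry of odd order are proper -/
theorem det_sim (f : LinearMap.BilinForm F V) (hf : NDB f) (hs : ∀ u v, f u v = f v u) {n : ℕ} (hd : finrank F V = 2 * n)
    (s : V ≃ₗ[F] V) (hiso : ∀ u v, f (s u) (s v) = f u v) (hfix : ∀ v, s (s v) = v → v = 0)
    (c : V →ₗ[F] V) (hcs : ∀ v, c (s v) = s (c v)) {μ : F} (hμ : μ ≠ 0) (hc : ∀ u v, f (c u) (c v) = μ * f u v) :
    LinearMap.det c = μ ^ n := by
  let β : LinearMap.BilinForm F V := f.comp ((s : V →ₗ[F] V) - (s.symm : V →ₗ[F] V)) LinearMap.id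
  have hβ : ∀ u v, β u v = f (s u) v - f (s.symm u) v := by
    intro u v
    change f (s u - s.symm u) v = _
    rw [map_sub, LinearMap.sub_apply]
  have hsym : ∀ v, c (s.symm v) = s.symm (c v) := by
    intro v
    apply s.injective
    rw [← hcs, s.apply_symm_apply, s.apply_symm_apply]
  have hadj : ∀ u v, f (s.symm u) v = f u (s v) := by
    intro u v
    rw [← hiso (s.symm u) v, s.apply_symm_apply]
  have hA : β.IsAlt := by
    intro u
    rw [hβ, hadj, hs u (s u), sub_self]
  have hB : NDB β := by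
    intro x hx
    apply hfix
    have h1 : s x - s.symm x = 0 := by
      apply hf
      intro y
      exact hx y
    have h2 := congrArg s (sub_eq_zero.mp h1)
    rw [s.apply_symm_apply] at h2
    exact h2
  apply det_sim_alt β hA hB hd c hμ
  intro u v
  rw [hβ, hβ, ← hcs, ← hsym, hc, hc, mul_sub]

end H50.SSDet
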