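import Mathlib

/-!
Irreducible factors of operators of odd order.
-/

set_option autoImplicit false
set_option linter.unusedSectionVars false
set_option maxHeartbeats 400000

namespace H50.SSFac

open Polynomial

variable {F : Type*} [Field F] {V : Type*} [AddCommGroup V] [Module F V]

theorem exists_irred (T : V →ₗ[F] V) (q : F[X]) (hq : q ≠ 0) {w : V} (hw : w ≠ 0) (h : aeval T q w = 0) :
    ∃ p : F[X], p.Monic ∧ Irreducible p ∧ p ∣ q ∧ ∃ w, w ≠ 0 ∧ aeval T p w = 0 := by
  revert hq w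
  induction q using WfDvdMonoid.induction_on_irreducible with
  | zero => intro h; exact absurd rfl h
  | unit u hu =>
    intro _ w hw h
    exfalso
    obtain ⟨a, ha, rfl⟩ := Polynomial.isUnit_iff.mp hu
    rw [aeval_C] at h
    have h1 : a • w = 0 := h
    rcases smul_eq_zero.mp h1 with h2 | h2
    · exact ha.ne_zero h2
    · exact hw h2
  | mul a i ha hi ih =>
    intro _ w hw h
    by_cases h1 : aeval T a w = 0
    · obtain ⟨p, h2, h3, h4, h5⟩ := ih ha hw h1
      exact ⟨p, h2, h3, h4.mul_left i, h5⟩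
    · have hi0 : i ≠ 0 := hi.ne_zero
      refine ⟨i * C i.leadingCoeff⁻¹, monic_mul_leadingCoeff_inv hi0, ?_, ?_, aeval T a w, h1, ?_⟩
      · rw [irreducible_mul_leadingCoeff_inv]; exact hi
      · have hlc : C i.leadingCoeff⁻¹ * C i.leadingCoeff = (1 : F[X]) := by
          rw [← C_mul, inv_mul_cancel₀ (leadingCoeff_ne_zero.mpr hi0), C_1]
        exact ⟨C i.leadingCoeff * a, by linear_combination (-i * a) * hlc⟩
      · rw [map_mul, Module.End.mul_apply] at h
        rw [mul_comm, map_mul, Module.End.mul_apply, h, map_zero]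

theorem exists_factor (T : V →ₗ[F] V) {r : ℕ} (hr : (r : F) ≠ 0) (h2 : (2 : F) ≠ 0) (hodd : Odd r) (hT : T ^ r = 1)
    (hne : T ≠ 1) : ∃ p : F[X], p.Monic ∧ Irreducible p ∧ p ≠ X - C 1 ∧ p ≠ X - C (-1) ∧
      ∃ w, aeval T p w = 0 ∧ w ∉ LinearMap.range (aeval T p) := by
  have hr0 : r ≠ 0 := by rintro rfl; exact hr Nat.cast_zero
  have hgs : (∑ k ∈ Finset.range r, (X : F[X]) ^ k) * (X - 1) = X ^ r - 1 := geom_sum_mul _ _
  have hX : aeval T ((X : F[X]) ^ r - 1) = 0 := by
    rw [map_sub, map_pow, aeval_X, map_one, hT, sub_self]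
  obtain ⟨v, hv⟩ : ∃ v, T v ≠ v := by
    by_contra h
    push Not at h
    exact hne (LinearMap.ext h)
  have hw0 : T v - v ≠ 0 := sub_ne_zero.mpr hv
  have hz : aeval T (∑ k ∈ Finset.range r, (X : F[X]) ^ k) (T v - v) = 0 := by
    have h1 : T v - v = aeval T ((X : F[X]) - 1) v := by
      rw [map_sub, aeval_X, map_one]; rfl
    rw [h1, ← Module.End.mul_apply, ← map_mul, hgs, hX]; rfl
  have hΨ1 : eval 1 (∑ k ∈ Finset.range r, (X : F[X]) ^ k) = (r : F) := by
    rw [eval_finset_sum]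
    simp
  have hΨ : (∑ k ∈ Finset.range r, (X : F[X]) ^ k) ≠ 0 := by
    intro h
    rw [h, eval_zero] at hΨ1
    exact hr hΨ1.symm
  obtain ⟨p, hpm, hpi, hpd, w, hw, hpw⟩ := exists_irred T _ hΨ hw0 hz
  have hpX : p ∣ X ^ r - 1 := by
    rw [← hgs]; exact hpd.mul_right _
  refine ⟨p, hpm, hpi, ?_, ?_, w, hpw, ?_⟩
  · rintro rfl
    have h1 := dvd_iff_isRoot.mp hpd
    rw [IsRoot.def, hΨ1] at h1
    exact hr h1
  · rintro rfl
    have h1 := dvd_iff_isRoot.mp hpX
    rw [IsRoot.def, eval_sub, eval_pow, eval_X, eval_one, hodd.neg_one_pow] at h1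
    apply h2
    linear_combination -h1
  · rintro ⟨z, hz⟩
    obtain ⟨k, hk⟩ := hpX
    have hsep : (p * k).Separable := by
      rw [← hk]
      have := separable_X_pow_sub_C (1 : F) hr one_ne_zero
      rwa [C_1] at this
    obtain ⟨a, b, hab⟩ := hsep.isCoprime
    apply hw
    have h1 : w = aeval T (a * p + b * k) w := by rw [hab, map_one]; rfl
    rw [h1, map_add, LinearMap.add_apply, map_mul, Module.End.mul_apply, hpw, map_zero, zero_add]
    have h3 : aeval T k w = 0 := by
      rw [← hz, ← Module.End.mul_apply, ← map_mul, mul_comm, ← hk, hX]; rfl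
    rw [map_mul, Module.End.mul_apply, h3, map_zero]

end H50.SSFac
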