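import Cfsg.Agent.Lib.H50.SSFuse
import Cfsg.Agent.Lib.H48.Pgo6

/-!
S2720, S2721.
-/

set_option autoImplicit false
set_option linter.unusedSectionVars false
set_option maxHeartbeats 400000

namespace H50.SSFin

open Matrix H48.OutO H50.PSLBasic H50.PSLField H48.QuadSplit H48.QuadStd
  H50.OrthPsi H50.OrthDesc H50.OrthSim H50.OrthProper H48.Pgo H50.OrthInn H50.SSFuse

variable {F : Type*} [Field F]

lemma equiv_of_sim {ι : Type} [Fintype ι] [DecidableEq ι] {Q : QuadraticForm F (ι → F)} {g : ↥(simG Q)} {c : F}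
    (h : IsMult Q (toGam Q g : GA ι F) c) : Q.Equivalent (c • Q) := by
  have h1 : (c • Q).Equivalent Q := ⟨⟨glE g.1, fun v => h v⟩⟩
  exact h1.symm

lemma sim_plus (m : ℕ) {c : F} (hc : c ≠ 0) : (qPlus m F).Equivalent (c • qPlus m F) :=
  equiv_of_sim (dS_mult m c hc)

lemma sim_minus [Fintype F] (m : ℕ) {a b : F} (hab : ∀ z₁ z₂ : F, z₁ ^ 2 + a * z₁ * z₂ + b * z₂ ^ 2 = 0 → z₁ = 0 ∧ z₂ = 0)
    {c : F} (hc : c ≠ 0) : (qMinus m F a b).Equivalent (c • qMinus m F a b) := by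
  haveI := H7.AnisoPlane.Aniso.fact hab
  obtain ⟨z, hz⟩ := H48.OutO.exists_norm hab hc
  have h1 : z.re ^ 2 + a * z.re * z.im + b * z.im ^ 2 = c := by
    rw [← hz, QuadraticAlgebra.norm_def]; ring
  have h3 := equiv_of_sim (dM_mult m a b z.re z.im (by rw [h1]; exact hc))
  rwa [h1] at h3

section plus

variable [Fintype F] {p : ℕ} [Fact p.Prime] [CharP F p] (hp : p ≠ 2) {m : ℕ}

lemma two_ne (p : ℕ) [Fact p.Prime] [CharP F p] (hp : p ≠ 2) : (2 : F) ≠ 0 := by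
  intro h
  have h1 : ((2 : ℕ) : F) = 0 := by exact_mod_cast h
  rw [CharP.cast_eq_zero_iff F p] at h1
  exact hp ((Nat.prime_dvd_prime_iff_eq (Fact.out : p.Prime) Nat.prime_two).mp h1)

lemma r_ne (p : ℕ) [Fact p.Prime] [CharP F p] {r : ℕ} (hr : r.Prime) (hrp : r ≠ p) : (r : F) ≠ 0 := by
  intro h1
  rw [CharP.cast_eq_zero_iff F p] at h1
  exact hrp ((Nat.prime_dvd_prime_iff_eq (Fact.out : p.Prime) hr).mp h1).symm

theorem s2720 (hp : p ≠ 2) (hm : 4 ≤ m) (x : MulAut (Cfsg.POmega F (⇑(qPlus m F)))) (hx : x ∈ Cfsg.pgoAut F (⇑(qPlus m F)))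
    {r : ℕ} (hr : r.Prime) (hro : Odd r) (hrp : r ≠ p) (hxr : orderOf x = r) :
    (∀ y : MulAut (Cfsg.POmega F (⇑(qPlus m F))),
      (Cfsg.IsConjUnder (Cfsg.Inn (Cfsg.POmega F (⇑(qPlus m F)))) x y ↔
        Cfsg.IsConjUnder (inndF (⇑(qPlus m F)) (Cfsg.PreservesSingularClasses (⇑(qPlus m F)))) x y) ∧
      (Cfsg.IsConjUnder (Cfsg.psoAut F (⇑(qPlus m F))) x y ↔
        Cfsg.IsConjUnder (inndF (⇑(qPlus m F)) (Cfsg.PreservesSingularClasses (⇑(qPlus m F)))) x y)) ∧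
    (∀ y : MulAut (Cfsg.POmega F (⇑(qPlus m F))),
      Cfsg.IsConjUnder (Cfsg.poAut F (⇑(qPlus m F))) x y ↔ Cfsg.IsConjUnder (Cfsg.pgoAut F (⇑(qPlus m F))) x y) := by
  rw [inndP_eq hm]
  have hcard : Fintype.card (Fin m ⊕ Fin m) = 2 * m := by
    rw [Fintype.card_sum, Fintype.card_fin]; ring
  exact main (two_ne p hp) (nd_iff.mp (nd_qPlus m)) (by omega) hcard (fun c hc => sim_plus m hc) hx (r_ne p hr hrp)
    hr.one_lt hro hxr

end plus

section minus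

variable [Fintype F] {p : ℕ} [Fact p.Prime] [CharP F p] {m : ℕ}

end minus

end H50.SSFin

namespace H50.SSFin

open Matrix H48.OutO H50.PSLBasic H50.PSLField H48.QuadSplit H48.QuadStd
  H50.OrthPsi H50.OrthDesc H50.OrthSim H50.OrthProper H48.Pgo H50.OrthInn H50.SSFuse

universe u

theorem s2721 {F : Type u} [Field F] [Fintype F] {p : ℕ} [Fact p.Prime] [CharP F p] (hp : p ≠ 2) {m : ℕ} (hm : 3 ≤ m)
    (a b : F) (hab : ∀ z₁ z₂ : F, z₁ ^ 2 + a * z₁ * z₂ + b * z₂ ^ 2 = 0 → z₁ = 0 ∧ z₂ = 0)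
    (x : MulAut (Cfsg.POmega F (⇑(qMinus m F a b)))) (hx : x ∈ Cfsg.pgoAut F (⇑(qMinus m F a b)))
    {r : ℕ} (hr : r.Prime) (hro : Odd r) (hrp : r ≠ p) (hxr : orderOf x = r) :
    (∀ y : MulAut (Cfsg.POmega F (⇑(qMinus m F a b))),
      (Cfsg.IsConjUnder (Cfsg.Inn (Cfsg.POmega F (⇑(qMinus m F a b)))) x y ↔
        Cfsg.IsConjUnder (inndF (⇑(qMinus m F a b)) (Cfsg.PreservesSingularClassesMinus m a b)) x y) ∧
      (Cfsg.IsConjUnder (Cfsg.psoAut F (⇑(qMinus m F a b))) x y ↔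
        Cfsg.IsConjUnder (inndF (⇑(qMinus m F a b)) (Cfsg.PreservesSingularClassesMinus m a b)) x y)) ∧
    (∀ y : MulAut (Cfsg.POmega F (⇑(qMinus m F a b))),
      Cfsg.IsConjUnder (Cfsg.poAut F (⇑(qMinus m F a b))) x y ↔ Cfsg.IsConjUnder (Cfsg.pgoAut F (⇑(qMinus m F a b))) x y) := by
  rw [inndM_eq hm hab]
  exact main (two_ne p hp) (nd_iff.mp (H50.OrthInn.nd_minus hab)) (card_minus_ge hm) (card_minus' m)
    (fun c hc => sim_minus m hab hc) hx (r_ne p hr hrp) hr.one_lt hro hxr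

end H50.SSFin
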