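import Cfsg.Agent.Lib.H50.SSDet
import Cfsg.Agent.Lib.H50.SSFac
import Cfsg.Agent.Lib.H50.OrthInn
import Cfsg.Agent.Lib.H46.OddFinal
import Cfsg.Agent.Lib.H48.Pgo1

/-!
Classes of semisimple automorphisms of odd prime order of even-dimensional orthogonal groups.
-/

set_option autoImplicit false
set_option linter.unusedSectionVars false
set_option maxHeartbeats 400000

namespace H50.SSFuse

open Matrix H48.OutO H50.PSLBasic H50.PSLField H48.QuadSplit H48.QuadStd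
  H50.OrthPsi H50.OrthDesc H50.OrthSim H50.OrthProper H48.Pgo H17.OrthAbs H17.OrthTheta H17.OrthOmega H49.FormConj2

variable {F : Type*} [Field F] [Fintype F] {ι : Type} [Fintype ι] [DecidableEq ι] {Q : QuadraticForm F (ι → F)}

lemma comm_iff {g : ↥(simG Q)} {s : ↥(Cfsg.isometryGroup F (⇑Q))} :
    Commute g (isoG Q s) ↔ ∀ v, ((g : GL ι F) : Matrix ι ι F) *ᵥ (((s : GL ι F) : Matrix ι ι F) *ᵥ v) =
      ((s : GL ι F) : Matrix ι ι F) *ᵥ (((g : GL ι F) : Matrix ι ι F) *ᵥ v) := by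
  constructor
  · intro h v
    have h1 := congrArg (fun z : ↥(simG Q) => ((z : GL ι F) : Matrix ι ι F) *ᵥ v) h.eq
    have h3 : (((g : GL ι F) : Matrix ι ι F) * ((s : GL ι F) : Matrix ι ι F)) *ᵥ v =
      (((s : GL ι F) : Matrix ι ι F) * ((g : GL ι F) : Matrix ι ι F)) *ᵥ v := h1
    rw [← Matrix.mulVec_mulVec, ← Matrix.mulVec_mulVec] at h3
    exact h3
  · intro h
    apply Subtype.ext
    apply gl_ext
    intro v
    change (((g : GL ι F) : Matrix ι ι F) * ((s : GL ι F) : Matrix ι ι F)) *ᵥ v =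
      (((s : GL ι F) : Matrix ι ι F) * ((g : GL ι F) : Matrix ι ι F)) *ᵥ v
    rw [← Matrix.mulVec_mulVec, ← Matrix.mulVec_mulVec]
    exact h v

lemma isMult_iff {g : ↥(simG Q)} {c : F} : IsMult Q (toGam Q g : GA ι F) c ↔
    ∀ v, Q (((g : GL ι F) : Matrix ι ι F) *ᵥ v) = c * Q v := Iff.rfl

variable (h2 : (2 : F) ≠ 0) (hQ : (QuadraticMap.polarBilin Q).Nondegenerate) (hn : 7 ≤ Fintype.card ι)
  {r : ℕ} (hr : (r : F) ≠ 0) (hodd : Odd r) {s : ↥(Cfsg.isometryGroup F (⇑Q))} (hs : s ^ r = 1)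

/-- the isometry as a linear map -/
noncomputable abbrev T (s : ↥(Cfsg.isometryGroup F (⇑Q))) : (ι → F) →ₗ[F] (ι → F) :=
  ((H17.OrthTrans.equiv Q s : ↥(O Q)) : (ι → F) ≃ₗ[F] (ι → F))

lemma T_apply (s : ↥(Cfsg.isometryGroup F (⇑Q))) (v : ι → F) : T s v = ((s : GL ι F) : Matrix ι ι F) *ᵥ v := rfl

lemma T_pow (s : ↥(Cfsg.isometryGroup F (⇑Q))) (k : ℕ) : T (s ^ k) = T s ^ k := by
  induction k with
  | zero =>
    apply LinearMap.ext
    intro v
    rw [T_apply, pow_zero, pow_zero]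
    exact Matrix.one_mulVec v
  | succ k ih =>
    rw [pow_succ (T s), ← ih]
    apply LinearMap.ext
    intro v
    rw [T_apply, Module.End.mul_apply, T_apply, T_apply, pow_succ, Subgroup.coe_mul, Units.val_mul, ← Matrix.mulVec_mulVec]

lemma T_iso (s : ↥(Cfsg.isometryGroup F (⇑Q))) (v : ι → F) : Q (T s v) = Q v :=
  (H17.OrthDet.mem_isometryGroup_iff _ _).mp s.2 v

include hs in
lemma T_pow_eq : T s ^ r = 1 := by
  rw [← T_pow, hs]
  apply LinearMap.ext
  intro v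
  rw [T_apply]
  exact Matrix.one_mulVec v

include hQ hr hodd hs in
/-- similarities in the centralizer with a prescribed multiplier -/
theorem exists_sim {c : F} (hc : c ≠ 0) (hsim : Q.Equivalent (c • Q)) :
    ∃ g : ↥(simG Q), Commute g (isoG Q s) ∧ ∀ v, Q (((g : GL ι F) : Matrix ι ι F) *ᵥ v) = c * Q v := by
  have hnd : ND Q := nd_iff.mpr hQ
  have hpol : ∀ u v, QuadraticMap.polar (⇑(c • Q)) u v = c * QuadraticMap.polar (⇑Q) u v := by
    intro u v
    simp only [QuadraticMap.polar, QuadraticMap.smul_apply, smul_eq_mul]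
    ring
  have hnd' : ND (c • Q) := by
    intro x hx
    apply hnd
    intro y
    have := hx y
    rw [hpol] at this
    exact (mul_eq_zero.mp this).resolve_left hc
  obtain ⟨y, hy1, hy2⟩ := H49.FormConj3.orth_conj (T s) Q (c • Q) hnd hnd' hsim (T_iso s)
    (fun v => by rw [QuadraticMap.smul_apply, QuadraticMap.smul_apply, T_iso]) r hodd hr (T_pow_eq hs)
  have hy : ∀ v, (((H17.OrthTrans.phi ι F).symm y : GL ι F) : Matrix ι ι F) *ᵥ v = y v := by
    intro v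
    rw [← H17.OrthTrans.phi_apply, MulEquiv.apply_symm_apply]
  have hm : ∀ v, Q ((((H17.OrthTrans.phi ι F).symm y : GL ι F) : Matrix ι ι F) *ᵥ v) = c * Q v := by
    intro v
    rw [hy, hy2]; rfl
  refine ⟨⟨(H17.OrthTrans.phi ι F).symm y, mem_simG.mpr ⟨Units.mk0 c hc, hm⟩⟩, comm_iff.mpr fun v => ?_, hm⟩
  change (((H17.OrthTrans.phi ι F).symm y : GL ι F) : Matrix ι ι F) *ᵥ (((s : GL ι F) : Matrix ι ι F) *ᵥ v) =
    ((s : GL ι F) : Matrix ι ι F) *ᵥ ((((H17.OrthTrans.phi ι F).symm y : GL ι F) : Matrix ι ι F) *ᵥ v)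
  rw [hy, hy]
  exact hy1 v

include h2 hQ hodd hs in
/-- a similarity in the centralizer of a fixed-point-free isometry is proper -/
theorem det_of_fpf {n : ℕ} (hm : Fintype.card ι = 2 * n) (hfix : ∀ v, ((s : GL ι F) : Matrix ι ι F) *ᵥ v = v → v = 0)
    {g : ↥(simG Q)} (hg : Commute g (isoG Q s)) {c : F} (hc : c ≠ 0)
    (hgc : ∀ v, Q (((g : GL ι F) : Matrix ι ι F) *ᵥ v) = c * Q v) : ((g : GL ι F) : Matrix ι ι F).det = c ^ n := by
  have hnd : ND Q := nd_iff.mpr hQ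
  have hpol : ∀ u v, QuadraticMap.polarBilin Q (((g : GL ι F) : Matrix ι ι F) *ᵥ u) (((g : GL ι F) : Matrix ι ι F) *ᵥ v) =
      c * QuadraticMap.polarBilin Q u v := by
    intro u v
    change QuadraticMap.polar _ _ _ = c * QuadraticMap.polar _ _ _
    simp only [QuadraticMap.polar, ← Matrix.mulVec_add, hgc]
    ring
  rw [← LinearMap.det_toLin']
  refine H50.SSDet.det_sim (QuadraticMap.polarBilin Q) (fun x hx => hnd x fun y => hx y)
    (fun u v => QuadraticMap.polar_comm _ _ _) (n := n) (by rw [Module.finrank_fintype_fun_eq_card, hm])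
    ((H17.OrthTrans.equiv Q s : ↥(O Q)) : (ι → F) ≃ₗ[F] (ι → F)) ?_ ?_ _ ?_ hc ?_
  · intro u v
    exact H17.OrthDet.polar_isometry Q _ (T_iso s) u v
  · intro v hv
    apply hfix
    obtain ⟨k, hk⟩ := hodd
    have h1 : ∀ j : ℕ, (T s ^ (2 * j)) v = v := by
      intro j
      induction j with
      | zero => rfl
      | succ j ih =>
        rw [mul_add, mul_one, pow_add, Module.End.mul_apply]
        have : (T s ^ 2) v = v := by rw [pow_two]; exact hv
        rw [this, ih]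
    have h3 := T_pow_eq hs
    have h4 : T s v = (T s ^ r) v := by
      rw [hk, pow_succ', Module.End.mul_apply, h1]
    rw [h3] at h4
    exact h4
  · intro v
    exact comm_iff.mp hg v
  · exact hpol

include h2 hQ in
/-- a nonsingular fixed vector -/
theorem exists_fixed (hfix : ¬ ∀ v, ((s : GL ι F) : Matrix ι ι F) *ᵥ v = v → v = 0) (hr : (r : F) ≠ 0) (hs : s ^ r = 1) :
    ∃ v, Q v ≠ 0 ∧ ((s : GL ι F) : Matrix ι ι F) *ᵥ v = v := by
  have hnd : ND Q := nd_iff.mpr hQ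
  push Not at hfix
  obtain ⟨v₀, hv₀, hv0⟩ := hfix
  by_contra hcon
  push Not at hcon
  have hz : ∀ v, T s v = v → Q v = 0 := by
    intro v hv
    by_contra h
    exact hcon v h hv
  obtain ⟨U, W, hc, hU, hW, hWs, hWf⟩ := H49.FormConj2.exists_split (T s) r hr (T_pow_eq hs)
  apply hv0
  apply hnd
  intro y
  obtain ⟨⟨u, w⟩, rfl⟩ := (Submodule.prodEquivOfIsCompl U W hc).surjective y
  change QuadraticMap.polar Q v₀ ((u : ι → F) + (w : ι → F)) = 0
  rw [QuadraticMap.polar_add_right]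
  have e1 : QuadraticMap.polar Q v₀ u = 0 := by
    have hu := (hU u).mp u.2
    rw [QuadraticMap.polar, hz _ hv₀, hz _ hu, hz (v₀ + u) (by rw [map_add, hu]; congr 1), sub_zero, sub_zero]
  have e2 := (H49.FormConj2.split_orth (T s) r hr (QuadraticMap.polarBilin Q)
    (fun u v => H17.OrthDet.polar_isometry Q _ (T_iso s) u v) v₀ w hv₀ (hWs w w.2)).1
  rw [e1, zero_add]
  exact e2

include h2 hQ hn hr hodd hs in
/-- proper similarities in the centralizer with a prescribed multiplier -/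
theorem exists_proper {n : ℕ} (hm : Fintype.card ι = 2 * n) {c : F} (hc : c ≠ 0) (hsim : Q.Equivalent (c • Q)) :
    ∃ g : ↥(simG Q), Commute g (isoG Q s) ∧ (∀ v, Q (((g : GL ι F) : Matrix ι ι F) *ᵥ v) = c * Q v) ∧ Prp Q n g := by
  obtain ⟨g, hg, hgc⟩ := exists_sim hQ hr hodd hs hc hsim
  by_cases hp : Prp Q n g
  · exact ⟨g, hg, hgc, hp⟩
  · have hfix : ¬ ∀ v, ((s : GL ι F) : Matrix ι ι F) *ᵥ v = v → v = 0 := by
      intro h
      apply hp
      rw [prp_iff h2 hQ hn (isMult_iff.mpr hgc)]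
      exact det_of_fpf h2 hQ hodd hs hm h hg hc hgc
    obtain ⟨v, hv, hvs⟩ := exists_fixed h2 hQ hfix hr hs
    have hR : ∀ w, (((H17.OrthDet.refl Q v hv : ↥(Cfsg.isometryGroup F (⇑Q))) : GL ι F) : Matrix ι ι F) *ᵥ w =
        w - ((Q v)⁻¹ * QuadraticMap.polar Q v w) • v := by
      intro w
      rw [H17.OrthDet.refl_coe, H17.OrthMat.reflectionMatrix_mulVec]
    have hcR : Commute (isoG Q (H17.OrthDet.refl Q v hv)) (isoG Q s) := by
      rw [comm_iff]
      intro w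
      rw [isoG_coe, hR, hR, Matrix.mulVec_sub, Matrix.mulVec_smul, hvs]
      congr 3
      have := H17.OrthDet.polar_isometry Q _ (T_iso s) v w
      rw [← this]
      congr 1
      exact hvs.symm
    refine ⟨g * isoG Q (H17.OrthDet.refl Q v hv), hg.mul_left hcR, ?_, ?_⟩
    · intro w
      change Q ((((g : GL ι F) : Matrix ι ι F) * (((H17.OrthDet.refl Q v hv : ↥(Cfsg.isometryGroup F (⇑Q))) : GL ι F) :
        Matrix ι ι F)) *ᵥ w) = _
      rw [← Matrix.mulVec_mulVec, hgc]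
      congr 1
      exact T_iso _ w
    · rw [prp_mul h2 hQ hn hm]
      have h3 : ¬ Prp Q n (isoG Q (H17.OrthDet.refl Q v hv)) := by
        have h4 : IsMult Q (toGam Q (isoG Q (H17.OrthDet.refl Q v hv)) : GA ι F) 1 := by
          rw [isMult_iff]
          intro w
          rw [one_mul]
          exact T_iso _ w
        rw [not_prp_iff h2 hQ hn hm one_ne_zero h4, isoG_coe, H17.OrthDet.refl_coe, H17.OrthMat.reflection_det Q v hv,
          one_pow]
      exact ⟨fun h => absurd h hp, fun h => absurd h h3⟩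

include h2 hQ hn hr hodd hs in
/-- isometries in the centralizer outside the commutator subgroup -/
theorem exists_theta (hne : s ≠ 1) (R : Reps F) (hR : R.c₁ = 1) :
    ∃ t : ↥(O Q), Commute (H17.OrthTrans.equiv Q s) t ∧ theta Q R.c₁ t = -1 ∧ theta Q R.c₂ t = -1 := by
  have hnd : ND Q := nd_iff.mpr hQ
  have hT1 : T s ≠ 1 := by
    intro h
    apply hne
    apply Subtype.ext
    apply gl_ext
    intro v
    have := LinearMap.congr_fun h v
    rw [T_apply] at this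
    rw [this]
    exact (Matrix.one_mulVec v).symm
  obtain ⟨p, hp1, hp3, hp4, hp5, w, hw, hw'⟩ := H50.SSFac.exists_factor (T s) hr h2 hodd (T_pow_eq hs) hT1
  have hF : Odd (Nat.card F) := by
    rw [Nat.card_eq_fintype_card]
    exact Nat.odd_iff.mpr (FiniteField.odd_card_of_char_ne_two (fun h => h2 (by
      have := ringChar.spec F 2
      rw [h] at this
      exact_mod_cast this.mpr (dvd_refl 2))))
  have key : ∀ {c : F} (hc : c ≠ 0) {θ : ↥(O Q) →* ℤˣ}, H46.Wall.Spin (H46.OddFinal.isoA h2 Q hc) θ →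
      ∃ t : ↥(O Q), Commute (H17.OrthTrans.equiv Q s) t ∧ θ t = -1 := by
    intro c hc θ hθ
    obtain ⟨g, hg1, hg2⟩ := H46.CaseD.caseD (H46.OddFinal.isoA h2 Q hc) (H17.OrthTrans.equiv Q s) hF h2
      (fun x hx => hnd x fun y => by
        have := hx y
        exact (mul_eq_zero.mp (show c * QuadraticMap.polar Q x y = 0 from this)).resolve_left hc)
      (fun u v => by
        change c * QuadraticMap.polar Q u v = c * QuadraticMap.polar Q v u
        rw [QuadraticMap.polar_comm]) hθ hp1 hp3 hp4 hp5 (w := w) hw hw'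
    exact ⟨g, hg1, (Int.units_eq_one_or _).resolve_left hg2⟩
  obtain ⟨g, hg, hg2⟩ := key one_ne_zero (H46.OddFinal.spin_one h2 Q R hR)
  obtain ⟨g', hg', hg'1⟩ := key R.h₂ (H46.OddFinal.spin_two h2 Q R hR)
  rcases Int.units_eq_one_or (theta Q R.c₁ g) with h1 | h1
  · rcases Int.units_eq_one_or (theta Q R.c₂ g') with h3 | h3
    · refine ⟨g * g', hg.mul_right hg', ?_, ?_⟩
      · rw [map_mul, h1, hg'1, one_mul]
      · rw [map_mul, h3, hg2, mul_one]
    · exact ⟨g', hg', hg'1, h3⟩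
  · exact ⟨g, hg, h1, hg2⟩

include hQ hn in
/-- lifting automorphisms of odd order -/
theorem exists_lift (hodd : Odd r) {x : MulAut (Cfsg.POmega F (⇑Q))} (hx : x ∈ Cfsg.pgoAut F (⇑Q)) (hxr : x ^ r = 1) :
    ∃ s : ↥(Cfsg.isometryGroup F (⇑Q)), s ^ r = 1 ∧ psi1 Q (isoG Q s) = x := by
  rw [H50.OrthField.range_psi1] at hx
  obtain ⟨g, rfl⟩ := hx
  obtain ⟨k, hk⟩ := hodd
  obtain ⟨c, hc⟩ := mem_simG.mp g.2
  have hpow : ∀ j : ℕ, ∀ v, Q ((((g ^ j : ↥(simG Q)) : GL ι F) : Matrix ι ι F) *ᵥ v) = ((c ^ j : Fˣ) : F) * Q v := by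
    intro j
    induction j with
    | zero =>
      intro v
      rw [pow_zero, pow_zero, Units.val_one, one_mul]
      change Q ((1 : Matrix ι ι F) *ᵥ v) = _
      rw [Matrix.one_mulVec]
    | succ j ih =>
      intro v
      rw [pow_succ, Subgroup.coe_mul, Units.val_mul, ← Matrix.mulVec_mulVec, ih, hc, pow_succ, Units.val_mul]
      ring
  let t : ↥(Cfsg.isometryGroup F (⇑Q)) := ⟨(sc (c ^ (k + 1))⁻¹ : GL ι F) * (g ^ (2 * (k + 1)) : ↥(simG Q)).1, by
    rw [H17.OrthDet.mem_isometryGroup_iff]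
    intro v
    rw [Units.val_mul, ← Matrix.mulVec_mulVec, sc_mulVec, QuadraticMap.map_smul, hpow, smul_eq_mul]
    have h1 : ((c ^ (2 * (k + 1)) : Fˣ) : F) = ((c ^ (k + 1) : Fˣ) : F) * ((c ^ (k + 1) : Fˣ) : F) := by
      rw [← Units.val_mul, ← pow_add, two_mul]
    have h3 : ((c ^ (k + 1) : Fˣ) : F) ≠ 0 := Units.ne_zero _
    rw [h1, Units.val_inv_eq_inv_val]
    field_simp⟩
  have ht : isoG Q t = scG Q (c ^ (k + 1))⁻¹ * g ^ (2 * (k + 1)) := Subtype.ext rfl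
  have hpt : psi1 Q (isoG Q t) = psi1 Q g := by
    rw [ht, map_mul, psi1_scG, one_mul, map_pow, show 2 * (k + 1) = r + 1 by omega, pow_succ, hxr, one_mul]
  have h1 : psi1 Q (isoG Q (t ^ r)) = psi1 Q 1 := by
    rw [map_pow, map_pow, hpt, hxr, map_one]
  obtain ⟨u, hu⟩ := (psi1_eq_iff hQ hn).mp h1
  rw [mul_one] at hu
  have hnd : ND Q := nd_iff.mpr hQ
  obtain ⟨v, hv⟩ : ∃ v, Q v ≠ 0 := by
    by_contra hcon
    push Not at hcon
    have h3 : ∀ x : ι → F, x = 0 := by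
      intro x
      apply hnd
      intro y
      rw [QuadraticMap.polar, hcon, hcon, hcon, sub_zero, sub_zero]
    have h4 : 0 < Fintype.card ι := by omega
    obtain ⟨i⟩ := Fintype.card_pos_iff.mp h4
    have h5 := congrFun (h3 (Pi.single i 1)) i
    rw [Pi.single_eq_same] at h5
    exact one_ne_zero h5
  have hu2 : u * u = 1 := by
    have h3 : ((t ^ r : ↥(Cfsg.isometryGroup F (⇑Q))) : GL ι F) = sc u := congrArg (fun z : ↥(simG Q) => z.1) hu
    have h4 := (H17.OrthDet.mem_isometryGroup_iff _ _).mp (t ^ r).2 v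
    rw [h3, sc_mulVec, QuadraticMap.map_smul, smul_eq_mul] at h4
    apply Units.ext
    rw [Units.val_mul, Units.val_one]
    exact mul_right_cancel₀ hv (h4.trans (one_mul _).symm)
  have ht2 : (t ^ r) * (t ^ r) = 1 := by
    apply isoG_injective
    rw [map_mul, hu, ← map_mul, hu2, map_one, map_one]
  refine ⟨t ^ (r + 1), ?_, ?_⟩
  · rw [← pow_mul, mul_comm, pow_mul, show r + 1 = 2 * (k + 1) by omega, pow_mul, pow_two, ht2, one_pow]
  · rw [map_pow, map_pow, hpt, pow_succ, hxr, one_mul]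

omit [Fintype F] in
lemma psi1_mem_po (u : ↥(Cfsg.isometryGroup F (⇑Q))) : psi1 Q (isoG Q u) ∈ Cfsg.poAut F (⇑Q) :=
  Subgroup.subset_closure ⟨u.1, u.2, (isInduced_iff (isoG Q u) _).mpr rfl⟩

omit [Fintype F] in
lemma po_le : Cfsg.poAut F (⇑Q) ≤ Cfsg.pgoAut F (⇑Q) := by
  refine (Subgroup.closure_le _).mpr ?_
  rintro β ⟨g, h1, h3⟩
  rw [H50.OrthField.range_psi1]
  exact ⟨isoG Q ⟨g, h1⟩, ((isInduced_iff (isoG Q ⟨g, h1⟩) β).mp h3).symm⟩

/-- similarities with trivial multiplier -/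
lemma exists_iso {g : ↥(simG Q)} (hg : ∀ v, Q (((g : GL ι F) : Matrix ι ι F) *ᵥ v) = Q v) :
    ∃ u : ↥(Cfsg.isometryGroup F (⇑Q)), g = isoG Q u :=
  ⟨⟨g.1, (H17.OrthDet.mem_isometryGroup_iff _ _).mpr hg⟩, rfl⟩

lemma conj_eq {x y : MulAut (Cfsg.POmega F (⇑Q))} {h g : ↥(simG Q)} (hx : psi1 Q (isoG Q s) = x)
    (hy : y = psi1 Q h * x * (psi1 Q h)⁻¹) (hg : Commute g (isoG Q s)) :
    y = psi1 Q (h * g) * x * (psi1 Q (h * g))⁻¹ := by
  have h1 : psi1 Q g * x * (psi1 Q g)⁻¹ = x := by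
    rw [← hx, ← map_mul, hg.eq, map_mul, mul_inv_cancel_right]
  have h3 : psi1 Q (h * g) * x * (psi1 Q (h * g))⁻¹ = psi1 Q h * (psi1 Q g * x * (psi1 Q g)⁻¹) * (psi1 Q h)⁻¹ := by
    rw [map_mul]; group
  rw [h3, h1, hy]

include h2 hQ hn in
theorem main {n : ℕ} (hm : Fintype.card ι = 2 * n) (hsim : ∀ c : F, c ≠ 0 → Q.Equivalent (c • Q))
    {x : MulAut (Cfsg.POmega F (⇑Q))} (hx : x ∈ Cfsg.pgoAut F (⇑Q)) (hr : (r : F) ≠ 0) (hr1 : 1 < r) (hodd : Odd r)
    (hxr : orderOf x = r) :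
    (∀ y, (Cfsg.IsConjUnder (Cfsg.Inn (Cfsg.POmega F (⇑Q))) x y ↔ Cfsg.IsConjUnder ((DP Q n).map (psi1 Q)) x y) ∧
      (Cfsg.IsConjUnder (Cfsg.psoAut F (⇑Q)) x y ↔ Cfsg.IsConjUnder ((DP Q n).map (psi1 Q)) x y)) ∧
    (∀ y, Cfsg.IsConjUnder (Cfsg.poAut F (⇑Q)) x y ↔ Cfsg.IsConjUnder (Cfsg.pgoAut F (⇑Q)) x y) := by
  have hxp : x ^ r = 1 := by rw [← hxr]; exact pow_orderOf_eq_one x
  have hx1 : x ≠ 1 := by
    rintro rfl
    rw [orderOf_one] at hxr
    omega
  obtain ⟨s, hs, hsx⟩ := exists_lift hQ hn hodd hx hxp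
  have hs1 : s ≠ 1 := by
    rintro rfl
    rw [map_one, map_one] at hsx
    exact hx1 hsx.symm
  obtain ⟨R, hR⟩ := exists_reps (F := F) h2 1 one_ne_zero
  -- from the inner-diagonal group to the inner automorphisms
  have key : ∀ y, Cfsg.IsConjUnder ((DP Q n).map (psi1 Q)) x y → Cfsg.IsConjUnder (Cfsg.Inn (Cfsg.POmega F (⇑Q))) x y := by
    rintro y ⟨_, ⟨h, hh, rfl⟩, hy⟩
    have hh' : h ∈ DP Q n := hh
    rw [DP_odd h2, mem_DO] at hh'
    obtain ⟨c, hc, hdet⟩ := hh'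
    obtain ⟨g, hg, hgc, hgp⟩ := exists_proper h2 hQ hn hr hodd hs hm (inv_ne_zero c.ne_zero) (hsim _ (inv_ne_zero c.ne_zero))
    have hgdet := (prp_iff h2 hQ hn (isMult_iff.mpr hgc)).mp hgp
    obtain ⟨u, hu⟩ := exists_iso (g := h * g) (by
      intro v
      rw [Subgroup.coe_mul, Units.val_mul, ← Matrix.mulVec_mulVec, hc, hgc, ← mul_assoc, mul_inv_cancel₀ c.ne_zero, one_mul])
    have hud : LinearMap.det ((H17.OrthTrans.equiv Q u : (ι → F) ≃ₗ[F] (ι → F)) : (ι → F) →ₗ[F] (ι → F)) = 1 := by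
      have e1 : ((H17.OrthTrans.equiv Q u : (ι → F) ≃ₗ[F] (ι → F)) : (ι → F) →ₗ[F] (ι → F)) =
          Matrix.toLin' ((u : GL ι F) : Matrix ι ι F) := LinearMap.ext fun v => rfl
      have e2 : ((u : GL ι F) : Matrix ι ι F) = ((h : GL ι F) : Matrix ι ι F) * ((g : GL ι F) : Matrix ι ι F) :=
        congrArg (fun z : ↥(simG Q) => ((z : GL ι F) : Matrix ι ι F)) hu.symm
      rw [e1, LinearMap.det_toLin', e2, Matrix.det_mul, hdet, hgdet, ← mul_pow, mul_inv_cancel₀ c.ne_zero, one_pow]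
    obtain ⟨t, ht, htu⟩ : ∃ t : ↥(Cfsg.isometryGroup F (⇑Q)), Commute (isoG Q t) (isoG Q s) ∧ u * t ∈ Cfsg.Omega F (⇑Q) := by
      have hθ := H46.OddFinal.det_eq h2 Q R hR hQ (H17.OrthTrans.equiv Q u)
      rw [hud] at hθ
      have hθ' : theta Q R.c₁ (H17.OrthTrans.equiv Q u) = theta Q R.c₂ (H17.OrthTrans.equiv Q u) := by
        rcases Int.units_eq_one_or (theta Q R.c₁ (H17.OrthTrans.equiv Q u)) with h | h <;>
          rcases Int.units_eq_one_or (theta Q R.c₂ (H17.OrthTrans.equiv Q u)) with h' | h' <;> rw [h, h'] at hθ ⊢ <;>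
          · exfalso
            apply h2
            push_cast at hθ
            linear_combination hθ
      rcases Int.units_eq_one_or (theta Q R.c₁ (H17.OrthTrans.equiv Q u)) with h1 | h1
      · refine ⟨1, by rw [map_one]; exact Commute.one_left _, ?_⟩
        rw [mul_one, Cfsg.Omega, ← H17.OrthTrans2.mem_commutator_equiv (H17.OrthTrans.equiv Q),
          mem_commutator_iff h2 Q R hQ (by rw [Module.finrank_fintype_fun_eq_card]; omega)]
        exact ⟨h1, hθ' ▸ h1⟩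
      · obtain ⟨t, ht, ht1, ht2⟩ := exists_theta h2 hQ hn hr hodd hs hs1 R hR
        refine ⟨(H17.OrthTrans.equiv Q).symm t, ?_, ?_⟩
        · have h3 : Commute s ((H17.OrthTrans.equiv Q).symm t) := by
            have := ht.map (H17.OrthTrans.equiv Q).symm
            rwa [MulEquiv.symm_apply_apply] at this
          exact (h3.map (isoG Q)).symm
        · rw [Cfsg.Omega, ← H17.OrthTrans2.mem_commutator_equiv (H17.OrthTrans.equiv Q),
            mem_commutator_iff h2 Q R hQ (by rw [Module.finrank_fintype_fun_eq_card]; omega)]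
          rw [map_mul (H17.OrthTrans.equiv Q), MulEquiv.apply_symm_apply, map_mul, map_mul, ht1, ht2, ← hθ', h1]
          exact ⟨rfl, rfl⟩
    refine ⟨psi1 Q (isoG Q (u * t)), ?_, ?_⟩
    · exact ⟨QuotientGroup.mk ⟨u * t, htu⟩, (psi1_isoG ⟨u * t, htu⟩).symm⟩
    · have h9 := conj_eq hsx hy (hg.mul_left ht)
      rw [← mul_assoc h g, hu, ← map_mul (isoG Q)] at h9
      exact h9
  have hle1 : Cfsg.Inn (Cfsg.POmega F (⇑Q)) ≤ Cfsg.psoAut F (⇑Q) := inn_le_pso h2 hQ hn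
  have hle2 : Cfsg.psoAut F (⇑Q) ≤ (DP Q n).map (psi1 Q) := by
    rw [range_pso]
    rintro _ ⟨g, rfl⟩
    refine ⟨soG Q g, ?_, rfl⟩
    change soG Q g ∈ DP Q n
    rw [DP_odd h2, mem_DO]
    refine ⟨1, fun v => ?_, ?_⟩
    · rw [Units.val_one, one_mul]
      exact (H17.OrthDet.mem_isometryGroup_iff _ _).mp g.2.1 v
    · rw [Units.val_one, one_pow]
      have h3 := g.2.2
      exact congrArg Units.val (MonoidHom.mem_ker.mp h3)
  have mono : ∀ {H K : Subgroup (MulAut (Cfsg.POmega F (⇑Q)))}, H ≤ K → ∀ y, Cfsg.IsConjUnder H x y → Cfsg.IsConjUnder K x y := by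
    rintro H K hHK y ⟨h, hh, hy⟩
    exact ⟨h, hHK hh, hy⟩
  refine ⟨fun y => ⟨⟨fun h => mono hle2 y (mono hle1 y h), key y⟩, ⟨mono hle2 y, fun h => mono hle1 y (key y h)⟩⟩,
    fun y => ⟨mono po_le y, ?_⟩⟩
  rintro ⟨a, ha, hy⟩
  rw [H50.OrthField.range_psi1] at ha
  obtain ⟨h, rfl⟩ := ha
  obtain ⟨c, hc⟩ := mem_simG.mp h.2
  obtain ⟨g, hg, hgc⟩ := exists_sim hQ hr hodd hs (inv_ne_zero c.ne_zero) (hsim _ (inv_ne_zero c.ne_zero))
  obtain ⟨u, hu⟩ := exists_iso (g := h * g) (by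
    intro v
    rw [Subgroup.coe_mul, Units.val_mul, ← Matrix.mulVec_mulVec, hc, hgc, ← mul_assoc, mul_inv_cancel₀ c.ne_zero, one_mul])
  refine ⟨psi1 Q (isoG Q u), psi1_mem_po u, ?_⟩
  rw [← hu]
  exact conj_eq hsx hy hg

end H50.SSFuse
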