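import Mathlib

/-!
Counting unipotent isometries of an alternating form: the reduction to a hyperbolic line.
-/
set_option autoImplicit false
set_option linter.unusedSectionVars false
set_option linter.unusedVariables false
set_option maxHeartbeats 400000

namespace H50.SpUni

open Module

universe u

variable {F : Type u} [Field F]

/-- non-degenerate alternating form -/
structure SV {V : Type u} [AddCommGroup V] [Module F V] (ω : V →ₗ[F] V →ₗ[F] F) : Prop where
  alt : ∀ v, ω v v = 0
  nd : ∀ v, (∀ w, ω v w = 0) → v = 0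

section basic

variable {V : Type u} [AddCommGroup V] [Module F V] {ω : V →ₗ[F] V →ₗ[F] F}

theorem SV.skew (h : SV ω) (u v : V) : ω u v = - ω v u := by
  have := h.alt (u + v)
  simp only [map_add, LinearMap.add_apply, h.alt, zero_add, add_zero] at this
  exact eq_neg_of_add_eq_zero_right this

/-- totally isotropic -/
def Ti (ω : V →ₗ[F] V →ₗ[F] F) (W : Submodule F V) : Prop := ∀ u ∈ W, ∀ v ∈ W, ω u v = 0

/-- unipotent isometries fixing `W` pointwise -/
def Un (ω : V →ₗ[F] V →ₗ[F] F) (W : Submodule F V) (g : V →ₗ[F] V) : Prop :=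
  (∀ u v, ω (g u) (g v) = ω u v) ∧ IsNilpotent (g - 1) ∧ ∀ w ∈ W, g w = w

noncomputable def cU (ω : V →ₗ[F] V →ₗ[F] F) (W : Submodule F V) : ℕ := Nat.card {g : V →ₗ[F] V // Un ω W g}

noncomputable def nT (ω : V →ₗ[F] V →ₗ[F] F) (d : ℕ) : ℕ := Nat.card {W : Submodule F V // Ti ω W ∧ finrank F W = d}

end basic

section model

variable {V : Type u} [AddCommGroup V] [Module F V] (ω : V →ₗ[F] V →ₗ[F] F)

/-- adding a hyperbolic line -/
def hy : (F × F × V) →ₗ[F] (F × F × V) →ₗ[F] F :=
  LinearMap.mk₂ F (fun x y => x.1 * y.2.1 - x.2.1 * y.1 + ω x.2.2 y.2.2)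
    (fun x x' y => by simp only [Prod.fst_add, Prod.snd_add, map_add, LinearMap.add_apply]; ring)
    (fun c x y => by simp only [Prod.smul_fst, Prod.smul_snd, map_smul, LinearMap.smul_apply, smul_eq_mul]; ring)
    (fun x y y' => by simp only [Prod.fst_add, Prod.snd_add, map_add, LinearMap.add_apply]; ring)
    (fun c x y => by simp only [Prod.smul_fst, Prod.smul_snd, map_smul, LinearMap.smul_apply, smul_eq_mul]; ring)

theorem hy_apply (x y : F × F × V) : hy ω x y = x.1 * y.2.1 - x.2.1 * y.1 + ω x.2.2 y.2.2 := rfl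

variable {ω}

theorem SV.hy (h : SV ω) : SV (hy ω) := by
  constructor
  · intro v
    rw [hy_apply, h.alt]; ring
  · rintro ⟨a, b, v⟩ hv
    have h1 := hv (0, 1, 0)
    have h2 := hv (1, 0, 0)
    rw [hy_apply] at h1 h2
    simp only [map_zero, mul_one, mul_zero, sub_zero, add_zero, zero_sub, neg_eq_zero] at h1 h2
    have h3 : v = 0 := h.nd v fun w => by
      have h4 := hv (0, 0, w)
      rw [hy_apply] at h4
      simpa using h4
    rw [h1, h2, h3]; rfl

theorem SV.of_hy (h : SV (H50.SpUni.hy ω)) : SV ω := by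
  constructor
  · intro v
    have := h.alt (0, 0, v)
    rw [hy_apply] at this
    simpa using this
  · intro v hv
    have h1 := h.nd (0, 0, v) fun w => by
      rw [hy_apply]
      simp [hv]
    exact congrArg (fun z : F × F × V => z.2.2) h1

variable (ω) in
/-- the isometries fixing the first vector -/
def gm (A : V →ₗ[F] V) (x : V) (a : F) : (F × F × V) →ₗ[F] (F × F × V) where
  toFun z := (z.1 + a * z.2.1 + ω x (A z.2.2), z.2.1, A z.2.2 + z.2.1 • x)
  map_add' z z' := by
    ext
    · simp only [Prod.fst_add, Prod.snd_add, map_add]; ring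
    · simp
    · simp only [Prod.snd_add, Prod.fst_add, map_add]; module
  map_smul' c z := by
    ext
    · simp only [Prod.smul_fst, Prod.smul_snd, map_smul, smul_eq_mul, RingHom.id_apply]; ring
    · simp
    · simp only [Prod.smul_fst, Prod.smul_snd, map_smul, smul_eq_mul, RingHom.id_apply]; module

theorem gm_apply (A : V →ₗ[F] V) (x : V) (a : F) (z : F × F × V) :
    gm ω A x a z = (z.1 + a * z.2.1 + ω x (A z.2.2), z.2.1, A z.2.2 + z.2.1 • x) := rfl

theorem gm_iso (h : SV ω) {A : V →ₗ[F] V} (hA : ∀ u v, ω (A u) (A v) = ω u v) (x : V) (a : F) (z z' : F × F × V) :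
    hy ω (gm ω A x a z) (gm ω A x a z') = hy ω z z' := by
  rw [gm_apply, gm_apply, hy_apply, hy_apply]
  simp only [map_add, map_smul, LinearMap.add_apply, LinearMap.smul_apply, smul_eq_mul, hA, h.alt]
  rw [h.skew (A z.2.2) x]
  ring

theorem gm_nil_aux {A : V →ₗ[F] V} (x : V) (a : F) (k : ℕ) (c : F) (v : V) :
    ∃ c', ((gm ω A x a - 1) ^ k) (c, 0, v) = (c', 0, ((A - 1) ^ k) v) := by
  induction k with
  | zero => exact ⟨c, by simp⟩
  | succ k ih =>
    obtain ⟨c', hc'⟩ := ih
    refine ⟨ω x (A (((A - 1) ^ k) v)), ?_⟩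
    rw [pow_succ', Module.End.mul_apply, hc', LinearMap.sub_apply, gm_apply, pow_succ', Module.End.mul_apply,
      LinearMap.sub_apply, Module.End.one_apply, Module.End.one_apply]
    simp

theorem gm_nil {A : V →ₗ[F] V} (x : V) (a : F) : IsNilpotent (gm ω A x a - 1) ↔ IsNilpotent (A - 1) := by
  constructor
  · rintro ⟨k, hk⟩
    refine ⟨k, LinearMap.ext fun v => ?_⟩
    obtain ⟨c', hc'⟩ := gm_nil_aux (ω := ω) (A := A) x a k 0 v
    rw [hk] at hc'
    exact (congrArg (fun z : F × F × V => z.2.2) hc').symm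
  · rintro ⟨k, hk⟩
    refine ⟨k + 2, LinearMap.ext ?_⟩
    rintro ⟨c, b, v⟩
    have h1 : ∃ c₁ v₁, (gm ω A x a - 1) (c, b, v) = (c₁, 0, v₁) := by
      refine ⟨((gm ω A x a - 1) (c, b, v)).1, ((gm ω A x a - 1) (c, b, v)).2.2, ?_⟩
      rw [LinearMap.sub_apply, gm_apply, Module.End.one_apply]
      ext
      · rfl
      · simp
      · rfl
    obtain ⟨c₁, v₁, h1⟩ := h1
    obtain ⟨c₂, h2⟩ := gm_nil_aux (ω := ω) (A := A) x a k c₁ v₁
    have h3 : (gm ω A x a - 1) (c₂, 0, 0) = 0 := by
      rw [LinearMap.sub_apply, gm_apply, Module.End.one_apply]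
      simp
    rw [show k + 2 = 1 + (k + 1) by omega, pow_add, pow_one, pow_succ, Module.End.mul_apply, Module.End.mul_apply, h1, h2, hk,
      LinearMap.zero_apply, h3, LinearMap.zero_apply]

/-- the quotient subspace -/
def bar (W : Submodule F (F × F × V)) : Submodule F V := W.comap (LinearMap.inr F F (F × V) ∘ₗ LinearMap.inr F F V)

theorem mem_bar {W : Submodule F (F × F × V)} {v : V} : v ∈ bar W ↔ ((0 : F), (0 : F), v) ∈ W := Iff.rfl

/-- the inverse image -/
def unb (U : Submodule F V) : Submodule F (F × F × V) := (⊤ : Submodule F F).prod ((⊥ : Submodule F F).prod U)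

theorem mem_unb {U : Submodule F V} {z : F × F × V} : z ∈ unb U ↔ z.2.1 = 0 ∧ z.2.2 ∈ U := by
  unfold unb
  rw [Submodule.mem_prod, Submodule.mem_prod, Submodule.mem_bot]
  simp

theorem bar_unb (U : Submodule F V) : bar (unb U) = U := by
  ext v
  rw [mem_bar, mem_unb]
  simp

theorem unb_bar {W : Submodule F (F × F × V)} (hW : Ti (hy ω) W) (h1 : ((1 : F), (0 : F), (0 : V)) ∈ W) : unb (bar W) = W := by
  ext ⟨a, b, v⟩
  rw [mem_unb, mem_bar]
  constructor
  · rintro ⟨hb, hv⟩
    simp only at hb hv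
    have : (a, b, v) = a • ((1 : F), (0 : F), (0 : V)) + (0, 0, v) := by
      ext
      · simp
      · simp [hb]
      · simp
    rw [this]
    exact W.add_mem (W.smul_mem _ h1) hv
  · intro h
    have hb : b = 0 := by
      have := hW _ h1 _ h
      rw [hy_apply] at this
      simpa using this
    refine ⟨hb, ?_⟩
    have : ((0 : F), (0 : F), v) = (a, b, v) - a • ((1 : F), (0 : F), (0 : V)) := by
      ext
      · simp
      · simp [hb]
      · simp
    show ((0 : F), (0 : F), v) ∈ W
    rw [this]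
    exact W.sub_mem h (W.smul_mem _ h1)

theorem ti_unb {U : Submodule F V} : Ti (hy ω) (unb U) ↔ Ti ω U := by
  constructor
  · intro h u hu v hv
    have := h (0, 0, u) (mem_unb.2 ⟨rfl, hu⟩) (0, 0, v) (mem_unb.2 ⟨rfl, hv⟩)
    rw [hy_apply] at this
    simpa using this
  · rintro h ⟨a, b, u⟩ hu ⟨a', b', v⟩ hv
    rw [mem_unb] at hu hv
    obtain ⟨hb, hu⟩ := hu
    obtain ⟨hb', hv⟩ := hv
    simp only at hb hb' hu hv
    rw [hy_apply]
    simp [hb, hb', h u hu v hv]

theorem finrank_unb [FiniteDimensional F V] (U : Submodule F V) : finrank F (unb U) = finrank F U + 1 := by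
  let f : (F × U) →ₗ[F] (F × F × V) :=
    { toFun := fun z => (z.1, 0, z.2)
      map_add' := fun z z' => by ext <;> simp
      map_smul' := fun c z => by ext <;> simp }
  have hf : Function.Injective f := by
    rintro ⟨a, u⟩ ⟨b, v⟩ h
    have h1 : a = b := congrArg (fun z : F × F × V => z.1) h
    have h2 : (u : V) = v := congrArg (fun z : F × F × V => z.2.2) h
    rw [h1, Subtype.ext h2]
  have hr : LinearMap.range f = unb U := by
    ext ⟨a, b, v⟩
    rw [mem_unb, LinearMap.mem_range]
    constructor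
    · rintro ⟨⟨c, u⟩, h⟩
      have h1 : (0 : F) = b := congrArg (fun z : F × F × V => z.2.1) h
      have h2 : (u : V) = v := congrArg (fun z : F × F × V => z.2.2) h
      exact ⟨h1.symm, by rw [← h2]; exact u.2⟩
    · rintro ⟨h1, h2⟩
      exact ⟨(a, ⟨v, h2⟩), by
        show (a, (0 : F), v) = (a, b, v)
        rw [show b = 0 from h1]⟩
  rw [← hr, LinearMap.finrank_range_of_inj hf, finrank_prod, finrank_self]
  omega

theorem nT_hy [FiniteDimensional F V] (d : ℕ) :
    Nat.card {W : Submodule F (F × F × V) // (Ti (hy ω) W ∧ finrank F W = d + 1) ∧ ((1 : F), (0 : F), (0 : V)) ∈ W} = nT ω d := by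
  unfold nT
  refine Nat.card_congr
    { toFun := fun W => ⟨bar W.1, ?_, ?_⟩
      invFun := fun U => ⟨unb U.1, ⟨ti_unb.2 U.2.1, by rw [finrank_unb, U.2.2]⟩, mem_unb.2 ⟨rfl, U.1.zero_mem⟩⟩
      left_inv := fun W => Subtype.ext (unb_bar W.2.1.1 W.2.2)
      right_inv := fun U => Subtype.ext (bar_unb U.1) }
  · rw [← ti_unb (ω := ω), unb_bar W.2.1.1 W.2.2]; exact W.2.1.1
  · have h1 := finrank_unb (bar W.1)
    rw [unb_bar W.2.1.1 W.2.2, W.2.1.2] at h1
    omega

theorem cU_hy [Finite F] [FiniteDimensional F V] (h : SV ω) {W : Submodule F (F × F × V)} (hW : Ti (hy ω) W)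
    (h1 : ((1 : F), (0 : F), (0 : V)) ∈ W) :
    cU (hy ω) W = cU ω (bar W) * Nat.card {x : V // ∀ w ∈ bar W, ω x w = 0} * Nat.card F := by
  unfold cU
  rw [← Nat.card_prod, ← Nat.card_prod]
  symm
  refine Nat.card_congr (Equiv.ofBijective (fun t => ⟨gm ω t.1.1.1 t.1.2.1 t.2, ?_, ?_, ?_⟩) ⟨?_, ?_⟩)
  · exact gm_iso h t.1.1.2.1 _ _
  · exact (gm_nil _ _).2 t.1.1.2.2.1
  · rintro ⟨a, b, v⟩ hv
    rw [← unb_bar hW h1, mem_unb] at hv
    obtain ⟨hb, hv⟩ := hv
    simp only at hb hv
    rw [gm_apply]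
    have e1 : t.1.1.1 v = v := t.1.1.2.2.2 v hv
    have e2 : ω t.1.2.1 v = 0 := t.1.2.2 v hv
    ext
    · simp [hb, e1, e2]
    · rfl
    · simp [hb, e1]
  · rintro ⟨⟨⟨A, hA⟩, ⟨x, hx⟩⟩, a⟩ ⟨⟨⟨B, hB⟩, ⟨y, hy'⟩⟩, b⟩ he
    have he' : gm ω A x a = gm ω B y b := congrArg Subtype.val he
    have e1 := congrArg (fun f : (F × F × V) →ₗ[F] (F × F × V) => f (0, 1, 0)) he'
    simp only [gm_apply, map_zero, mul_one, zero_add, add_zero, one_smul, Prod.mk.injEq, true_and] at e1
    obtain ⟨e1, e2⟩ := e1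
    have e3 : A = B := by
      ext v
      have e4 := congrArg (fun f : (F × F × V) →ₗ[F] (F × F × V) => f (0, 0, v)) he'
      simp only [gm_apply, mul_zero, zero_add, add_zero, zero_smul, Prod.mk.injEq, true_and] at e4
      exact e4.2
    subst e1 e2 e3
    rfl
  · rintro ⟨g, hg1, hg2, hg3⟩
    have hb : ∀ z, (g z).2.1 = z.2.1 := by
      intro z
      have h2 := hg1 (1, 0, 0) z
      rw [hg3 _ h1, hy_apply, hy_apply] at h2
      simpa using h2
    obtain ⟨A, hA⟩ : ∃ A : V →ₗ[F] V, ∀ v, A v = (g (0, 0, v)).2.2 :=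
      ⟨(LinearMap.snd F F V ∘ₗ LinearMap.snd F F (F × V)) ∘ₗ g ∘ₗ (LinearMap.inr F F (F × V) ∘ₗ LinearMap.inr F F V), fun v => rfl⟩
    obtain ⟨x, hx⟩ : ∃ x, x = (g (0, 1, 0)).2.2 := ⟨_, rfl⟩
    obtain ⟨a, ha⟩ : ∃ a, a = (g (0, 1, 0)).1 := ⟨_, rfl⟩
    have hv1 : ∀ v, (g (0, 0, v)).1 = ω x (A v) := by
      intro v
      have h2 := hg1 (0, 1, 0) (0, 0, v)
      rw [hy_apply, hy_apply, hb, hb, ← hx, ← hA] at h2
      simp only [mul_zero, one_mul, zero_sub, map_zero, sub_self, zero_add, LinearMap.zero_apply] at h2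
      exact (neg_add_eq_zero.1 h2)
    have hgm : gm ω A x a = g := by
      apply LinearMap.ext
      rintro ⟨c, b, v⟩
      have e : (c, b, v) = c • ((1 : F), (0 : F), (0 : V)) + b • ((0 : F), (1 : F), (0 : V)) + (0, 0, v) := by
        ext <;> simp
      rw [e, map_add, map_add, map_smul, map_smul, map_add, map_add, map_smul, map_smul, hg3 _ h1]
      have e1 : gm ω A x a ((1 : F), (0 : F), (0 : V)) = (1, 0, 0) := by rw [gm_apply]; simp
      have e2 : gm ω A x a ((0 : F), (1 : F), (0 : V)) = g (0, 1, 0) := by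
        rw [gm_apply]
        ext
        · simp [ha]
        · rw [hb]
        · simp [hx]
      have e3 : gm ω A x a ((0 : F), (0 : F), v) = g (0, 0, v) := by
        rw [gm_apply]
        ext
        · rw [hv1]; simp
        · rw [hb]
        · rw [← hA]; simp
      rw [e1, e2, e3]
    have hAi : ∀ u v, ω (A u) (A v) = ω u v := by
      intro u v
      have h2 := hg1 (0, 0, u) (0, 0, v)
      rw [hy_apply, hy_apply, hb, hb, ← hA, ← hA] at h2
      simpa using h2
    have hAw : ∀ w ∈ bar W, A w = w := by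
      intro w hw
      rw [hA, hg3 _ (mem_bar.1 hw)]
    have hxw : ∀ w ∈ bar W, ω x w = 0 := by
      intro w hw
      have h2 := hv1 w
      rw [hg3 _ (mem_bar.1 hw), hAw w hw] at h2
      exact h2.symm
    refine ⟨⟨⟨⟨A, hAi, ?_, hAw⟩, ⟨x, hxw⟩⟩, a⟩, Subtype.ext hgm⟩
    rw [← gm_nil (ω := ω) x a, hgm]
    exact hg2

theorem card_perp [Finite F] [FiniteDimensional F V] (h : SV ω) (U : Submodule F V) :
    Nat.card {x : V // ∀ w ∈ U, ω x w = 0} = Nat.card F ^ (finrank F V - finrank F U) := by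
  have h1 : LinearMap.BilinForm.Nondegenerate ω := by
    constructor
    · exact h.nd
    · intro v hv
      exact h.nd v fun w => by rw [h.skew, hv, neg_zero]
  have h2 : LinearMap.IsRefl ω := fun x y hxy => by rw [h.skew, hxy, neg_zero]
  have h3 := LinearMap.BilinForm.finrank_orthogonal h1 U
  rw [← h3, ← Module.natCard_eq_pow_finrank (K := F)]
  refine Nat.card_congr (Equiv.subtypeEquivRight fun x => ?_)
  rw [LinearMap.BilinForm.mem_orthogonal_iff]
  constructor
  · intro hx n hn
    show ω n x = 0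
    rw [h.skew, hx n hn, neg_zero]
  · intro hx n hn
    have : ω n x = 0 := hx n hn
    rw [h.skew, this, neg_zero]

end model

section split

variable {V : Type u} [AddCommGroup V] [Module F V] {ω : V →ₗ[F] V →ₗ[F] F}

/-- splitting off a hyperbolic line -/
theorem exists_split [FiniteDimensional F V] (h : SV ω) {r : V} (hr : r ≠ 0) :
    ∃ (V' : Type u) (_ : AddCommGroup V') (_ : Module F V') (_ : FiniteDimensional F V') (ω' : V' →ₗ[F] V' →ₗ[F] F) (e : V ≃ₗ[F] (F × F × V')),
      SV ω' ∧ finrank F V = finrank F V' + 2 ∧ (∀ u v, hy ω' (e u) (e v) = ω u v) ∧ e r = (1, 0, 0) := by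
  obtain ⟨s, hs⟩ : ∃ s, ω r s = 1 := by
    by_contra hcon
    push Not at hcon
    apply hr
    apply h.nd
    intro w
    by_contra hw
    apply hcon ((ω r w)⁻¹ • w)
    rw [map_smul, smul_eq_mul, inv_mul_cancel₀ hw]
  let V' : Submodule F V := LinearMap.ker (ω r) ⊓ LinearMap.ker (ω s)
  have hV' : ∀ v : V', ω r v = 0 ∧ ω s v = 0 := fun v => ⟨v.2.1, v.2.2⟩
  have hsr : ω s r = -1 := by rw [h.skew, hs]
  let π : V →ₗ[F] V' := LinearMap.codRestrict V' (LinearMap.id - (ω.flip s).smulRight r - (ω r).smulRight s) (by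
    intro x
    constructor
    · rw [SetLike.mem_coe, LinearMap.mem_ker]
      show ω r (x - ω x s • r - ω r x • s) = 0
      rw [map_sub, map_sub, map_smul, map_smul, h.alt, hs]; simp
    · rw [SetLike.mem_coe, LinearMap.mem_ker]
      show ω s (x - ω x s • r - ω r x • s) = 0
      rw [map_sub, map_sub, map_smul, map_smul, h.alt, hsr, h.skew s x]; simp)
  have hπ : ∀ x, ((π x : V') : V) = x - ω x s • r - ω r x • s := fun x => rfl
  let e : V ≃ₗ[F] (F × F × V') :=
    { toFun := fun x => (ω x s, ω r x, π x)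
      invFun := fun z => z.1 • r + z.2.1 • s + z.2.2
      map_add' := fun x y => by
        ext
        · simp
        · simp
        · simp
      map_smul' := fun c x => by
        ext
        · simp
        · simp
        · simp
      left_inv := fun x => by
        show ω x s • r + ω r x • s + (π x : V) = x
        rw [hπ]; abel
      right_inv := fun z => by
        obtain ⟨a, b, v⟩ := z
        have e1 : ω (a • r + b • s + (v : V)) s = a := by
          simp only [map_add, map_smul, LinearMap.add_apply, LinearMap.smul_apply, hs, h.alt, smul_eq_mul]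
          rw [h.skew, (hV' v).2]; simp
        have e2 : ω r (a • r + b • s + (v : V)) = b := by
          simp only [map_add, map_smul, hs, h.alt, smul_eq_mul, (hV' v).1]; simp
        show (ω (a • r + b • s + (v : V)) s, ω r (a • r + b • s + (v : V)), π (a • r + b • s + (v : V))) = (a, b, v)
        rw [e1, e2]
        congr 2
        apply Subtype.ext
        rw [hπ, e1, e2]
        abel }
  let ω' : V' →ₗ[F] V' →ₗ[F] F := ω.domRestrict₁₂ V' V'
  have he : ∀ x, e x = (ω x s, ω r x, π x) := fun x => rfl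
  have hω' : ∀ u v : V', ω' u v = ω (u : V) (v : V) := fun u v => rfl
  have hiso : ∀ u v, hy ω' (e u) (e v) = ω u v := by
    intro u v
    rw [hy_apply, he, he, hω', hπ, hπ]
    simp only [map_sub, map_smul, LinearMap.sub_apply, LinearMap.smul_apply, smul_eq_mul, h.alt, hs, hsr]
    rw [h.skew s v, h.skew u r]
    ring
  have hfr : finrank F V = finrank F V' + 2 := by
    rw [e.finrank_eq, finrank_prod, finrank_prod, finrank_self]; omega
  refine ⟨V', inferInstance, inferInstance, inferInstance, ω', e, ?_, hfr, hiso, ?_⟩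
  · apply SV.of_hy
    constructor
    · intro z
      obtain ⟨x, rfl⟩ := e.surjective z
      rw [hiso, h.alt]
    · intro z hz
      obtain ⟨x, rfl⟩ := e.surjective z
      rw [h.nd x fun w => by rw [← hiso, hz], map_zero]
  · rw [he]
    have : π r = 0 := by
      apply Subtype.ext
      rw [hπ, hs, h.alt]; simp
    rw [hs, h.alt, this]

variable {V₂ : Type u} [AddCommGroup V₂] [Module F V₂] {ω₂ : V₂ →ₗ[F] V₂ →ₗ[F] F} (e : V ≃ₗ[F] V₂)
  (he : ∀ u v, ω₂ (e u) (e v) = ω u v)

include he in
theorem ti_map {W : Submodule F V} : Ti ω₂ (W.map e.toLinearMap) ↔ Ti ω W := by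
  constructor
  · intro h u hu v hv
    rw [← he]
    exact h _ (Submodule.mem_map_of_mem hu) _ (Submodule.mem_map_of_mem hv)
  · rintro h _ ⟨u, hu, rfl⟩ _ ⟨v, hv, rfl⟩
    show ω₂ (e u) (e v) = 0
    rw [he]
    exact h u hu v hv

include he in
theorem cU_map (W : Submodule F V) : cU ω₂ (W.map e.toLinearMap) = cU ω W := by
  unfold cU
  symm
  refine Nat.card_congr ((LinearEquiv.conj e).toEquiv.subtypeEquiv fun g => ?_)
  have hc : ∀ z, (LinearEquiv.conj e g) (e z) = e (g z) := by
    intro z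
    rw [LinearEquiv.conj_apply_apply, e.symm_apply_apply]
  show Un ω W g ↔ Un ω₂ (W.map e.toLinearMap) (LinearEquiv.conj e g)
  unfold Un
  refine and_congr ?_ (and_congr ?_ ?_)
  · constructor
    · intro h u v
      obtain ⟨u, rfl⟩ := e.surjective u
      obtain ⟨v, rfl⟩ := e.surjective v
      rw [hc, hc, he, he, h]
    · intro h u v
      have := h (e u) (e v)
      rwa [hc, hc, he, he] at this
  · have h1 : LinearEquiv.conj e g - 1 = LinearEquiv.conj e (g - 1) := by
      rw [map_sub]
      congr 1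
      exact (LinearEquiv.conj_id e).symm
    have h2 : ∀ k, (LinearEquiv.conj e (g - 1)) ^ k = LinearEquiv.conj e ((g - 1) ^ k) := by
      intro k
      induction k with
      | zero => rw [pow_zero, pow_zero]; exact (LinearEquiv.conj_id e).symm
      | succ k ih =>
        rw [pow_succ, pow_succ, ih]
        exact (LinearEquiv.conj_comp e _ _).symm
    rw [h1]
    constructor
    · rintro ⟨k, hk⟩
      exact ⟨k, by rw [h2, hk, map_zero]⟩
    · rintro ⟨k, hk⟩
      exact ⟨k, by rw [h2, LinearEquiv.map_eq_zero_iff] at hk; exact hk⟩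
  · constructor
    · rintro h _ ⟨w, hw, rfl⟩
      show (LinearEquiv.conj e g) (e w) = e w
      rw [hc, h w hw]
    · intro h w hw
      have := h (e w) (Submodule.mem_map_of_mem hw)
      rw [hc] at this
      exact e.injective this

include he in
theorem nT_map (d : ℕ) (r : V) : Nat.card {W : Submodule F V // (Ti ω W ∧ finrank F W = d) ∧ r ∈ W} =
    Nat.card {W : Submodule F V₂ // (Ti ω₂ W ∧ finrank F W = d) ∧ e r ∈ W} := by
  refine Nat.card_congr ((Submodule.orderIsoMapComap e).toEquiv.subtypeEquiv fun W => ?_)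
  show _ ↔ (Ti ω₂ (W.map e.toLinearMap) ∧ finrank F (W.map e.toLinearMap) = d) ∧ e r ∈ W.map e.toLinearMap
  rw [ti_map e he, LinearEquiv.finrank_map_eq]
  refine and_congr Iff.rfl ?_
  constructor
  · intro h; exact Submodule.mem_map_of_mem h
  · rintro ⟨w, hw, h⟩
    have : w = r := e.injective h
    rw [← this]; exact hw

end split

end H50.SpUni
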