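import Mathlib

/-!
Arithmetic of the numbers of totally isotropic subspaces.
-/
set_option autoImplicit false
set_option maxHeartbeats 400000

namespace H50.SpUni

/-- numbers of totally isotropic subspaces -/
def tN (q : ℚ) : ℕ → ℕ → ℚ
  | _, 0 => 1
  | 0, _ + 1 => 0
  | m + 1, d + 1 => (q ^ (2 * m + 2) - 1) / (q ^ (d + 1) - 1) * tN q m d

theorem tN_zero (q : ℚ) (m : ℕ) : tN q m 0 = 1 := by cases m <;> rfl
theorem tN_succ (q : ℚ) (m d : ℕ) : tN q (m + 1) (d + 1) = (q ^ (2 * m + 2) - 1) / (q ^ (d + 1) - 1) * tN q m d := rfl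

theorem tN_lt (q : ℚ) : ∀ m d : ℕ, m < d → tN q m d = 0 := by
  intro m
  induction m with
  | zero => intro d hd; obtain ⟨d, rfl⟩ := Nat.exists_eq_add_of_lt hd; rw [Nat.zero_add]; rfl
  | succ m ih =>
    intro d hd
    obtain ⟨d, rfl⟩ : ∃ e, d = e + 1 := ⟨d - 1, by omega⟩
    rw [tN_succ, ih d (by omega), mul_zero]

section

variable {q : ℚ} (hq : 1 < q)

include hq

theorem qd (d : ℕ) : q ^ (d + 1) - 1 ≠ 0 := by
  have : 1 < q ^ (d + 1) := one_lt_pow₀ hq (by omega)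
  linarith

theorem tN_vert : ∀ k d : ℕ, tN q (d + k) (d + 1) * (q ^ (d + 1) - 1) = tN q (d + k) d * (q ^ (2 * k) - 1) := by
  intro k d
  induction d with
  | zero =>
    rw [tN_zero]
    rcases k with _ | k
    · simp [tN]
    · rw [Nat.zero_add, tN_succ, tN_zero]
      have h1 := qd hq 0
      field_simp
      ring
  | succ d ih =>
    have e1 : d + 1 + k = (d + k) + 1 := by omega
    rw [e1, tN_succ, tN_succ]
    have h1 := qd hq d
    have h2 := qd hq (d + 1)
    have h3 : (q ^ (2 * (d + k) + 2) - 1) / (q ^ (d + 1 + 1) - 1) * tN q (d + k) (d + 1) * (q ^ (d + 1 + 1) - 1) =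
        (q ^ (2 * (d + k) + 2) - 1) * tN q (d + k) (d + 1) := by
      field_simp
    have h4 : (q ^ (2 * (d + k) + 2) - 1) / (q ^ (d + 1) - 1) * tN q (d + k) d * (q ^ (2 * k) - 1) =
        (q ^ (2 * (d + k) + 2) - 1) / (q ^ (d + 1) - 1) * (tN q (d + k) d * (q ^ (2 * k) - 1)) := by ring
    rw [h3, h4, ← ih]
    field_simp

theorem tN_rec (k d : ℕ) : tN q (d + k + 1) (d + 1) =
    (1 + q ^ (d + 2 * k + 1)) * tN q (d + k) d + q ^ (d + 1) * tN q (d + k) (d + 1) := by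
  have h1 := qd hq d
  apply mul_right_cancel₀ h1
  have h2 := tN_vert hq k d
  have h3 : ((1 + q ^ (d + 2 * k + 1)) * tN q (d + k) d + q ^ (d + 1) * tN q (d + k) (d + 1)) * (q ^ (d + 1) - 1) =
      (1 + q ^ (d + 2 * k + 1)) * (q ^ (d + 1) - 1) * tN q (d + k) d + q ^ (d + 1) * (tN q (d + k) (d + 1) * (q ^ (d + 1) - 1)) := by ring
  rw [h3, h2, tN_succ]
  have h4 : (q ^ (2 * (d + k) + 2) - 1) / (q ^ (d + 1) - 1) * tN q (d + k) d * (q ^ (d + 1) - 1) =
      (q ^ (2 * (d + k) + 2) - 1) * tN q (d + k) d := by field_simp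
  rw [h4]
  ring

theorem sum_rec (f : ℕ → ℚ) (m : ℕ) : ∑ d ∈ Finset.range (m + 2), f d * tN q (m + 1) d =
    ∑ e ∈ Finset.range (m + 1), tN q m e * (f (e + 1) + q ^ e * f e + q ^ (2 * m + 1 - e) * f (e + 1)) := by
  rw [Finset.sum_range_succ']
  have h1 : ∀ e ∈ Finset.range (m + 1), f (e + 1) * tN q (m + 1) (e + 1) =
      tN q m e * (f (e + 1) + q ^ (2 * m + 1 - e) * f (e + 1)) + q ^ (e + 1) * f (e + 1) * tN q m (e + 1) := by
    intro e he
    rw [Finset.mem_range] at he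
    obtain ⟨k, rfl⟩ : ∃ k, m = e + k := ⟨m - e, by omega⟩
    rw [tN_rec hq k e, show 2 * (e + k) + 1 - e = e + 2 * k + 1 by omega]
    ring
  rw [Finset.sum_congr rfl h1, Finset.sum_add_distrib, tN_zero]
  have h2 : ∑ e ∈ Finset.range (m + 1), q ^ (e + 1) * f (e + 1) * tN q m (e + 1) + f 0 * 1 =
      ∑ e ∈ Finset.range (m + 1), q ^ e * f e * tN q m e := by
    rw [Finset.sum_range_succ, tN_lt q m (m + 1) (by omega), mul_zero, add_zero, Finset.sum_range_succ' _ m, tN_zero]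
    ring
  rw [add_assoc, h2, ← Finset.sum_add_distrib]
  refine Finset.sum_congr rfl fun e _ => ?_
  ring

theorem choose_succ (d : ℕ) : (d + 1).choose 2 = d.choose 2 + d := by
  rw [Nat.choose_succ_succ' d 1, Nat.choose_one_right, add_comm]

omit hq in
theorem choose_sq (d : ℕ) : d.choose 2 + (d + 1).choose 2 = d ^ 2 := by
  induction d with
  | zero => rfl
  | succ d ih =>
    have h1 : ∀ e : ℕ, (e + 1).choose 2 = e.choose 2 + e := fun e => by
      rw [Nat.choose_succ_succ' e 1, Nat.choose_one_right, add_comm]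
    rw [h1 (d + 1), h1 d] at *
    have : (d + 1) ^ 2 = d ^ 2 + 2 * d + 1 := by ring
    rw [this]
    omega

/-- the weights -/
def wt (q : ℚ) (d : ℕ) : ℚ := (-1) ^ d * q ^ (d.choose 2)

theorem wt_succ (d : ℕ) : wt q (d + 1) = - (q ^ d * wt q d) := by
  unfold wt
  rw [choose_succ hq, pow_succ, pow_add]
  ring

theorem sum_S (m : ℕ) : ∑ d ∈ Finset.range (m + 1), wt q d * tN q m d = (-1) ^ m * q ^ (m ^ 2) := by
  induction m with
  | zero => simp [wt, tN]
  | succ m ih =>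
    rw [sum_rec hq]
    have h1 : ∀ e ∈ Finset.range (m + 1), tN q m e * (wt q (e + 1) + q ^ e * wt q e + q ^ (2 * m + 1 - e) * wt q (e + 1)) =
        (- q ^ (2 * m + 1)) * (wt q e * tN q m e) := by
      intro e he
      rw [Finset.mem_range] at he
      rw [wt_succ hq]
      have : q ^ (2 * m + 1) = q ^ (2 * m + 1 - e) * q ^ e := by rw [← pow_add]; congr 1; omega
      rw [this]
      ring
    rw [Finset.sum_congr rfl h1, ← Finset.mul_sum, ih]
    ring

/-- the exponents -/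
def EE (m d : ℕ) : ℕ := 2 * m * (m - d) + (d + 1).choose 2

theorem sum_G (m : ℕ) : ∑ d ∈ Finset.range (m + 1), wt q d * q ^ (EE m d) * tN q m d = (-1) ^ m * q ^ (m ^ 2) := by
  have h0 : ∀ m, ∀ d ∈ Finset.range (m + 1), wt q d * q ^ (EE m d) * tN q m d =
      ((-1) ^ d * q ^ (m ^ 2 + (m - d) ^ 2)) * tN q m d := by
    intro m d hd
    rw [Finset.mem_range] at hd
    obtain ⟨k, rfl⟩ : ∃ k, m = d + k := ⟨m - d, by omega⟩
    unfold wt EE
    rw [show d + k - d = k by omega, mul_assoc ((-1 : ℚ) ^ d), ← pow_add]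
    congr 3
    have := choose_sq d
    have e1 : (d + k) ^ 2 + k ^ 2 = d ^ 2 + 2 * (d + k) * k := by ring
    rw [e1]
    omega
  rw [Finset.sum_congr rfl (h0 m)]
  induction m with
  | zero => simp [tN]
  | succ m ih =>
    rw [sum_rec hq]
    have h1 : ∀ e ∈ Finset.range (m + 1), tN q m e * ((-1) ^ (e + 1) * q ^ ((m + 1) ^ 2 + (m + 1 - (e + 1)) ^ 2) +
        q ^ e * ((-1) ^ e * q ^ ((m + 1) ^ 2 + (m + 1 - e) ^ 2)) +
        q ^ (2 * m + 1 - e) * ((-1) ^ (e + 1) * q ^ ((m + 1) ^ 2 + (m + 1 - (e + 1)) ^ 2))) =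
        (- q ^ (2 * m + 1)) * ((-1) ^ e * q ^ (m ^ 2 + (m - e) ^ 2) * tN q m e) := by
      intro e he
      rw [Finset.mem_range] at he
      obtain ⟨k, rfl⟩ : ∃ k, m = e + k := ⟨m - e, by omega⟩
      rw [show e + k + 1 - (e + 1) = k by omega, show e + k + 1 - e = k + 1 by omega, show 2 * (e + k) + 1 - e = e + 2 * k + 1 by omega,
        show e + k - e = k by omega]
      ring
    rw [Finset.sum_congr rfl h1, ← Finset.mul_sum, ih]
    ring

end

end H50.SpUni
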