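import Cfsg.Agent.Lib.H50.SpUni1
import Cfsg.Agent.Lib.H50.SpUni2
import Cfsg.Agent.Lib.H85.PrimeSub2

/-!
The number of unipotent isometries of an alternating form.
-/
set_option autoImplicit false
set_option linter.unusedSectionVars false
set_option linter.unusedVariables false
set_option maxHeartbeats 400000

namespace H50.SpUni

open Module

universe u

variable {F : Type u} [Field F] [Finite F]

theorem one_lt_q : (1 : ℚ) < (Nat.card F : ℚ) := by
  exact_mod_cast Finite.one_lt_card

/-! ### totally isotropic subspaces -/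

section ti

theorem ti_le : ∀ (m : ℕ) {V : Type u} [AddCommGroup V] [Module F V] [FiniteDimensional F V] (ω : V →ₗ[F] V →ₗ[F] F),
    SV ω → finrank F V = 2 * m → ∀ W : Submodule F V, Ti ω W → finrank F W ≤ m := by
  intro m
  induction m with
  | zero =>
    intro V _ _ _ ω h hd W hW
    have := Submodule.finrank_le W
    omega
  | succ m ih =>
    intro V _ _ _ ω h hd W hW
    by_cases hb : W = ⊥
    · rw [hb, finrank_bot]; omega
    obtain ⟨r, hr, hr0⟩ := Submodule.exists_mem_ne_zero_of_ne_bot hb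
    obtain ⟨V', _, _, _, ω', e, h', hfr, he, her⟩ := exists_split h hr0
    have h1 : Ti (hy ω') (W.map e.toLinearMap) := (ti_map e he).2 hW
    have h2 : ((1 : F), (0 : F), (0 : V')) ∈ W.map e.toLinearMap := ⟨r, hr, her⟩
    have h3 := unb_bar h1 h2
    have h4 := finrank_unb (bar (W.map e.toLinearMap))
    rw [h3, LinearEquiv.finrank_map_eq] at h4
    have h5 := ih ω' h' (by omega) (bar (W.map e.toLinearMap)) (by rw [← ti_unb (ω := ω'), h3]; exact h1)
    omega

theorem nT_eq : ∀ (m : ℕ) {V : Type u} [AddCommGroup V] [Module F V] [FiniteDimensional F V] (ω : V →ₗ[F] V →ₗ[F] F),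
    SV ω → finrank F V = 2 * m → ∀ d : ℕ, (nT ω d : ℚ) = tN (Nat.card F) m d := by
  intro m
  induction m with
  | zero =>
    intro V _ _ _ ω h hd d
    rcases d with _ | d
    · rw [tN_zero]
      have : nT ω 0 = 1 := by
        unfold nT
        rw [Nat.card_eq_one_iff_unique]
        refine ⟨⟨?_⟩, ⟨⟨⊥, fun u hu v hv => ?_, finrank_bot F V⟩⟩⟩
        · rintro ⟨W, hW⟩ ⟨W', hW'⟩
          apply Subtype.ext
          show W = W'
          rw [Submodule.finrank_eq_zero.1 hW.2, Submodule.finrank_eq_zero.1 hW'.2]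
        · rw [Submodule.mem_bot] at hu
          rw [hu, map_zero, LinearMap.zero_apply]
      rw [this]; norm_num
    · rw [tN_lt _ _ _ (by omega)]
      have : nT ω (d + 1) = 0 := by
        unfold nT
        rw [Nat.card_eq_zero]
        left
        refine ⟨fun W => ?_⟩
        have := ti_le 0 ω h hd W.1 W.2.1
        rw [W.2.2] at this
        omega
      rw [this]; norm_num
  | succ m ih =>
    intro V _ _ _ ω h hd d
    haveI : Finite V := Module.finite_of_finite F
    rcases d with _ | d
    · rw [tN_zero]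
      have : nT ω 0 = 1 := by
        unfold nT
        rw [Nat.card_eq_one_iff_unique]
        refine ⟨⟨?_⟩, ⟨⟨⊥, fun u hu v hv => ?_, finrank_bot F V⟩⟩⟩
        · rintro ⟨W, hW⟩ ⟨W', hW'⟩
          apply Subtype.ext
          show W = W'
          rw [Submodule.finrank_eq_zero.1 hW.2, Submodule.finrank_eq_zero.1 hW'.2]
        · rw [Submodule.mem_bot] at hu
          rw [hu, map_zero, LinearMap.zero_apply]
      rw [this]; norm_num
    · -- double counting
      have hr : ∀ r : {r : V // r ≠ 0}, (Nat.card {W : Submodule F V // (Ti ω W ∧ finrank F W = d + 1) ∧ (r : V) ∈ W} : ℚ) =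
          tN (Nat.card F) m d := by
        intro r
        obtain ⟨V', _, _, _, ω', e, h', hfr, he, her⟩ := exists_split h r.2
        rw [nT_map e he (d + 1) r, her, nT_hy, ih ω' h' (by omega)]
      have e1 : (Σ r : {r : V // r ≠ 0}, {W : Submodule F V // (Ti ω W ∧ finrank F W = d + 1) ∧ (r : V) ∈ W}) ≃
          (Σ W : {W : Submodule F V // Ti ω W ∧ finrank F W = d + 1}, {r : V // r ≠ 0 ∧ r ∈ (W : Submodule F V)}) :=
        { toFun := fun x => ⟨⟨x.2.1, x.2.2.1⟩, ⟨x.1.1, x.1.2, x.2.2.2⟩⟩
          invFun := fun x => ⟨⟨x.2.1, x.2.2.1⟩, ⟨x.1.1, x.1.2, x.2.2.2⟩⟩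
          left_inv := fun x => rfl
          right_inv := fun x => rfl }
      have e2 := Nat.card_congr e1
      classical
      letI : Fintype {r : V // r ≠ 0} := Fintype.ofFinite _
      letI : Fintype {W : Submodule F V // Ti ω W ∧ finrank F W = d + 1} := Fintype.ofFinite _
      rw [Nat.card_sigma, Nat.card_sigma] at e2
      have hn0 : ∀ (U : Submodule F V), Nat.card {r : V // r ≠ 0 ∧ r ∈ U} + 1 = Nat.card F ^ finrank F U := by
        intro U
        rw [← Module.natCard_eq_pow_finrank (K := F) (V := U)]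
        have h1 : Nat.card {r : V // r ≠ 0 ∧ r ∈ U} = Nat.card {x : U // x ≠ 0} := by
          refine Nat.card_congr
            { toFun := fun x => ⟨⟨x.1, x.2.2⟩, fun h => x.2.1 (congrArg Subtype.val h)⟩
              invFun := fun x => ⟨x.1.1, fun h => x.2 (Subtype.ext h), x.1.2⟩
              left_inv := fun x => rfl
              right_inv := fun x => rfl }
        rw [h1]
        letI : Fintype U := Fintype.ofFinite _
        rw [Nat.card_eq_fintype_card, Nat.card_eq_fintype_card, Fintype.card_subtype_compl, Fintype.card_subtype_eq]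
        have : 0 < Fintype.card U := Fintype.card_pos
        omega
      have e3 : (∑ r : {r : V // r ≠ 0}, (Nat.card {W : Submodule F V // (Ti ω W ∧ finrank F W = d + 1) ∧ (r : V) ∈ W} : ℚ)) =
          ((Nat.card F : ℚ) ^ (2 * m + 2) - 1) * tN (Nat.card F) m d := by
        rw [Finset.sum_congr rfl (fun r _ => hr r), Finset.sum_const, nsmul_eq_mul]
        congr 1
        have h1 := hn0 ⊤
        have h2 : Nat.card {r : V // r ≠ 0 ∧ r ∈ (⊤ : Submodule F V)} = Nat.card {r : V // r ≠ 0} :=
          Nat.card_congr (Equiv.subtypeEquivRight fun r => by simp)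
        rw [h2, finrank_top, hd] at h1
        have h3 : ((Nat.card {r : V // r ≠ 0} : ℚ) + 1) = (Nat.card F : ℚ) ^ (2 * (m + 1)) := by exact_mod_cast h1
        rw [Finset.card_univ, ← Nat.card_eq_fintype_card, eq_sub_iff_add_eq, h3]
        congr 1
      have e4 : (∑ W : {W : Submodule F V // Ti ω W ∧ finrank F W = d + 1}, (Nat.card {r : V // r ≠ 0 ∧ r ∈ (W : Submodule F V)} : ℚ)) =
          (nT ω (d + 1) : ℚ) * ((Nat.card F : ℚ) ^ (d + 1) - 1) := by
        have h1 : ∀ W : {W : Submodule F V // Ti ω W ∧ finrank F W = d + 1},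
            (Nat.card {r : V // r ≠ 0 ∧ r ∈ (W : Submodule F V)} : ℚ) = (Nat.card F : ℚ) ^ (d + 1) - 1 := by
          intro W
          have h1 := hn0 W
          rw [W.2.2] at h1
          rw [eq_sub_iff_add_eq]
          exact_mod_cast h1
        rw [Finset.sum_congr rfl (fun W _ => h1 W), Finset.sum_const, nsmul_eq_mul, Finset.card_univ, ← Nat.card_eq_fintype_card]
        rfl
      have e5 : (nT ω (d + 1) : ℚ) * ((Nat.card F : ℚ) ^ (d + 1) - 1) = ((Nat.card F : ℚ) ^ (2 * m + 2) - 1) * tN (Nat.card F) m d := by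
        rw [← e3, ← e4]
        exact_mod_cast e2.symm
      have hq := qd (one_lt_q (F := F)) d
      rw [tN_succ]
      field_simp
      exact e5

end ti

/-! ### alternating sums -/

section alt

variable {V : Type u} [AddCommGroup V] [Module F V] [FiniteDimensional F V] {ω : V →ₗ[F] V →ₗ[F] F}

open Classical in
theorem alt_zero [Fintype (Submodule F V)] (h : SV ω) {C : Submodule F V} {r : V} (hr : r ≠ 0) (hrC : r ∈ C) (h0 : ∀ c ∈ C, ω r c = 0) :
    ∑ W ∈ Finset.univ.filter (fun W : Submodule F V => Ti ω W ∧ W ≤ C), wt (Nat.card F) (finrank F W) = 0 := by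
  have hT1 : ∀ W : Submodule F V, Ti ω W → W ≤ C → Ti ω (W ⊔ F ∙ r) := by
    intro W hW hWC
    have key : ∀ x ∈ W ⊔ F ∙ r, ∃ w ∈ W, ∃ c : F, x = w + c • r := by
      intro x hx
      obtain ⟨w, hw, y, hy, rfl⟩ := Submodule.mem_sup.1 hx
      obtain ⟨c, rfl⟩ := Submodule.mem_span_singleton.1 hy
      exact ⟨w, hw, c, rfl⟩
    intro x hx y hy
    obtain ⟨w, hw, c, rfl⟩ := key x hx
    obtain ⟨w', hw', c', rfl⟩ := key y hy
    simp only [map_add, map_smul, LinearMap.add_apply, LinearMap.smul_apply, smul_eq_mul, hW w hw w' hw', h.alt,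
      h0 _ (hWC hw'), h.skew w r, h0 _ (hWC hw)]
    ring
  rw [← Finset.sum_filter_add_sum_filter_not _ (fun W : Submodule F V => r ∈ W)]
  have hmap : ∀ W ∈ (Finset.univ.filter (fun W : Submodule F V => Ti ω W ∧ W ≤ C)).filter (fun W => ¬ r ∈ W),
      W ⊔ F ∙ r ∈ (Finset.univ.filter (fun W : Submodule F V => Ti ω W ∧ W ≤ C)).filter (fun W => r ∈ W) := by
    intro W hW
    simp only [Finset.mem_filter, Finset.mem_univ, true_and] at hW ⊢
    exact ⟨⟨hT1 W hW.1.1 hW.1.2, sup_le hW.1.2 ((Submodule.span_singleton_le_iff_mem r C).2 hrC)⟩,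
      Submodule.mem_sup_right (Submodule.mem_span_singleton_self r)⟩
  rw [← Finset.sum_fiberwise_of_maps_to hmap, ← Finset.sum_add_distrib]
  apply Finset.sum_eq_zero
  intro W hW
  simp only [Finset.mem_filter, Finset.mem_univ, true_and] at hW
  obtain ⟨⟨hWt, hWC⟩, hrW⟩ := hW
  have hd : 1 ≤ finrank F W := by
    rw [Nat.one_le_iff_ne_zero]
    intro h1
    rw [Submodule.finrank_eq_zero] at h1
    rw [h1, Submodule.mem_bot] at hrW
    exact hr hrW
  -- the fibre
  have hfib : ∀ U : Submodule F V, U ∈ ((Finset.univ.filter (fun W : Submodule F V => Ti ω W ∧ W ≤ C)).filter (fun W => ¬ r ∈ W)).filter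
      (fun U => U ⊔ F ∙ r = W) ↔ (¬ r ∈ U ∧ U ⊔ F ∙ r = W) := by
    intro U
    simp only [Finset.mem_filter, Finset.mem_univ, true_and]
    constructor
    · rintro ⟨⟨_, h1⟩, h2⟩; exact ⟨h1, h2⟩
    · rintro ⟨h1, h2⟩
      have h3 : U ≤ W := by rw [← h2]; exact le_sup_left
      exact ⟨⟨⟨fun u hu v hv => hWt u (h3 hu) v (h3 hv), h3.trans hWC⟩, h1⟩, h2⟩
  have hfin : ∀ U : Submodule F V, ¬ r ∈ U → U ⊔ F ∙ r = W → finrank F U + 1 = finrank F W := by
    intro U h1 h2
    have h3 := Submodule.finrank_sup_add_finrank_inf_eq U (F ∙ r)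
    have h4 : U ⊓ F ∙ r = ⊥ := by
      rw [Submodule.eq_bot_iff]
      rintro x ⟨hx1, hx2⟩
      obtain ⟨c, rfl⟩ := Submodule.mem_span_singleton.1 hx2
      by_cases hc : c = 0
      · rw [hc, zero_smul]
      · exact absurd ((Submodule.smul_mem_iff _ hc).1 hx1) h1
    rw [h4, finrank_bot, h2, finrank_span_singleton hr] at h3
    omega
  have hcard : (((Finset.univ.filter (fun W : Submodule F V => Ti ω W ∧ W ≤ C)).filter (fun W => ¬ r ∈ W)).filter
      (fun U => U ⊔ F ∙ r = W)).card = Nat.card F ^ (finrank F W - 1) := by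
    have h1 : Nat.card {U : Submodule F V // ¬ r ∈ U ∧ U ⊔ F ∙ r = W} = Nat.card {U : Submodule F W // IsCompl (F ∙ (⟨r, hrW⟩ : W)) U} := by
      have hs : (F ∙ (⟨r, hrW⟩ : W)).map W.subtype = F ∙ r := by
        rw [Submodule.map_span, Set.image_singleton]; rfl
      refine Nat.card_congr
        { toFun := fun U => ⟨U.1.comap W.subtype, ?_⟩
          invFun := fun U => ⟨U.1.map W.subtype, ?_, ?_⟩
          left_inv := fun U => ?_
          right_inv := fun U => ?_ }
      · have hUW : U.1 ≤ W := le_trans le_sup_left U.2.2.le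
        constructor
        · rw [Submodule.disjoint_def]
          intro x hx1 hx2
          obtain ⟨c, rfl⟩ := Submodule.mem_span_singleton.1 hx1
          by_cases hc : c = 0
          · rw [hc, zero_smul]
          · have h5 : c • r ∈ U.1 := hx2
            exact absurd ((Submodule.smul_mem_iff _ hc).1 h5) U.2.1
        · rw [codisjoint_iff]
          apply Submodule.map_injective_of_injective W.injective_subtype
          rw [Submodule.map_sup, hs, Submodule.map_comap_subtype, Submodule.map_top, Submodule.range_subtype,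
            inf_eq_right.2 hUW, sup_comm, U.2.2]
      · rintro ⟨x, hx, hxr⟩
        have : x = ⟨r, hrW⟩ := Subtype.ext hxr
        rw [this] at hx
        have h5 := Submodule.disjoint_def.1 U.2.1 _ (Submodule.mem_span_singleton_self _) hx
        exact hr (congrArg Subtype.val h5)
      · have h5 := U.2.2
        rw [codisjoint_iff] at h5
        have h6 := congrArg (Submodule.map W.subtype) h5
        rw [Submodule.map_sup, hs, Submodule.map_top, Submodule.range_subtype, sup_comm] at h6
        exact h6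
      · apply Subtype.ext
        have hUW : U.1 ≤ W := le_trans le_sup_left U.2.2.le
        show (U.1.comap W.subtype).map W.subtype = U.1
        rw [Submodule.map_comap_subtype, inf_eq_right.2 hUW]
      · apply Subtype.ext
        show (U.1.map W.subtype).comap W.subtype = U.1
        exact Submodule.comap_map_eq_of_injective W.injective_subtype _
    rw [← Fintype.card_coe, ← Nat.card_eq_fintype_card, Nat.card_congr (Equiv.subtypeEquivRight hfib), h1]
    letI : Fintype F := Fintype.ofFinite F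
    have h2 := H85.PrimeSub.card_compl (F := F) (V := W) rfl (F ∙ (⟨r, hrW⟩ : W))
      (finrank_span_singleton (fun h => hr (congrArg Subtype.val h)))
    rw [mul_one, mul_one] at h2
    rw [h2, Nat.card_eq_fintype_card]
  have hsum : ∑ U ∈ ((Finset.univ.filter (fun W : Submodule F V => Ti ω W ∧ W ≤ C)).filter (fun W => ¬ r ∈ W)).filter
      (fun U => U ⊔ F ∙ r = W), wt (Nat.card F) (finrank F U) = (Nat.card F : ℚ) ^ (finrank F W - 1) * wt (Nat.card F) (finrank F W - 1) := by
    rw [Finset.sum_congr rfl (fun U hU => ?_), Finset.sum_const, hcard, nsmul_eq_mul]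
    · push_cast; rfl
    · rw [hfib] at hU
      have := hfin U hU.1 hU.2
      rw [← this, Nat.add_sub_cancel]
  rw [hsum]
  obtain ⟨e, he⟩ : ∃ e, finrank F W = e + 1 := ⟨finrank F W - 1, by omega⟩
  rw [he, Nat.add_sub_cancel, wt_succ (one_lt_q (F := F))]
  ring

open Classical in
/-- the basic identity -/
theorem basic_id [Fintype (Submodule F V)] (h : SV ω) :
    ∑ W ∈ Finset.univ.filter (fun W : Submodule F V => Ti ω W), wt (Nat.card F) (finrank F W) * (cU ω W : ℚ) =
    ∑ W ∈ Finset.univ.filter (fun W : Submodule F V => Ti ω W), wt (Nat.card F) (finrank F W) := by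
  haveI : Finite V := Module.finite_of_finite F
  haveI : Finite (V →ₗ[F] V) := DFunLike.finite _
  letI : Fintype (V →ₗ[F] V) := Fintype.ofFinite _
  let fx : (V →ₗ[F] V) → Submodule F V := fun g => LinearMap.ker (g - 1)
  have hfx : ∀ g v, v ∈ fx g ↔ g v = v := by
    intro g v
    show v ∈ LinearMap.ker (g - 1) ↔ _
    rw [LinearMap.mem_ker, LinearMap.sub_apply, Module.End.one_apply, sub_eq_zero]
  have hUn : ∀ (W : Submodule F V) g, Un ω W g ↔ Un ω ⊥ g ∧ W ≤ fx g := by
    intro W g
    constructor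
    · rintro ⟨h1, h2, h3⟩
      exact ⟨⟨h1, h2, fun w hw => by rw [(Submodule.mem_bot F).1 hw, map_zero]⟩, fun w hw => (hfx g w).2 (h3 w hw)⟩
    · rintro ⟨⟨h1, h2, -⟩, h3⟩
      exact ⟨h1, h2, fun w hw => (hfx g w).1 (h3 hw)⟩
  have hc : ∀ W : Submodule F V, wt (Nat.card F) (finrank F W) * (cU ω W : ℚ) =
      ∑ g ∈ Finset.univ.filter (fun g : V →ₗ[F] V => Un ω ⊥ g), if W ≤ fx g then wt (Nat.card F) (finrank F W) else 0 := by
    intro W
    rw [← Finset.sum_filter, Finset.sum_const, nsmul_eq_mul, mul_comm]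
    congr 2
    unfold cU
    rw [Nat.card_eq_fintype_card, Fintype.card_subtype, Finset.filter_filter]
    congr 1
    ext g
    simp only [Finset.mem_filter, Finset.mem_univ, true_and]
    exact hUn W g
  rw [Finset.sum_congr rfl (fun W _ => hc W), Finset.sum_comm]
  have h1 : (1 : V →ₗ[F] V) ∈ Finset.univ.filter (fun g : V →ₗ[F] V => Un ω ⊥ g) := by
    rw [Finset.mem_filter]
    exact ⟨Finset.mem_univ _, fun u v => rfl, ⟨1, by rw [sub_self, pow_one]⟩, fun w _ => rfl⟩
  rw [Finset.sum_eq_single_of_mem 1 h1]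
  · refine Finset.sum_congr rfl fun W _ => ?_
    rw [if_pos]
    intro w _
    exact (hfx 1 w).2 rfl
  · intro g hg hg1
    rw [Finset.mem_filter] at hg
    obtain ⟨-, hg2, ⟨k, hk⟩, -⟩ := hg
    rw [← Finset.sum_filter, Finset.filter_filter]
    -- a radical vector
    obtain ⟨r, hr0, hr1, z, hz⟩ : ∃ r, r ≠ 0 ∧ g r = r ∧ ∃ z, r = g z - z := by
      have hN : g - 1 ≠ 0 := sub_ne_zero.2 hg1
      have hex : ∃ j, (g - 1) ^ j = 0 := ⟨k, hk⟩
      let j := Nat.find hex
      have hj : (g - 1) ^ j = 0 := Nat.find_spec hex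
      have hj0 : j ≠ 0 := by
        intro h0
        have h2 : (1 : V →ₗ[F] V) = 0 := by rw [← hj, h0, pow_zero]
        apply hN
        rw [← mul_one (g - 1), h2, mul_zero]
      have hj1 : j ≠ 1 := by
        intro h0
        rw [h0, pow_one] at hj
        exact hN hj
      obtain ⟨i, hi⟩ : ∃ i, j = i + 2 := ⟨j - 2, by omega⟩
      have hne : (g - 1) ^ (i + 1) ≠ 0 := Nat.find_min hex (by show i + 1 < j; omega)
      obtain ⟨y, hy⟩ : ∃ y, ((g - 1) ^ (i + 1)) y ≠ 0 := by
        by_contra hcon
        push Not at hcon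
        exact hne (LinearMap.ext hcon)
      refine ⟨((g - 1) ^ (i + 1)) y, hy, ?_, ((g - 1) ^ i) y, ?_⟩
      · have h2 : (g - 1) (((g - 1) ^ (i + 1)) y) = 0 := by
          rw [← Module.End.mul_apply, ← pow_succ', show i + 1 + 1 = j by omega, hj]; rfl
        rw [LinearMap.sub_apply, Module.End.one_apply, sub_eq_zero] at h2
        exact h2
      · rw [pow_succ', Module.End.mul_apply]; rfl
    exact alt_zero h hr0 ((hfx g r).2 hr1) (fun c hc => by
      have hc' := (hfx g c).1 hc
      rw [hz, map_sub, LinearMap.sub_apply]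
      nth_rewrite 1 [← hc']
      rw [hg2, sub_self])

open Classical in
theorem sum_dim [Fintype (Submodule F V)] {m : ℕ} (h : SV ω) (hd : finrank F V = 2 * m) (f : ℕ → ℚ) :
    ∑ W ∈ Finset.univ.filter (fun W : Submodule F V => Ti ω W), f (finrank F W) =
    ∑ d ∈ Finset.range (m + 1), f d * tN (Nat.card F) m d := by
  have hmap : ∀ W ∈ Finset.univ.filter (fun W : Submodule F V => Ti ω W), finrank F W ∈ Finset.range (m + 1) := by
    intro W hW
    rw [Finset.mem_filter] at hW
    rw [Finset.mem_range, Nat.lt_succ_iff]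
    exact ti_le m ω h hd W hW.2
  rw [← Finset.sum_fiberwise_of_maps_to hmap]
  refine Finset.sum_congr rfl fun d _ => ?_
  rw [Finset.sum_congr rfl (fun W hW => by rw [(Finset.mem_filter.1 hW).2]), Finset.sum_const, nsmul_eq_mul, mul_comm,
    ← nT_eq m ω h hd]
  congr 2
  unfold nT
  rw [Nat.card_eq_fintype_card, Fintype.card_subtype, Finset.filter_filter]

end alt

/-! ### the count -/

theorem cU_bot {m : ℕ} {V : Type u} [AddCommGroup V] [Module F V] [FiniteDimensional F V] (ω : V →ₗ[F] V →ₗ[F] F)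
    (h : SV ω) (hd : finrank F V = 2 * m) (hW : ∀ W : Submodule F V, Ti ω W → W ≠ ⊥ → cU ω W = Nat.card F ^ (EE m (finrank F W))) :
      cU ω (⊥ : Submodule F V) = Nat.card F ^ (EE m 0) := by
  classical
  haveI : Finite V := Module.finite_of_finite F
  letI : Fintype (Submodule F V) := Fintype.ofFinite _
  have hq := one_lt_q (F := F)
  have h1 := basic_id h
  obtain ⟨f, hf⟩ : ∃ f : ℕ → ℚ, f = fun d => wt (Nat.card F) d * (Nat.card F : ℚ) ^ (EE m d) +
      if d = 0 then ((cU ω (⊥ : Submodule F V) : ℚ) - (Nat.card F : ℚ) ^ (EE m 0)) else 0 := ⟨_, rfl⟩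
  have h2 : ∀ W ∈ Finset.univ.filter (fun W : Submodule F V => Ti ω W), wt (Nat.card F) (finrank F W) * (cU ω W : ℚ) =
      f (finrank F W) := by
    intro W hW'
    rw [Finset.mem_filter] at hW'
    rw [hf]
    by_cases hb : W = ⊥
    · subst hb
      simp only [finrank_bot, if_true]
      unfold wt
      simp
    · have h3 : finrank F W ≠ 0 := fun h => hb (Submodule.finrank_eq_zero.1 h)
      rw [hW W hW'.2 hb]
      simp only [h3, if_false]
      push_cast; ring
  rw [Finset.sum_congr rfl h2, sum_dim h hd f, sum_dim h hd (wt (Nat.card F)), sum_S hq, hf] at h1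
  simp only [add_mul, Finset.sum_add_distrib] at h1
  rw [sum_G hq, add_eq_left] at h1
  simp only [ite_mul, zero_mul, Finset.sum_ite_eq', Finset.mem_range, Nat.succ_pos, if_true, tN_zero, mul_one] at h1
  have h3 : (cU ω (⊥ : Submodule F V) : ℚ) = (Nat.card F : ℚ) ^ (EE m 0) := by linarith
  exact_mod_cast h3

theorem cU_eq : ∀ (m : ℕ) {V : Type u} [AddCommGroup V] [Module F V] [FiniteDimensional F V] (ω : V →ₗ[F] V →ₗ[F] F),
    SV ω → finrank F V = 2 * m → ∀ W : Submodule F V, Ti ω W → cU ω W = Nat.card F ^ (EE m (finrank F W)) := by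
  intro m
  induction m with
  | zero =>
    intro V _ _ _ ω h hd W hW
    have hb : ∀ W : Submodule F V, W = ⊥ := by
      intro W
      have := Submodule.finrank_le W
      exact Submodule.finrank_eq_zero.1 (by omega)
    rw [hb W, finrank_bot]
    exact cU_bot ω h hd fun W _ hW => absurd (hb W) hW
  | succ m ih =>
    intro V _ _ _ ω h hd
    have key : ∀ W : Submodule F V, Ti ω W → W ≠ ⊥ → cU ω W = Nat.card F ^ (EE (m + 1) (finrank F W)) := by
      intro W hW hb
      obtain ⟨r, hr, hr0⟩ := Submodule.exists_mem_ne_zero_of_ne_bot hb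
      obtain ⟨V', _, _, _, ω', e, h', hfr, he, her⟩ := exists_split h hr0
      have h1 : Ti (hy ω') (W.map e.toLinearMap) := (ti_map e he).2 hW
      have h2 : ((1 : F), (0 : F), (0 : V')) ∈ W.map e.toLinearMap := ⟨r, hr, her⟩
      have h3 := unb_bar h1 h2
      have h4 := finrank_unb (bar (W.map e.toLinearMap))
      rw [h3, LinearEquiv.finrank_map_eq] at h4
      have h5 : Ti ω' (bar (W.map e.toLinearMap)) := by rw [← ti_unb (ω := ω'), h3]; exact h1
      have hd' : finrank F V' = 2 * m := by omega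
      have h6 := ti_le m ω' h' hd' _ h5
      have h7 := ih ω' h' hd' _ h5
      rw [← cU_map e he, cU_hy h' h1 h2, h7, card_perp h', hd', ← pow_add, ← pow_succ, h4]
      congr 1
      generalize finrank F (bar (W.map e.toLinearMap)) = d at h6
      unfold EE
      obtain ⟨k, rfl⟩ : ∃ k, m = d + k := ⟨m - d, by omega⟩
      rw [show d + k - d = k by omega, show d + k + 1 - (d + 1) = k by omega, choose_succ (one_lt_q (F := F)) (d + 1)]
      have : 2 * (d + k) - d = d + 2 * k := by omega
      rw [this]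
      ring
    intro W hW
    by_cases hb : W = ⊥
    · rw [hb, finrank_bot]
      exact cU_bot ω h hd key
    · exact key W hW hb

end H50.SpUni
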