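import Cfsg.Agent.Lib.H50.SpUni3

/-!
The number of unipotent elements of the symplectic group.
-/
set_option autoImplicit false
set_option linter.unusedSectionVars false
set_option linter.unusedVariables false
set_option maxHeartbeats 400000

namespace H50.SpUni

open Module Matrix

universe u

variable {F : Type u} [Field F] (m : ℕ)

/-- the standard form -/
noncomputable def om : (Fin m ⊕ Fin m → F) →ₗ[F] (Fin m ⊕ Fin m → F) →ₗ[F] F := Matrix.toLinearMap₂' F (Matrix.J (Fin m) F)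

theorem om_apply (u v : Fin m ⊕ Fin m → F) : om m u v = u ⬝ᵥ (Matrix.J (Fin m) F *ᵥ v) := Matrix.toLinearMap₂'_apply' _ _ _

theorem J_mul_J : Matrix.J (Fin m) F * Matrix.J (Fin m) F = -1 := Matrix.J_squared (Fin m) F

theorem om_sv : SV (om m : (Fin m ⊕ Fin m → F) →ₗ[F] (Fin m ⊕ Fin m → F) →ₗ[F] F) := by
  constructor
  · intro v
    rw [om_apply, Matrix.J, fromBlocks_mulVec, ← Sum.elim_comp_inl_inr v]
    simp only [Sum.elim_comp_inl, Sum.elim_comp_inr, zero_mulVec, zero_add, add_zero, neg_mulVec, one_mulVec]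
    rw [sumElim_dotProduct_sumElim, dotProduct_neg, dotProduct_comm, neg_add_cancel]
  · intro v hv
    have h1 : ∀ w, v ⬝ᵥ w = 0 := by
      intro w
      have h2 := hv (-(Matrix.J (Fin m) F *ᵥ w))
      rw [om_apply, mulVec_neg, mulVec_mulVec, J_mul_J, neg_mulVec, one_mulVec, neg_neg] at h2
      exact h2
    exact dotProduct_eq_zero v h1

theorem pow_nil {p : ℕ} [hp : Fact p.Prime] [CharP F p] (A : ↥(Matrix.symplecticGroup (Fin m) F)) :
    (∃ k : ℕ, orderOf A = p ^ k) ↔ IsNilpotent (Matrix.toLin' (A : Matrix (Fin m ⊕ Fin m) (Fin m ⊕ Fin m) F)ᵀ - 1) := by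
  have hsub : ∀ k, ((A : Matrix (Fin m ⊕ Fin m) (Fin m ⊕ Fin m) F) - 1) ^ (p ^ k) = (A : Matrix (Fin m ⊕ Fin m) (Fin m ⊕ Fin m) F) ^ (p ^ k) - 1 := by
    intro k
    rcases m with _ | m
    · exact Subsingleton.elim _ _
    haveI : CharP (Matrix (Fin (m + 1) ⊕ Fin (m + 1)) (Fin (m + 1) ⊕ Fin (m + 1)) F) p := Matrix.charP p
    rw [sub_pow_char_pow_of_commute p k (Commute.one_right _), one_pow]
  have h1 : ∀ k, (Matrix.toLin' (A : Matrix (Fin m ⊕ Fin m) (Fin m ⊕ Fin m) F)ᵀ - 1) ^ k = 0 ↔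
      ((A : Matrix (Fin m ⊕ Fin m) (Fin m ⊕ Fin m) F) - 1) ^ k = 0 := by
    intro k
    have h2 : Matrix.toLin' (A : Matrix (Fin m ⊕ Fin m) (Fin m ⊕ Fin m) F)ᵀ - 1 =
        Matrix.toLin' (((A : Matrix (Fin m ⊕ Fin m) (Fin m ⊕ Fin m) F) - 1)ᵀ) := by
      rw [transpose_sub, transpose_one, map_sub, Matrix.toLin'_one]; rfl
    rw [h2, ← Matrix.toLin'_pow, LinearEquiv.map_eq_zero_iff, ← transpose_pow]
    constructor
    · intro h
      rw [← transpose_transpose ((_ : Matrix _ _ F) ^ k), h, transpose_zero]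
    · intro h
      rw [h, transpose_zero]
  constructor
  · rintro ⟨k, hk⟩
    refine ⟨p ^ k, (h1 _).2 ?_⟩
    have h3 : A ^ (p ^ k) = 1 := by rw [← hk, pow_orderOf_eq_one]
    have h4 := congrArg Subtype.val h3
    have h5 : (A : Matrix (Fin m ⊕ Fin m) (Fin m ⊕ Fin m) F) ^ (p ^ k) = 1 := h4
    rw [hsub, h5, sub_self]
  · rintro ⟨k, hk⟩
    rw [h1] at hk
    obtain ⟨j, hj⟩ : ∃ j, k ≤ p ^ j := ⟨k, (Nat.lt_pow_self hp.out.one_lt).le⟩
    have h3 := pow_eq_zero_of_le hj hk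
    rw [hsub, sub_eq_zero] at h3
    have h4 : A ^ (p ^ j) = 1 := Subtype.ext h3
    obtain ⟨i, -, hi⟩ := (Nat.dvd_prime_pow hp.out).1 (orderOf_dvd_of_pow_eq_one h4)
    exact ⟨i, hi⟩

theorem card_unipotent [Finite F] {p : ℕ} [hp : Fact p.Prime] [CharP F p] :
    Nat.card {g : ↥(Matrix.symplecticGroup (Fin m) F) // ∃ k : ℕ, orderOf g = p ^ k} = Nat.card F ^ (2 * m ^ 2) := by
  have h1 : Nat.card {g : ↥(Matrix.symplecticGroup (Fin m) F) // ∃ k : ℕ, orderOf g = p ^ k} =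
      cU (om m : (Fin m ⊕ Fin m → F) →ₗ[F] (Fin m ⊕ Fin m → F) →ₗ[F] F) ⊥ := by
    unfold cU
    refine Nat.card_congr (Equiv.ofBijective (fun g => ⟨Matrix.toLin' (g.1 : Matrix (Fin m ⊕ Fin m) (Fin m ⊕ Fin m) F)ᵀ, ?_, ?_, ?_⟩) ⟨?_, ?_⟩)
    · intro u v
      have h2 := g.1.2
      rw [SymplecticGroup.mem_iff] at h2
      rw [om_apply, om_apply, Matrix.toLin'_apply, Matrix.toLin'_apply, mulVec_transpose, ← dotProduct_mulVec, mulVec_mulVec,
        mulVec_mulVec, h2]
    · exact (pow_nil m g.1).1 g.2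
    · intro w hw
      rw [(Submodule.mem_bot F).1 hw, map_zero]
    · rintro ⟨g, hg⟩ ⟨h, hh⟩ he
      have h3 := Matrix.toLin'.injective (congrArg Subtype.val he)
      apply Subtype.ext
      apply Subtype.ext
      exact Matrix.transpose_injective h3
    · rintro ⟨T, h2, h3, -⟩
      have h4 : (LinearMap.toMatrix' T)ᵀ ∈ Matrix.symplecticGroup (Fin m) F := by
        rw [SymplecticGroup.mem_iff, transpose_transpose]
        have h5 : ∀ u v : Fin m ⊕ Fin m → F, u ⬝ᵥ (((LinearMap.toMatrix' T)ᵀ * Matrix.J (Fin m) F * LinearMap.toMatrix' T) *ᵥ v) =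
            u ⬝ᵥ (Matrix.J (Fin m) F *ᵥ v) := by
          intro u v
          have h6 := h2 u v
          rw [om_apply, om_apply] at h6
          rw [← h6, ← mulVec_mulVec, ← mulVec_mulVec, dotProduct_mulVec, vecMul_transpose, LinearMap.toMatrix'_mulVec,
            LinearMap.toMatrix'_mulVec]
        apply Matrix.toLin'.injective
        apply LinearMap.ext
        intro v
        rw [Matrix.toLin'_apply, Matrix.toLin'_apply]
        apply dotProduct_eq
        intro u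
        rw [dotProduct_comm, h5, dotProduct_comm]
      have h5 : Matrix.toLin' ((LinearMap.toMatrix' T)ᵀ)ᵀ = T := by
        rw [transpose_transpose, Matrix.toLin'_toMatrix']
      exact ⟨⟨⟨_, h4⟩, (pow_nil m _).2 (by show IsNilpotent (Matrix.toLin' ((LinearMap.toMatrix' T)ᵀ)ᵀ - 1); rw [h5]; exact h3)⟩,
        Subtype.ext h5⟩
  rw [h1, cU_eq m _ (om_sv m) (by rw [finrank_fintype_fun_eq_card, Fintype.card_sum, Fintype.card_fin]; ring) ⊥
    (fun u hu v hv => by rw [(Submodule.mem_bot F).1 hu, map_zero, LinearMap.zero_apply]), finrank_bot]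
  congr 1
  unfold EE
  simp
  ring

end H50.SpUni
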